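import Cfsg.Agent.Lib.CharDeep.Half.Inv

/-!
# The case of degree `(p - 1) / 2`: the basic situation

`P` has order `p`, `p ^ 2 ∤ |G|`, `|N : C| = f` with `p = 2 f + 1`, and the `p`-regular elements of `C` are central.
-/

set_option autoImplicit false
set_option linter.style.haveILetI false
set_option linter.unusedSectionVars false
set_option linter.unusedVariables false

namespace Cfsg.Agent.Lib.CharDeep.Half

open Cfsg
open Cfsg.Agent.Lib.Blocks.Local Cfsg.Agent.Lib.Blocks.Central Cfsg.Agent.Lib.Blocks.General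
open Cfsg.Agent.Lib.Blocks.Induced
open Cfsg.Agent.Lib.Char.Induced Cfsg.Agent.Lib.Char.Ortho Cfsg.Agent.Lib.Char.Linear
open Cfsg.Agent.Lib.Char.Basic Cfsg.Agent.Lib.Char.GenLattice Cfsg.Agent.Lib.Char.Complete
open Cfsg.Agent.Lib.Char.Degree
open Cfsg.Agent.Lib.ExcP.Gram Cfsg.Agent.Lib.ExcP.Inst Cfsg.Agent.Lib.ExcP.Dual
open Cfsg.Agent.Lib.ModRep.Prime Cfsg.Agent.Lib.ModRep.ThGram Cfsg.Agent.Lib.ModRep.ThIdem
open Cfsg.Agent.Lib.ModRep.ThDeg Cfsg.Agent.Lib.ModRep.Numerics2 Cfsg.Agent.Lib.ModRep.BlockTh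
open Cfsg.Agent.Lib.CharDeep.BrauerDeg
open scoped ComplexConjugate

universe u

variable {G : Type u} [Group G] {p f : ℕ} [hp : Fact p.Prime] {P : Subgroup G}

/-- The situation. -/
structure HD (P : Subgroup G) (p f : ℕ) : Prop where
  hP : Nat.card P = p
  hp2 : ¬ p ^ 2 ∣ Nat.card G
  hf : Nat.card (Nn P) = f * Nat.card (Cn P)
  hpf : p = 2 * f + 1
  hf2 : 2 ≤ f
  hZ : ∀ c : Cn P, ¬ p ∣ orderOf (c : G) → ∀ g : G, g * c = c * g
  hgen : Subgroup.closure {u : G | u ^ p = 1} = ⊤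

/-- Central elements as elements of the centralizer. -/
def zC (P : Subgroup G) (z : Subgroup.center G) : Cn P :=
  ⟨z, Subgroup.mem_centralizer_iff.mpr fun g _ => (Subgroup.mem_center_iff.mp z.2 g)⟩

@[simp] theorem coe_zC (z : Subgroup.center G) : ((zC P z : Cn P) : G) = z := rfl

section Basic

variable [Finite G] (h : HD P p f)

include h

/-- The normalizer is larger than the centralizer. -/
theorem HD.exists_not_mem : ∃ y : Nn P, (y : G) ∉ Cn P := by
  by_contra hcon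
  push Not at hcon
  have h1 : Nn P ≤ Cn P := fun y hy => hcon ⟨y, hy⟩
  have h2 : Nat.card (Nn P) ≤ Nat.card (Cn P) := Subgroup.card_le_of_le h1
  rw [h.hf] at h2
  have h3 : 0 < Nat.card (Cn P) := Nat.card_pos
  have h4 := h.hf2
  nlinarith

/-- Nontrivial elements of `P` are not central. -/
theorem HD.not_central {x : G} (hx : x ∈ P) (hx1 : x ≠ 1) : x ∉ Subgroup.center G := by
  intro hz
  obtain ⟨y, hy⟩ := h.exists_not_mem
  apply hy
  rw [Subgroup.mem_centralizer_iff]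
  intro w hw
  have hw' : w ∈ Subgroup.zpowers x := by
    rw [← eq_zpowers_of_mem h.hP hx hx1]
    exact hw
  obtain ⟨n, rfl⟩ := hw'
  have h2 := (Subgroup.mem_center_iff.mp (Subgroup.zpow_mem _ hz n) (y : G))
  exact h2.symm

/-- Central elements are `p`-regular. -/
theorem HD.reg_of_central {z : G} (hz : z ∈ Subgroup.center G) : ¬ p ∣ orderOf z := by
  intro hd
  have h1 := orderOf_pow_div (p := p) hd
  have h2 : z ^ (orderOf z / p) ∈ Subgroup.center G := Subgroup.pow_mem _ hz _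
  have h3 : z ^ (orderOf z / p) ∈ Cn P := Subgroup.mem_centralizer_iff.mpr fun g _ => Subgroup.mem_center_iff.mp h2 g
  have h4 := mem_of_orderOf_eq h.hP h.hp2 h3 h1
  have hne : z ^ (orderOf z / p) ≠ 1 := by
    intro h5
    rw [h5, orderOf_one] at h1
    exact hp.out.one_lt.ne h1
  exact h.not_central h4 hne h2

/-- A `p`-regular element of the centralizer is central. -/
theorem HD.central_of_reg (c : Cn P) (hc : ¬ p ∣ orderOf (c : G)) : (c : G) ∈ Subgroup.center G :=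
  Subgroup.mem_center_iff.mpr (h.hZ c hc)

/-- Decomposition of elements of the centralizer. -/
theorem HD.exists_dec (c : Cn P) : ∃ (x : P) (z : Subgroup.center G), (c : G) = x * z := by
  obtain ⟨K, hK, hcard, hidx⟩ := exists_complement (P := P) h.hP h.hp2
  obtain ⟨⟨x, k⟩, hxk⟩ := (mul_bijective h.hP hcard hidx).2 c
  have hk : ¬ p ∣ orderOf ((k : Cn P) : G) := by
    intro hd
    apply hcard
    have h1 : orderOf ((k : Cn P) : G) = orderOf k := by
      rw [← Subgroup.orderOf_coe k, ← Subgroup.orderOf_coe (k : Cn P)]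
    rw [h1] at hd
    exact hd.trans (orderOf_dvd_natCard k)
  refine ⟨x, ⟨((k : Cn P) : G), h.central_of_reg _ hk⟩, ?_⟩
  have h2 := congrArg Subtype.val hxk
  simpa using h2.symm

/-- The decomposition of `c`. -/
theorem HD.dec_inj {x x' : P} {z z' : Subgroup.center G} (he : (x : G) * z = x' * z') : x = x' ∧ z = z' := by
  have h1 : (x' : G)⁻¹ * x = z' * (z : G)⁻¹ := by
    have h2 : (x : G) = x' * z' * (z : G)⁻¹ := by
      rw [← he]
      group
    rw [h2]
    group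
  have h3 : (x' : G)⁻¹ * x ∈ P := P.mul_mem (P.inv_mem x'.2) x.2
  have h4 : (x' : G)⁻¹ * x ∈ Subgroup.center G := by
    rw [h1]
    exact (Subgroup.center G).mul_mem z'.2 ((Subgroup.center G).inv_mem z.2)
  have h5 : (x' : G)⁻¹ * x = 1 := by
    by_contra hne
    exact h.not_central h3 hne h4
  constructor
  · apply Subtype.ext
    have := mul_eq_one_iff_eq_inv.mp h5
    simpa using this.symm
  · apply Subtype.ext
    rw [h5] at h1
    have := mul_inv_eq_one.mp h1.symm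
    exact this.symm

/-- The centralizer is abelian. -/
theorem HD.comm_Cn (a b : Cn P) : a * b = b * a := by
  obtain ⟨x, z, hxz⟩ := h.exists_dec a
  obtain ⟨x', z', hxz'⟩ := h.exists_dec b
  apply Subtype.ext
  have h1 : ∀ u v : P, (u : G) * v = v * u := by
    intro u v
    have h2 : IsCyclic P := isCyclic_of_prime_card (p := p) h.hP
    exact congrArg Subtype.val (h2.commutative.is_comm.comm u v)
  simp only [Subgroup.coe_mul]
  rw [hxz, hxz']
  have hz1 := Subgroup.mem_center_iff.mp z.2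
  have hz2 := Subgroup.mem_center_iff.mp z'.2
  calc (x : G) * z * (x' * z') = (x * x') * (z * z') := by
        rw [mul_assoc, ← mul_assoc (z : G), ← hz1 x', mul_assoc, mul_assoc]
    _ = (x' * x) * (z' * z) := by
        rw [h1 x x', hz2 (z : G)]
    _ = (x' : G) * z' * (x * z) := by
        rw [mul_assoc, ← mul_assoc (x : G), hz2 x]
        simp only [mul_assoc]

/-- Irreducible characters of `C` have degree one. -/
theorem HD.irr_one (θ : IrrCharacter (Cn P)) : (θ : Cn P → ℂ) 1 = 1 := by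
  haveI : Fintype (Cn P) := Fintype.ofFinite _
  exact isIrr_deg_one_of_comm h.comm_Cn θ.2

end Basic


section Sums

variable [Fintype G] [Fintype (Cn P)] [Fintype (Nn P)] [Fintype (DD P p)] [Fintype (Subgroup.center G)] [Fintype P]
  (h : HD P p f)

/-- Elements of `P` as elements of the centralizer. -/
def pC (hP : Nat.card P = p) (x : P) : Cn P := ⟨x, le_centralizer hP x.2⟩

@[simp] theorem coe_pC (hP : Nat.card P = p) (x : P) : ((pC hP x : Cn P) : G) = x := rfl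

include h

theorem HD.bij : Function.Bijective (fun a : P × Subgroup.center G => pC h.hP a.1 * zC P a.2) := by
  constructor
  · rintro ⟨x, z⟩ ⟨x', z'⟩ he
    have h1 : (x : G) * z = x' * z' := congrArg Subtype.val he
    obtain ⟨h2, h3⟩ := h.dec_inj h1
    rw [h2, h3]
  · intro c
    obtain ⟨x, z, hxz⟩ := h.exists_dec c
    exact ⟨⟨x, z⟩, Subtype.ext hxz.symm⟩

/-- The sum over the centralizer. -/
theorem HD.sum_Cn (F : Cn P → ℂ) :
    ∑ c, F c = ∑ x : P, ∑ z : Subgroup.center G, F (pC h.hP x * zC P z) := by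
  rw [← h.bij.sum_comp, Fintype.sum_prod_type]

theorem HD.card_Cn : Nat.card (Cn P) = p * Nat.card (Subgroup.center G) := by
  rw [← Nat.card_congr (Equiv.ofBijective _ h.bij), Nat.card_prod, h.hP]

/-- Linear characters of order `p` are trivial on central elements. -/
theorem HD.apply_zC {κ : Cn P →* ℂˣ} (hκ : ∀ x, κ x ^ p = 1) (z : Subgroup.center G) : κ (zC P z) = 1 :=
  apply_eq_one_of_not_dvd hκ _ (h.reg_of_central z.2)

omit [Fintype G] [Fintype (Cn P)] [Fintype (Nn P)] [Fintype (DD P p)] [Fintype (Subgroup.center G)] [Fintype P] in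
theorem HD.cjH_zC [Finite G] (y : Nn P) (z : Subgroup.center G) : cjH P y (zC P z) = zC P z := by
  apply Subtype.ext
  have h1 := Subgroup.mem_center_iff.mp z.2 (y : G)
  simp only [coe_cjH, coe_zC]
  rw [mul_assoc, ← h1, inv_mul_cancel_left]

/-- Invariance of every `θ` with `P` in the kernel. -/
theorem HD.inv_theta {θ : Cn P → ℂ} (hθ : IsIrrCharacter (Cn P) θ) (hθP : ∀ x : Cn P, (x : G) ∈ P → θ x = θ 1)
    (y : Nn P) : cjt P y θ = θ := by
  funext c
  rw [cjt_apply]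
  obtain ⟨⟨x, z⟩, rfl⟩ := h.bij.2 c
  simp only [map_mul, HD.cjH_zC h]
  rw [irr_mul_of_mem hθ hθP (cjH_mem y (x := pC h.hP x) x.2) _, irr_mul_of_mem hθ hθP (u := pC h.hP x) x.2 _]

theorem HD.theta_mul {θ : Cn P → ℂ} (hθ : IsIrrCharacter (Cn P) θ) (a b : Cn P) : θ (a * b) = θ a * θ b := by
  have hcomm := h.comm_Cn
  exact deg_one_mul (isCharacter_of_isIrrCharacter hθ) (isIrr_deg_one_of_comm hcomm hθ) a b

theorem HD.theta_conj {θ : Cn P → ℂ} (hθ : IsIrrCharacter (Cn P) θ) (c : Cn P) : θ c * conj (θ c) = 1 :=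
  mul_conj_eq_one hθ (isIrr_deg_one_of_comm h.comm_Cn hθ) c

end Sums

section Eta

variable [Fintype G] [Fintype (Cn P)] [Fintype (Nn P)]

theorem eta_cjH (d : Cn P →* ℂˣ) (y : Nn P) (x : Cn P) : eta P d (cjH P y x) = eta P d x := by
  simp only [eta, cjH_cjH]
  congr 1
  exact Fintype.sum_equiv (Equiv.mulLeft y) _ _ fun z => rfl

theorem eta_cj (d : Cn P →* ℂˣ) (y : Nn P) (x : Cn P) : eta P (cj P y d) x = eta P d x := by
  simp only [eta, cj_apply, cjH_cjH]
  congr 1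
  exact Fintype.sum_equiv (Equiv.mulRight y) _ _ fun z => rfl

theorem eta_one (d : Cn P →* ℂˣ) (hf : Nat.card (Nn P) = f * Nat.card (Cn P)) : eta P d 1 = f := by
  have hC := card_ne_zero_Cn (P := P)
  simp only [eta, map_one, Units.val_one, Finset.sum_const, Finset.card_univ, ← Nat.card_eq_fintype_card, hf,
    nsmul_eq_mul, mul_one]
  push_cast
  field_simp

theorem conj_eta (d : Cn P →* ℂˣ) (x : Cn P) : conj (eta P d x) = eta P d⁻¹ x := by
  simp only [eta, map_mul, map_inv₀, map_natCast, map_sum, conj_hom]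

end Eta

section Orb

variable [Fintype G] [Fintype (Cn P)] [Fintype (Nn P)] [Fintype (DD P p)] (h : HD P p f)

omit [Fintype G] in
theorem mem_orbF_self (d : DD P p) : d ∈ orbF d := by
  classical
  simp only [orbF, Finset.mem_filter, Finset.mem_univ, true_and]
  exact ⟨1, by rw [cj_one]⟩

omit [Fintype G] in
theorem mem_orbF_iff {d d' : DD P p} : d ∈ orbF d' ↔ ∃ u : Nn P, d.1 = cj P u d'.1 := by
  classical
  simp only [orbF, Finset.mem_filter, Finset.mem_univ, true_and]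

theorem eta_of_mem_orbF {d d' : DD P p} (hd : d ∈ orbF d') (x : Cn P) : eta P d.1 x = eta P d'.1 x := by
  obtain ⟨u, hu⟩ := mem_orbF_iff.mp hd
  rw [hu, eta_cj]

omit [Fintype G] in
theorem orbF_symm {d d' : DD P p} (hd : d ∈ orbF d') : d' ∈ orbF d := by
  obtain ⟨u, hu⟩ := mem_orbF_iff.mp hd
  refine mem_orbF_iff.mpr ⟨u⁻¹, ?_⟩
  rw [hu, ← cj_mul, inv_mul_cancel, cj_one]

omit [Fintype G] in
theorem orbF_trans {a b c : DD P p} (hab : a ∈ orbF b) (hbc : b ∈ orbF c) : a ∈ orbF c := by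
  obtain ⟨u, hu⟩ := mem_orbF_iff.mp hab
  obtain ⟨v, hv⟩ := mem_orbF_iff.mp hbc
  refine mem_orbF_iff.mpr ⟨u * v, ?_⟩
  rw [hu, hv, cj_mul]

/-- The sum over the orbit of the values. -/
theorem sum_orbF_apply (hP : Nat.card P = p) (hp2 : ¬ p ^ 2 ∣ Nat.card G) (d₀ : DD P p) (x : Cn P) :
    ∑ d ∈ orbF d₀, ((d.1 x : ℂˣ) : ℂ) = eta P d₀.1 x := by
  rw [sum_orbF hP hp2 d₀]
  simp only [eta, cj_apply]

include h

/-- There are exactly two orbits. -/
theorem HD.orb_cases {d₁ d₂ : DD P p} (hd : d₂ ∉ orbF d₁) (d : DD P p) : d ∈ orbF d₁ ∨ d ∈ orbF d₂ := by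
  classical
  have hdisj : Disjoint (orbF d₁) (orbF d₂) := by
    rw [Finset.disjoint_left]
    intro a ha hb
    exact hd (orbF_trans (orbF_symm hb) ha)
  have h1 : (orbF d₁ ∪ orbF d₂).card = 2 * f := by
    rw [Finset.card_union_of_disjoint hdisj, card_orbF h.hP h.hp2 d₁ h.hf, card_orbF h.hP h.hp2 d₂ h.hf]
    ring
  have h2 : orbF d₁ ∪ orbF d₂ = Finset.univ := by
    apply Finset.eq_univ_of_card
    rw [h1, ← Nat.card_eq_fintype_card, card_DD h.hP h.hp2, h.hpf]
    omega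
  have h3 : d ∈ orbF d₁ ∪ orbF d₂ := by
    rw [h2]
    exact Finset.mem_univ _
  exact Finset.mem_union.mp h3

/-- Existence of the second orbit. -/
theorem HD.exists_other (d₁ : DD P p) : ∃ d₂ : DD P p, d₂ ∉ orbF d₁ := by
  by_contra hcon
  push Not at hcon
  have h1 : orbF d₁ = Finset.univ := Finset.eq_univ_of_forall hcon
  have h2 := card_orbF h.hP h.hp2 d₁ h.hf
  rw [h1, Finset.card_univ, ← Nat.card_eq_fintype_card, card_DD h.hP h.hp2, h.hpf] at h2
  have := h.hf2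
  omega

/-- The sum of the two periods. -/
theorem HD.sum_orb {d₁ d₂ : DD P p} (hd : d₂ ∉ orbF d₁) (g : DD P p → ℂ) :
    ∑ d, g d = ∑ d ∈ orbF d₁, g d + ∑ d ∈ orbF d₂, g d := by
  classical
  have hdisj : Disjoint (orbF d₁) (orbF d₂) := by
    rw [Finset.disjoint_left]
    intro a ha hb
    exact hd (orbF_trans (orbF_symm hb) ha)
  rw [← Finset.sum_union hdisj]
  apply Finset.sum_congr _ fun _ _ => rfl
  ext a
  simp only [Finset.mem_univ, Finset.mem_union, true_iff]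
  exact h.orb_cases hd a

theorem HD.eta_add {d₁ d₂ : DD P p} (hd : d₂ ∉ orbF d₁) {x : Cn P} (hx : (x : G) ∈ P) (hx1 : x ≠ 1) :
    eta P d₁.1 x + eta P d₂.1 x = -1 := by
  rw [← sum_orbF_apply h.hP h.hp2 d₁, ← sum_orbF_apply h.hP h.hp2 d₂, ← h.sum_orb hd]
  exact sum_DD_apply h.hP h.hp2 hx hx1

/-- The orthogonality relation for values in `P`. -/
theorem HD.sum_DD_mul_conj {a b : Cn P} (ha : (a : G) ∈ P) (hb : (b : G) ∈ P) :
    open scoped Classical in
    ∑ d : DD P p, ((d.1 a : ℂˣ) : ℂ) * conj ((d.1 b : ℂˣ) : ℂ) = if a = b then (2 * f : ℂ) else -1 := by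
  classical
  by_cases hab : a = b
  · subst hab
    rw [if_pos rfl]
    have h1 : ∀ d : DD P p, ((d.1 a : ℂˣ) : ℂ) * conj ((d.1 a : ℂˣ) : ℂ) = 1 := by
      intro d
      rw [conj_hom, MonoidHom.inv_apply]
      simp
    have hcard : (Fintype.card (DD P p) : ℂ) = 2 * f := by
      rw [← Nat.card_eq_fintype_card, card_DD h.hP h.hp2]
      have h2 : p - 1 = 2 * f := by
        have := h.hpf
        omega
      rw [h2]
      push_cast
      rfl
    simp only [h1, Finset.sum_const, Finset.card_univ, nsmul_eq_mul, mul_one, hcard]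
  · rw [if_neg hab]
    have h1 : ∀ d : DD P p, ((d.1 a : ℂˣ) : ℂ) * conj ((d.1 b : ℂˣ) : ℂ) = ((d.1 (a * b⁻¹) : ℂˣ) : ℂ) := by
      intro d
      rw [conj_hom, MonoidHom.inv_apply, map_mul, map_inv]
      simp
    simp only [h1]
    apply sum_DD_apply h.hP h.hp2 (w := a * b⁻¹)
    · exact P.mul_mem ha (P.inv_mem hb)
    · intro he
      exact hab (mul_inv_eq_one.mp he)

/-- Homomorphisms which agree at an element of `P`. -/
theorem HD.hom_ext {a b : Cn P →* ℂˣ} (ha : ∀ c, a c ^ p = 1) (hb : ∀ c, b c ^ p = 1) {x : Cn P}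
    (hx : (x : G) ∈ P) (hx1 : x ≠ 1) (he : a x = b x) : a = b := by
  have h1 : a * b⁻¹ = 1 := by
    apply eq_one_of_trivial_on h.hP h.hp2
    · intro c
      rw [MonoidHom.mul_apply, mul_pow, MonoidHom.inv_apply, inv_pow, ha, hb]
      simp
    · intro c hc
      have hx1' : (x : G) ≠ 1 := fun h0 => hx1 (Subtype.ext h0)
      have h2 : (c : G) ∈ Subgroup.zpowers (x : G) := by
        rw [← eq_zpowers_of_mem h.hP hx hx1']
        exact hc
      obtain ⟨n, hn⟩ := h2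
      have h3 : c = x ^ n := by
        apply Subtype.ext
        simpa using hn.symm
      rw [h3, map_zpow, MonoidHom.mul_apply, MonoidHom.inv_apply, he, mul_inv_cancel, one_zpow]
  exact mul_inv_eq_one.mp h1

/-- The number of conjugates. -/
theorem HD.card_cjH_eq (d₀ : DD P p) {x : Cn P} (hx : (x : G) ∈ P) (hx1 : x ≠ 1) (y : Nn P) :
    open scoped Classical in
    ((Finset.univ.filter (fun z : Nn P => cjH P y x = cjH P z x)).card : ℂ) = Nat.card (Cn P) := by
  classical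
  have h1 : Finset.univ.filter (fun z : Nn P => cjH P y x = cjH P z x) =
      Finset.univ.filter (fun z : Nn P => cj P y d₀.1 = cj P z d₀.1) := by
    ext z
    simp only [Finset.mem_filter, Finset.mem_univ, true_and]
    constructor
    · intro he
      apply h.hom_ext (a := cj P y d₀.1) (b := cj P z d₀.1) (fun c => d₀.2.1 _) (fun c => d₀.2.1 _) hx hx1
      rw [cj_apply, cj_apply, he]
    · intro he
      have h2 : d₀.1 (cjH P y x) = d₀.1 (cjH P z x) := by
        rw [← cj_apply, ← cj_apply, he]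
      exact inj_on h.hP h.hp2 d₀.2.1 d₀.2.2 (cjH_mem y hx) (cjH_mem z hx) h2
  rw [h1, ← card_conj_eq h.hP h.hp2 d₀.2 y, Nat.card_eq_fintype_card, Fintype.card_subtype]

/-- The sum of the norms of the two periods. -/
theorem HD.eta_norm {d₁ d₂ : DD P p} (hd : d₂ ∉ orbF d₁) {x : Cn P} (hx : (x : G) ∈ P) (hx1 : x ≠ 1) :
    eta P d₁.1 x * conj (eta P d₁.1 x) + eta P d₂.1 x * conj (eta P d₂.1 x) = (f : ℂ) + 1 := by
  classical
  have hC := card_ne_zero_Cn (P := P)
  have hf0 : (f : ℂ) ≠ 0 := by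
    have := h.hf2
    exact Nat.cast_ne_zero.mpr (by omega)
  have hN : (Fintype.card (Nn P) : ℂ) = f * Nat.card (Cn P) := by
    rw [← Nat.card_eq_fintype_card, h.hf]
    push_cast
    rfl
  -- the sum over all `d`
  have h1 : ∑ d : DD P p, eta P d.1 x * conj (eta P d.1 x) =
      (f : ℂ) * (eta P d₁.1 x * conj (eta P d₁.1 x) + eta P d₂.1 x * conj (eta P d₂.1 x)) := by
    rw [h.sum_orb hd]
    have h2 : ∀ d₀ : DD P p, ∑ d ∈ orbF d₀, eta P d.1 x * conj (eta P d.1 x) =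
        (f : ℂ) * (eta P d₀.1 x * conj (eta P d₀.1 x)) := by
      intro d₀
      rw [Finset.sum_congr rfl (fun d hd' => by rw [eta_of_mem_orbF hd' x]), Finset.sum_const,
        card_orbF h.hP h.hp2 d₀ h.hf, nsmul_eq_mul]
    rw [h2, h2]
    ring
  have h2 : ∑ d : DD P p, eta P d.1 x * conj (eta P d.1 x) = (f : ℂ) * ((2 * f + 1 : ℂ) - f) := by
    have h3 : ∀ d : DD P p, eta P d.1 x * conj (eta P d.1 x) = ((Nat.card (Cn P) : ℂ)⁻¹) ^ 2 *
        ∑ y : Nn P, ∑ z : Nn P, ((d.1 (cjH P y x) : ℂˣ) : ℂ) * conj ((d.1 (cjH P z x) : ℂˣ) : ℂ) := by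
      intro d
      simp only [eta, map_mul, map_inv₀, map_natCast, map_sum]
      rw [mul_mul_mul_comm, Finset.sum_mul_sum, sq]
    simp only [h3]
    rw [← Finset.mul_sum, Finset.sum_comm]
    have h4 : ∀ y : Nn P, ∑ d : DD P p, ∑ z : Nn P, ((d.1 (cjH P y x) : ℂˣ) : ℂ) * conj ((d.1 (cjH P z x) : ℂˣ) : ℂ) =
        (Nat.card (Cn P) : ℂ) * ((2 * f + 1 : ℂ) - f) := by
      intro y
      rw [Finset.sum_comm]
      have h5 : ∀ z : Nn P, ∑ d : DD P p, ((d.1 (cjH P y x) : ℂˣ) : ℂ) * conj ((d.1 (cjH P z x) : ℂˣ) : ℂ) =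
          (if cjH P y x = cjH P z x then (2 * f + 1 : ℂ) else 0) - 1 := by
        intro z
        rw [h.sum_DD_mul_conj (cjH_mem y hx) (cjH_mem z hx)]
        split_ifs <;> ring
      simp only [h5]
      rw [Finset.sum_sub_distrib, Finset.sum_ite, Finset.sum_const_zero, add_zero, Finset.sum_const, nsmul_eq_mul]
      obtain ⟨d₀⟩ : Nonempty (DD P p) := ⟨d₁⟩
      rw [h.card_cjH_eq d₀ hx hx1 y]
      simp only [Finset.sum_const, Finset.card_univ, nsmul_eq_mul, mul_one, hN]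
      ring
    simp only [h4, Finset.sum_const, Finset.card_univ, nsmul_eq_mul, hN]
    field_simp
  rw [h1] at h2
  have h3 := mul_left_cancel₀ hf0 h2
  rw [h3]
  ring

end Orb


section Swap

variable [Fintype G] [Fintype (Cn P)] [Fintype (Nn P)] [Fintype (DD P p)] (h : HD P p f)

/-- The inverse of `d`. -/
def dinv (d : DD P p) : DD P p :=
  ⟨d.1⁻¹, fun c => by rw [MonoidHom.inv_apply, inv_pow, d.2.1, inv_one], fun h0 => d.2.2 (MonoidHom.ext fun c => by
    have h1 := congrArg (fun m : Cn P →* ℂˣ => m c) h0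
    simpa [MonoidHom.inv_apply] using h1)⟩

@[simp] theorem coe_dinv (d : DD P p) : (dinv d).1 = d.1⁻¹ := rfl

include h

/-- `d₂` is a power of `d₁`. -/
theorem HD.exists_pow (d₁ d₂ : DD P p) {x : Cn P} (hx : (x : G) ∈ P) (hx1 : x ≠ 1) :
    ∃ t : ℕ, d₂.1 = d₁.1 ^ t := by
  have hw1 : d₁.1 x ≠ 1 := by
    intro h0
    apply hx1
    have h1 : d₁.1 x = d₁.1 1 := by rw [h0, map_one]
    exact inj_on h.hP h.hp2 d₁.2.1 d₁.2.2 hx (by simp) h1
  have hord : orderOf (d₁.1 x) = p := orderOf_eq_prime (d₁.2.1 x) hw1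
  have hprim : IsPrimitiveRoot ((d₁.1 x : ℂˣ) : ℂ) p := by
    have h1 := (IsPrimitiveRoot.orderOf (d₁.1 x)).map_of_injective (f := Units.coeHom ℂ) Units.val_injective
    rw [hord] at h1
    exact h1
  have hw2 : ((d₂.1 x : ℂˣ) : ℂ) ^ p = 1 := by
    have h1 := congrArg Units.val (d₂.2.1 x)
    simpa using h1
  haveI : NeZero p := ⟨hp.out.ne_zero⟩
  obtain ⟨t, -, ht⟩ := hprim.eq_pow_of_pow_eq_one hw2
  refine ⟨t, ?_⟩
  apply h.hom_ext (a := d₂.1) (b := d₁.1 ^ t) d₂.2.1 _ hx hx1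
  · rw [MonoidHom.pow_apply]
    apply Units.ext
    rw [Units.val_pow_eq_pow_val, ht]
  · intro c
    rw [MonoidHom.pow_apply, pow_right_comm, d₁.2.1, one_pow]

/-- The two classes of `P#` are swapped by a power map. -/
theorem HD.exists_swap {d₁ d₂ : DD P p} (hd : d₂ ∉ orbF d₁) {x : Cn P} (hx : (x : G) ∈ P) (hx1 : x ≠ 1) :
    ∃ x' : Cn P, (x' : G) ∈ P ∧ x' ≠ 1 ∧ eta P d₁.1 x' = eta P d₂.1 x ∧ eta P d₂.1 x' = eta P d₁.1 x := by
  obtain ⟨t, ht⟩ := h.exists_pow d₁ d₂ hx hx1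
  have hpt : ¬ p ∣ t := by
    rintro ⟨k, rfl⟩
    apply d₂.2.2
    rw [ht]
    ext c
    rw [MonoidHom.pow_apply, pow_mul, d₁.2.1, one_pow]
    rfl
  have hcop : ∀ w : ℂˣ, w ^ p = 1 → w ^ t = 1 → w = 1 := fun w h1 h2 => eq_one_of_pow_eq_one hp.out hpt h1 h2
  have hx't : x ^ t ≠ 1 := by
    intro h0
    apply d₂.2.2
    apply h.hom_ext (a := d₂.1) (b := 1) d₂.2.1 (by simp) hx hx1
    rw [ht, MonoidHom.pow_apply, ← map_pow, h0, map_one]
    rfl
  have hd3 : IsD P p (d₂.1 ^ t) := by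
    refine ⟨fun c => ?_, fun h0 => d₂.2.2 ?_⟩
    · rw [MonoidHom.pow_apply, pow_right_comm, d₂.2.1, one_pow]
    · ext c
      have h1 : (d₂.1 ^ t) c = 1 := by rw [h0]; rfl
      rw [MonoidHom.pow_apply] at h1
      rw [hcop _ (d₂.2.1 c) h1]
      rfl
  let d₃ : DD P p := ⟨d₂.1 ^ t, hd3⟩
  have hd₃ : d₃ ∈ orbF d₁ := by
    rcases h.orb_cases hd d₃ with h1 | h1
    · exact h1
    · exfalso
      obtain ⟨u, hu⟩ := mem_orbF_iff.mp h1
      apply hd
      refine mem_orbF_iff.mpr ⟨u, ?_⟩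
      ext c
      have h2 : (d₂.1 c) ^ t = (cj P u d₁.1 c) ^ t := by
        have h3 : (d₂.1 ^ t) c = cj P u d₂.1 c := congrArg (fun m : Cn P →* ℂˣ => m c) hu
        rw [MonoidHom.pow_apply] at h3
        rw [h3, cj_apply, ht, MonoidHom.pow_apply, cj_apply]
      have h3 : d₂.1 c * (cj P u d₁.1 c)⁻¹ = 1 := by
        apply hcop
        · rw [mul_pow, inv_pow, d₂.2.1, cj_apply, d₁.2.1]
          simp
        · rw [mul_pow, inv_pow, h2, mul_inv_cancel]
      rw [mul_inv_eq_one.mp h3]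
  refine ⟨x ^ t, (P.pow_mem hx t), hx't, ?_, ?_⟩
  · simp only [eta, map_pow]
    rw [ht]
    simp only [MonoidHom.pow_apply, Units.val_pow_eq_pow_val]
  · have h1 : eta P d₂.1 (x ^ t) = eta P d₃.1 x := by
      simp only [eta, map_pow, d₃, MonoidHom.pow_apply, Units.val_pow_eq_pow_val]
    rw [h1, eta_of_mem_orbF hd₃]

/-- Real periods. -/
theorem HD.conj_eta_A {d₁ : DD P p} (hA : dinv d₁ ∈ orbF d₁) (x : Cn P) : conj (eta P d₁.1 x) = eta P d₁.1 x := by
  rw [conj_eta]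
  exact eta_of_mem_orbF hA x

/-- Complex periods. -/
theorem HD.conj_eta_B {d₁ d₂ : DD P p} (hd : d₂ ∉ orbF d₁) (hB : dinv d₁ ∉ orbF d₁) (x : Cn P) :
    conj (eta P d₁.1 x) = eta P d₂.1 x := by
  rw [conj_eta]
  exact eta_of_mem_orbF ((h.orb_cases hd _).resolve_left hB) x

/-- Case `A`: the relations. -/
theorem HD.rel_A {d₁ d₂ : DD P p} (hd : d₂ ∉ orbF d₁) (hA : dinv d₁ ∈ orbF d₁) {x : Cn P} (hx : (x : G) ∈ P)
    (hx1 : x ≠ 1) : conj (eta P d₁.1 x) = eta P d₁.1 x ∧ conj (eta P d₂.1 x) = eta P d₂.1 x ∧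
      eta P d₁.1 x + eta P d₂.1 x = -1 ∧ 2 * (eta P d₁.1 x * eta P d₂.1 x) = - (f : ℂ) := by
  have h1 := h.conj_eta_A hA x
  have h2 := h.eta_add hd hx hx1
  have h3 : conj (eta P d₂.1 x) = eta P d₂.1 x := by
    have h4 : eta P d₂.1 x = -1 - eta P d₁.1 x := by linear_combination h2
    rw [h4, map_sub, map_neg, map_one, h1]
  have h4 := h.eta_norm hd hx hx1
  rw [h1, h3] at h4
  refine ⟨h1, h3, h2, ?_⟩
  linear_combination (eta P d₁.1 x + eta P d₂.1 x - 1) * h2 - h4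

/-- Case `B`: the relations. -/
theorem HD.rel_B {d₁ d₂ : DD P p} (hd : d₂ ∉ orbF d₁) (hB : dinv d₁ ∉ orbF d₁) {x : Cn P} (hx : (x : G) ∈ P)
    (hx1 : x ≠ 1) : conj (eta P d₁.1 x) = eta P d₂.1 x ∧ conj (eta P d₂.1 x) = eta P d₁.1 x ∧
      eta P d₁.1 x + eta P d₂.1 x = -1 ∧ 2 * (eta P d₁.1 x * eta P d₂.1 x) = (f : ℂ) + 1 := by
  have h1 := h.conj_eta_B hd hB x
  have h2 := h.eta_add hd hx hx1
  have h3 : conj (eta P d₂.1 x) = eta P d₁.1 x := by
    rw [← h1, Complex.conj_conj]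
  have h4 := h.eta_norm hd hx hx1
  rw [h1, h3] at h4
  refine ⟨h1, h3, h2, ?_⟩
  linear_combination h4

/-- The periods are different. -/
theorem HD.eta_ne {d₁ d₂ : DD P p} (hd : d₂ ∉ orbF d₁) {x : Cn P} (hx : (x : G) ∈ P) (hx1 : x ≠ 1) :
    eta P d₁.1 x ≠ eta P d₂.1 x := by
  intro he
  have h1 := h.eta_add hd hx hx1
  have h2 := h.eta_norm hd hx hx1
  rw [← he] at h1 h2
  have h3 : eta P d₁.1 x = -(1 / 2) := by linear_combination (1 / 2) * h1
  rw [h3] at h2
  have h4 : conj (-(1 / 2) : ℂ) = -(1 / 2) := by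
    have h8 : (-(1 / 2) : ℂ) = ((-(1 / 2 : ℝ) : ℝ) : ℂ) := by
      push_cast
      ring
    rw [h8, Complex.conj_ofReal]
  rw [h4] at h2
  have h5 : ((1 : ℂ) / 2) = (f : ℂ) + 1 := by linear_combination h2
  have h6 : ((1 : ℝ) / 2) = (f : ℝ) + 1 := by
    apply Complex.ofReal_injective
    push_cast
    exact h5
  have h7 : (0 : ℝ) ≤ f := Nat.cast_nonneg f
  linarith

/-- The first period is not constant. -/
theorem HD.exists_eta_ne {d₁ d₂ : DD P p} (hd : d₂ ∉ orbF d₁) {x : Cn P} (hx : (x : G) ∈ P) (hx1 : x ≠ 1) :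
    ∃ x' : Cn P, (x' : G) ∈ P ∧ x' ≠ 1 ∧ eta P d₁.1 x' ≠ eta P d₁.1 x := by
  obtain ⟨x', h1, h2, h3, -⟩ := h.exists_swap hd hx hx1
  exact ⟨x', h1, h2, by rw [h3]; exact (h.eta_ne hd hx hx1).symm⟩

/-- Generation by the conjugates of `P`. -/
theorem HD.ker_of_P {ξ : G → ℂ} (hξ : IsCharacter G ξ) (hP1 : ∀ x ∈ P, ξ x = ξ 1) (g : G) : ξ g = ξ 1 := by
  have hle : Subgroup.closure {u : G | u ^ p = 1} ≤ charKer hξ := by
    rw [Subgroup.closure_le]
    intro u hu
    show ξ u = ξ 1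
    by_cases hu1 : u = 1
    · rw [hu1]
    · have hord : orderOf u = p := orderOf_eq_prime hu hu1
      have hcard : Nat.card (Subgroup.zpowers u) = p := by rw [Nat.card_zpowers, hord]
      obtain ⟨x, hx⟩ := exists_conj_of_card h.hP h.hp2 hcard
      have hmem : u ∈ P.map (MulAut.conj x).toMonoidHom := by
        rw [hx]
        exact Subgroup.mem_zpowers u
      obtain ⟨w, hw, hwu⟩ := Subgroup.mem_map.mp hmem
      rw [← hwu]
      have h2 : (MulAut.conj x).toMonoidHom w = x * w * x⁻¹ := rfl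
      rw [h2, isClassFunction_of_isCharacter hξ w x]
      exact hP1 w hw
  have hg : g ∈ charKer hξ := hle (by rw [h.hgen]; trivial)
  exact hg

end Swap

section Facts

variable [Fintype G] [Fintype (Cn P)] [Fintype (Nn P)] [Fintype (DD P p)] [Fintype (IrrCharacter G)]
  [Fintype (IrrCharacter (Cn P))] [Fintype (Subgroup.center G)] [Fintype P] {M : Ideal AlgInt} (h : HD P p f)
  {θ : IrrCharacter (Cn P)} (hθP : ∀ x : Cn P, (x : G) ∈ P → (θ : Cn P → ℂ) x = (θ : Cn P → ℂ) 1)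
  (F : Fam M P p θ)

include h hθP

theorem HD.rT_iff (a b : DD P p) : (rT P p (θ : Cn P → ℂ)) a b ↔ a ∈ orbF b := by
  rw [mem_orbF_iff]
  constructor
  · rintro ⟨y, -, hy⟩
    exact ⟨y, hy⟩
  · rintro ⟨y, hy⟩
    exact ⟨y, mem_stabN_iff.mpr (h.inv_theta θ.2 hθP y), hy⟩

theorem HD.nu_eq_iff (a b : DD P p) : F.ν a = F.ν b ↔ a ∈ orbF b := by
  rw [F.hν, h.rT_iff hθP]

theorem HD.fam_e : F.e = f := by
  classical
  have hne : Nonempty (DD P p) := by
    rw [← Fintype.card_pos_iff, ← Nat.card_eq_fintype_card, card_DD h.hP h.hp2]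
    have := hp.out.two_le
    omega
  obtain ⟨b⟩ := hne
  rw [← F.hcls b, ← card_orbF h.hP h.hp2 b h.hf, Nat.card_eq_fintype_card, Fintype.card_subtype]
  congr 1
  ext a
  simp only [Finset.mem_filter, Finset.mem_univ, true_and]
  exact h.rT_iff hθP a b

theorem HD.card_X : F.X.card = f := by
  rw [F.hXe, h.fam_e hθP]

theorem HD.factor_one : (Cn P).relIndex (Nn P) / F.e * charDegree (θ : Cn P → ℂ) = 1 := by
  have h1 : charDegree (θ : Cn P → ℂ) = 1 := charDegree_eq_of_eq_natCast (by rw [h.irr_one θ]; simp)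
  have hf0 : 0 < f := by
    have := h.hf2
    omega
  rw [h.fam_e hθP, relIndex_eq h.hf, Nat.div_self hf0, h1]

theorem HD.dX {χ : IrrCharacter G} (hχ : χ ∈ F.X) : (p : ℤ) ∣ (charDegree (χ : G → ℂ) : ℤ) - F.εX χ := by
  have h1 := F.hdX χ hχ
  rw [h.factor_one hθP] at h1
  simpa using h1

theorem HD.dν (d : DD P p) : (p : ℤ) ∣ (charDegree (F.ν d : G → ℂ) : ℤ) - F.ε * f := by
  have h1 := F.hdν d
  rw [h.factor_one hθP, h.fam_e hθP] at h1
  simpa using h1

theorem HD.deg_X_minus {χ : IrrCharacter G} (hχ : χ ∈ F.X) (hε : F.εX χ = -1) : 2 * f ≤ charDegree (χ : G → ℂ) := by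
  have h1 := h.dX hθP F hχ
  rw [hε] at h1
  have h2 : (0 : ℤ) < (charDegree (χ : G → ℂ) : ℤ) - -1 := by
    have := charDegree_pos χ.2
    omega
  have h3 := Int.le_of_dvd h2 h1
  have h4 := h.hpf
  omega

theorem HD.deg_X_plus {χ : IrrCharacter G} (hχ : χ ∈ F.X) (hε : F.εX χ = 1) :
    charDegree (χ : G → ℂ) = 1 ∨ 2 * f + 2 ≤ charDegree (χ : G → ℂ) := by
  have h1 := h.dX hθP F hχ
  rw [hε] at h1
  have hpos := charDegree_pos χ.2
  by_cases h2 : charDegree (χ : G → ℂ) = 1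
  · exact Or.inl h2
  · right
    have h3 : (0 : ℤ) < (charDegree (χ : G → ℂ) : ℤ) - 1 := by omega
    have h4 := Int.le_of_dvd h3 h1
    have h5 := h.hpf
    omega

theorem HD.deg_nu_plus (hε : F.ε = 1) (d : DD P p) : f ≤ charDegree (F.ν d : G → ℂ) := by
  have h1 := h.dν hθP F d
  rw [hε] at h1
  by_contra hlt
  push Not at hlt
  have h2 : (0 : ℤ) < (f : ℤ) - (charDegree (F.ν d : G → ℂ) : ℤ) := by omega
  have h3 : (p : ℤ) ∣ (f : ℤ) - (charDegree (F.ν d : G → ℂ) : ℤ) := by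
    have h4 := (dvd_neg (a := (p : ℤ))).mpr h1
    have h6 : (f : ℤ) - (charDegree (F.ν d : G → ℂ) : ℤ) = -((charDegree (F.ν d : G → ℂ) : ℤ) - 1 * f) := by ring
    rw [h6]
    exact h4
  have h4 := Int.le_of_dvd h2 h3
  have h5 := h.hpf
  have := charDegree_pos (F.ν d).2
  omega

theorem HD.deg_nu_minus (hε : F.ε = -1) (d : DD P p) : f + 1 ≤ charDegree (F.ν d : G → ℂ) := by
  have h1 := h.dν hθP F d
  rw [hε] at h1
  have hpos := charDegree_pos (F.ν d).2
  have h2 : (0 : ℤ) < (charDegree (F.ν d : G → ℂ) : ℤ) - -1 * f := by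
    have := h.hf2
    omega
  have h4 := Int.le_of_dvd h2 h1
  have h5 := h.hpf
  omega

/-- The exceptional characters agree on `p`-regular elements. -/
theorem HD.nu_reg (a b : DD P p) {g : G} (hg : ¬ p ∣ orderOf g) : (F.ν a : G → ℂ) g = (F.ν b : G → ℂ) g := by
  have h1 := F.hval a g
  have h2 := F.hval b g
  rw [Ws_regular _ a.2.1 hg] at h1
  rw [Ws_regular _ b.2.1 hg] at h2
  have hε : (F.ε : ℂ) ≠ 0 := by
    rcases F.hε with h3 | h3 <;> simp [h3]
  apply mul_left_cancel₀ hε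
  linear_combination h2 - h1

theorem HD.nu_deg (a b : DD P p) : charDegree (F.ν a : G → ℂ) = charDegree (F.ν b : G → ℂ) := by
  have h1 := h.nu_reg hθP F a b (g := 1) (by
    rw [orderOf_one, Nat.dvd_one]
    exact hp.out.ne_one)
  rw [← charDegree_natCast (isCharacter_of_isIrrCharacter (F.ν a).2),
    ← charDegree_natCast (isCharacter_of_isIrrCharacter (F.ν b).2)] at h1
  exact_mod_cast h1

end Facts

end Cfsg.Agent.Lib.CharDeep.Half
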