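import Cfsg.Agent.Lib.CharDeep.Half.Ineq

/-!
# The case of degree `(p - 1) / 2`: the decomposition of the products
-/

set_option autoImplicit false
set_option linter.style.haveILetI false
set_option linter.unusedSectionVars false
set_option linter.unusedVariables false

namespace Cfsg.Agent.Lib.CharDeep.Half

open Cfsg
open Cfsg.Agent.Lib.Blocks.Local Cfsg.Agent.Lib.Blocks.Central Cfsg.Agent.Lib.Blocks.General
open Cfsg.Agent.Lib.Blocks.Induced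
open Cfsg.Agent.Lib.Char.Induced Cfsg.Agent.Lib.Char.Ortho Cfsg.Agent.Lib.Char.Linear
open Cfsg.Agent.Lib.Char.Basic Cfsg.Agent.Lib.Char.GenLattice Cfsg.Agent.Lib.Char.Complete
open Cfsg.Agent.Lib.Char.Degree
open Cfsg.Agent.Lib.ExcP.Gram Cfsg.Agent.Lib.ExcP.Inst Cfsg.Agent.Lib.ExcP.Dual
open Cfsg.Agent.Lib.ModRep.Prime Cfsg.Agent.Lib.ModRep.ThGram Cfsg.Agent.Lib.ModRep.ThIdem
open Cfsg.Agent.Lib.ModRep.ThDeg Cfsg.Agent.Lib.ModRep.Numerics2 Cfsg.Agent.Lib.ModRep.BlockTh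
open Cfsg.Agent.Lib.CharDeep.BrauerDeg
open scoped ComplexConjugate

universe u

/-- Case `B`, the product of the two. -/
theorem arith_B1 {f Pp Pm a c D : ℕ} {ε : ℤ} (hf : 1 ≤ f) (hε : ε = 1 ∨ ε = -1)
    (h1 : ε * ((a : ℤ) - c) = -1) (h2 : 2 * ((Pp : ℤ) - Pm) = -((f : ℤ) + 1) - (-1) + ε * ((a : ℤ) + c))
    (h3 : (2 * f + 2) * Pp + 2 * f * Pm + (a + c) * D ≤ f ^ 2)
    (hD1 : ε = 1 → f ≤ D) (hD2 : ε = -1 → f + 1 ≤ D) :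
    ε = 1 ∧ D = f ∧ Pp = 0 ∧ (2 * f + 2) * Pp + 2 * f * Pm + (a + c) * D = f ^ 2 := by
  have hM : 1 ≤ a + c := by
    by_contra hlt
    have ha : a = 0 := by omega
    have hc : c = 0 := by omega
    rw [ha, hc] at h1
    simp at h1
  have h3' : ((2 * (f : ℤ) + 2) * Pp + 2 * f * Pm + ((a : ℤ) + c) * D ≤ (f : ℤ) ^ 2) := by exact_mod_cast h3
  have hMZ : (1 : ℤ) ≤ (a : ℤ) + c := by exact_mod_cast hM
  have hfZ : (1 : ℤ) ≤ (f : ℤ) := by exact_mod_cast hf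
  have hPpZ : (0 : ℤ) ≤ (Pp : ℤ) := Int.natCast_nonneg _
  rcases hε with rfl | rfl
  · have hD := hD1 rfl
    have hDZ : (f : ℤ) ≤ (D : ℤ) := by exact_mod_cast hD
    have h2f : (f : ℤ) * (2 * ((Pp : ℤ) - Pm)) = f * (-((f : ℤ) + 1) - (-1) + 1 * ((a : ℤ) + c)) := by rw [h2]
    have key : (4 * (f : ℤ) + 2) * Pp + ((a : ℤ) + c) * ((D : ℤ) - f) ≤ 0 := by nlinarith
    have hnn : 0 ≤ ((a : ℤ) + c) * ((D : ℤ) - f) := mul_nonneg (by linarith) (by linarith)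
    have hPp0 : (Pp : ℤ) = 0 := by nlinarith
    have hDf : (D : ℤ) = f := by
      by_contra hne
      have h4 : (1 : ℤ) ≤ (D : ℤ) - f := by omega
      have h5 : 1 ≤ ((a : ℤ) + c) * ((D : ℤ) - f) := by nlinarith
      nlinarith
    refine ⟨rfl, by exact_mod_cast hDf, by exact_mod_cast hPp0, ?_⟩
    zify
    rw [hDf, hPp0] at *
    nlinarith
  · exfalso
    have hD := hD2 rfl
    have hDZ : (f : ℤ) + 1 ≤ (D : ℤ) := by exact_mod_cast hD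
    have h2f : (f : ℤ) * (2 * ((Pp : ℤ) - Pm)) = f * (-((f : ℤ) + 1) - (-1) + -1 * ((a : ℤ) + c)) := by rw [h2]
    have key : (4 * (f : ℤ) + 2) * Pp + ((a : ℤ) + c) * ((D : ℤ) + f) ≤ 0 := by nlinarith
    have h5 : 1 ≤ ((a : ℤ) + c) * ((D : ℤ) + f) := by nlinarith
    nlinarith

/-- Case `B`, the square. -/
theorem arith_B2 {f Pp Pm a c O : ℕ} (hf : 1 ≤ f) (h1 : (1 : ℤ) * ((a : ℤ) - c) = 0)
    (h2 : 2 * ((Pp : ℤ) - Pm) = ((f : ℤ) + 1) - 0 + 1 * ((a : ℤ) + c))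
    (h3 : (2 * f + 2) * Pp + 2 * f * Pm + (a + c) * f ≤ f ^ 2 + (2 * f + 1) * O) (hO : O ≤ 1) :
    Pm = 0 ∧ a + c = 0 ∧ 2 * Pp = f + 1 ∧ O = 1 ∧
      (2 * f + 2) * Pp + 2 * f * Pm + (a + c) * f = f ^ 2 + (2 * f + 1) * O := by
  have h3' : ((2 * (f : ℤ) + 2) * Pp + 2 * f * Pm + ((a : ℤ) + c) * f ≤ (f : ℤ) ^ 2 + (2 * f + 1) * O) := by
    exact_mod_cast h3
  have hfZ : (1 : ℤ) ≤ (f : ℤ) := by exact_mod_cast hf
  have hPmZ : (0 : ℤ) ≤ (Pm : ℤ) := Int.natCast_nonneg _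
  have haZ : (0 : ℤ) ≤ (a : ℤ) := Int.natCast_nonneg _
  have hcZ : (0 : ℤ) ≤ (c : ℤ) := Int.natCast_nonneg _
  have hOZ : (O : ℤ) ≤ 1 := by exact_mod_cast hO
  have h2f : ((f : ℤ) + 1) * (2 * ((Pp : ℤ) - Pm)) = ((f : ℤ) + 1) * (((f : ℤ) + 1) - 0 + 1 * ((a : ℤ) + c)) := by rw [h2]
  have key : (4 * (f : ℤ) + 2) * Pm + (2 * (f : ℤ) + 1) * (1 + (a : ℤ) + c) ≤ (2 * f + 1) * O := by nlinarith
  have h6 : (2 * (f : ℤ) + 1) * O ≤ 2 * f + 1 := by nlinarith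
  have hPm0 : (Pm : ℤ) = 0 := by nlinarith
  have hac : (a : ℤ) + c = 0 := by nlinarith
  have hO1 : (O : ℤ) = 1 := by
    by_contra hne
    have h7 : (O : ℤ) ≤ 0 := by omega
    nlinarith
  have hPp : 2 * (Pp : ℤ) = f + 1 := by
    rw [hPm0, hac] at h2
    linarith
  refine ⟨by exact_mod_cast hPm0, by exact_mod_cast hac, by exact_mod_cast hPp, by exact_mod_cast hO1, ?_⟩
  zify
  rw [hPm0, hac, hO1]
  nlinarith

/-- Case `A`, the square. -/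
theorem arith_A1 {f Pp Pm a c D O : ℕ} {ε : ℤ} (hf : 1 ≤ f) (hε : ε = 1 ∨ ε = -1)
    (h1 : ε * ((a : ℤ) - c) = -1) (h2 : 2 * ((Pp : ℤ) - Pm) = (f : ℤ) - (-1) + ε * ((a : ℤ) + c))
    (h3 : (2 * f + 2) * Pp + 2 * f * Pm + (a + c) * D ≤ f ^ 2 + (2 * f + 1) * O) (hO : O ≤ 1)
    (hD1 : ε = 1 → f ≤ D) (hD2 : ε = -1 → f + 1 ≤ D) :
    ε = -1 ∧ D = f + 1 ∧ Pm = 0 ∧ O = 1 ∧
      (2 * f + 2) * Pp + 2 * f * Pm + (a + c) * D = f ^ 2 + (2 * f + 1) * O := by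
  have hM : 1 ≤ a + c := by
    by_contra hlt
    have ha : a = 0 := by omega
    have hc : c = 0 := by omega
    rw [ha, hc] at h1
    simp at h1
  have h3' : ((2 * (f : ℤ) + 2) * Pp + 2 * f * Pm + ((a : ℤ) + c) * D ≤ (f : ℤ) ^ 2 + (2 * f + 1) * O) := by
    exact_mod_cast h3
  have hMZ : (1 : ℤ) ≤ (a : ℤ) + c := by exact_mod_cast hM
  have hfZ : (1 : ℤ) ≤ (f : ℤ) := by exact_mod_cast hf
  have hPmZ : (0 : ℤ) ≤ (Pm : ℤ) := Int.natCast_nonneg _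
  have hOZ : (O : ℤ) ≤ 1 := by exact_mod_cast hO
  have h6 : (2 * (f : ℤ) + 1) * O ≤ 2 * f + 1 := by nlinarith
  rcases hε with rfl | rfl
  · exfalso
    have hD := hD1 rfl
    have hDZ : (f : ℤ) ≤ (D : ℤ) := by exact_mod_cast hD
    have h2f : ((f : ℤ) + 1) * (2 * ((Pp : ℤ) - Pm)) = ((f : ℤ) + 1) * ((f : ℤ) - (-1) + 1 * ((a : ℤ) + c)) := by rw [h2]
    have key : (4 * (f : ℤ) + 2) * Pm + (2 * (f : ℤ) + 1) + ((a : ℤ) + c) * ((D : ℤ) + f + 1) ≤ (2 * f + 1) * O := by nlinarith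
    have h5 : 1 ≤ ((a : ℤ) + c) * ((D : ℤ) + f + 1) := by nlinarith
    nlinarith
  · have hD := hD2 rfl
    have hDZ : (f : ℤ) + 1 ≤ (D : ℤ) := by exact_mod_cast hD
    have h2f : ((f : ℤ) + 1) * (2 * ((Pp : ℤ) - Pm)) = ((f : ℤ) + 1) * ((f : ℤ) - (-1) + -1 * ((a : ℤ) + c)) := by rw [h2]
    have key : (4 * (f : ℤ) + 2) * Pm + (2 * (f : ℤ) + 1) + ((a : ℤ) + c) * ((D : ℤ) - f - 1) ≤ (2 * f + 1) * O := by nlinarith
    have hnn : 0 ≤ ((a : ℤ) + c) * ((D : ℤ) - f - 1) := mul_nonneg (by linarith) (by linarith)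
    have hPm0 : (Pm : ℤ) = 0 := by nlinarith
    have hO1 : (O : ℤ) = 1 := by
      by_contra hne
      have h7 : (O : ℤ) ≤ 0 := by omega
      nlinarith
    have hDf : (D : ℤ) = f + 1 := by
      by_contra hne
      have h4 : (1 : ℤ) ≤ (D : ℤ) - f - 1 := by omega
      have h5 : 1 ≤ ((a : ℤ) + c) * ((D : ℤ) - f - 1) := by nlinarith
      nlinarith
    refine ⟨rfl, by exact_mod_cast hDf, by exact_mod_cast hPm0, by exact_mod_cast hO1, ?_⟩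
    zify
    rw [hDf, hPm0, hO1] at *
    nlinarith

/-- Case `A`, the product. -/
theorem arith_A2 {f Pp Pm a c : ℕ} (hf : 1 ≤ f) (h1 : (-1 : ℤ) * ((a : ℤ) - c) = 0)
    (h2 : 2 * ((Pp : ℤ) - Pm) = -(f : ℤ) - 0 + -1 * ((a : ℤ) + c))
    (h3 : (2 * f + 2) * Pp + 2 * f * Pm + (a + c) * (f + 1) ≤ f ^ 2) :
    Pp = 0 ∧ a + c = 0 ∧ 2 * Pm = f ∧ (2 * f + 2) * Pp + 2 * f * Pm + (a + c) * (f + 1) = f ^ 2 := by
  have h3' : ((2 * (f : ℤ) + 2) * Pp + 2 * f * Pm + ((a : ℤ) + c) * (f + 1) ≤ (f : ℤ) ^ 2) := by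
    exact_mod_cast h3
  have hfZ : (1 : ℤ) ≤ (f : ℤ) := by exact_mod_cast hf
  have hPpZ : (0 : ℤ) ≤ (Pp : ℤ) := Int.natCast_nonneg _
  have haZ : (0 : ℤ) ≤ (a : ℤ) := Int.natCast_nonneg _
  have hcZ : (0 : ℤ) ≤ (c : ℤ) := Int.natCast_nonneg _
  have h2f : (f : ℤ) * (2 * ((Pp : ℤ) - Pm)) = f * (-(f : ℤ) - 0 + -1 * ((a : ℤ) + c)) := by rw [h2]
  have key : (4 * (f : ℤ) + 2) * Pp + (2 * (f : ℤ) + 1) * ((a : ℤ) + c) ≤ 0 := by nlinarith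
  have hPp0 : (Pp : ℤ) = 0 := by nlinarith
  have hac : (a : ℤ) + c = 0 := by nlinarith
  have hPm : 2 * (Pm : ℤ) = f := by
    rw [hPp0, hac] at h2
    linarith
  refine ⟨by exact_mod_cast hPp0, by exact_mod_cast hac, by exact_mod_cast hPm, ?_⟩
  zify
  rw [hPp0, hac]
  nlinarith

/-- Case `A`, the family of `θ`, first product. -/
theorem arith_A3 {f Pp Pm a c : ℕ} (hf : 1 ≤ f) (h1 : (1 : ℤ) * ((a : ℤ) - c) = 0)
    (h2 : 2 * ((Pp : ℤ) - Pm) = (f : ℤ) - 0 + 1 * ((a : ℤ) + c))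
    (h3 : (2 * f + 2) * Pp + 2 * f * Pm + (a + c) * f ≤ f * (f + 1)) :
    Pm = 0 ∧ a + c = 0 ∧ 2 * Pp = f ∧ (2 * f + 2) * Pp + 2 * f * Pm + (a + c) * f = f * (f + 1) := by
  have h3' : ((2 * (f : ℤ) + 2) * Pp + 2 * f * Pm + ((a : ℤ) + c) * f ≤ (f : ℤ) * (f + 1)) := by
    exact_mod_cast h3
  have hfZ : (1 : ℤ) ≤ (f : ℤ) := by exact_mod_cast hf
  have hPmZ : (0 : ℤ) ≤ (Pm : ℤ) := Int.natCast_nonneg _
  have haZ : (0 : ℤ) ≤ (a : ℤ) := Int.natCast_nonneg _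
  have hcZ : (0 : ℤ) ≤ (c : ℤ) := Int.natCast_nonneg _
  have h2f : ((f : ℤ) + 1) * (2 * ((Pp : ℤ) - Pm)) = ((f : ℤ) + 1) * ((f : ℤ) - 0 + 1 * ((a : ℤ) + c)) := by rw [h2]
  have key : (4 * (f : ℤ) + 2) * Pm + (2 * (f : ℤ) + 1) * ((a : ℤ) + c) ≤ 0 := by nlinarith
  have hPm0 : (Pm : ℤ) = 0 := by nlinarith
  have hac : (a : ℤ) + c = 0 := by nlinarith
  have hPp : 2 * (Pp : ℤ) = f := by
    rw [hPm0, hac] at h2
    linarith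
  refine ⟨by exact_mod_cast hPm0, by exact_mod_cast hac, by exact_mod_cast hPp, ?_⟩
  zify
  rw [hPm0, hac]
  nlinarith

/-- Case `A`, the family of `θ`, second product. -/
theorem arith_A4 {f Pp Pm a c : ℕ} (hf : 1 ≤ f) (h1 : (1 : ℤ) * ((a : ℤ) - c) = 1)
    (h2 : 2 * ((Pp : ℤ) - Pm) = -(f : ℤ) - 1 + 1 * ((a : ℤ) + c))
    (h3 : (2 * f + 2) * Pp + 2 * f * Pm + (a + c) * f ≤ f * (f + 1)) :
    Pp = 0 ∧ (2 * f + 2) * Pp + 2 * f * Pm + (a + c) * f = f * (f + 1) := by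
  have h3' : ((2 * (f : ℤ) + 2) * Pp + 2 * f * Pm + ((a : ℤ) + c) * f ≤ (f : ℤ) * (f + 1)) := by
    exact_mod_cast h3
  have hfZ : (1 : ℤ) ≤ (f : ℤ) := by exact_mod_cast hf
  have hPpZ : (0 : ℤ) ≤ (Pp : ℤ) := Int.natCast_nonneg _
  have h2f : (f : ℤ) * (2 * ((Pp : ℤ) - Pm)) = f * (-(f : ℤ) - 1 + 1 * ((a : ℤ) + c)) := by rw [h2]
  have key : (4 * (f : ℤ) + 2) * Pp ≤ 0 := by nlinarith
  have hPp0 : (Pp : ℤ) = 0 := by nlinarith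
  refine ⟨by exact_mod_cast hPp0, ?_⟩
  zify
  rw [hPp0] at h2f ⊢
  nlinarith


variable {G : Type u} [Group G] {p f : ℕ} [hp : Fact p.Prime] {P : Subgroup G}

section Cases

variable [Fintype G] [Fintype (Cn P)] [Fintype (Nn P)] [Fintype (DD P p)] [Fintype (IrrCharacter G)]
  [Fintype (IrrCharacter (Cn P))] [Fintype (Subgroup.center G)] [Fintype P] {M : Ideal AlgInt} (h : HD P p f)

/-- `a · conj b` as a character. -/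
theorem isChar_mul_conj (a b : IrrCharacter G) :
    IsCharacter G (fun g => (a : G → ℂ) g * conj ((b : G → ℂ) g)) :=
  isCharacter_mul (isCharacter_of_isIrrCharacter a.2)
    (Cfsg.Agent.Lib.CharX.Conj.isCharacter_conj (isCharacter_of_isIrrCharacter b.2))

theorem inner_mul_conj_trv (a b : G → ℂ) :
    classInner (fun g => a g * conj (b g)) (trv G : G → ℂ) = classInner a b := by
  simp [classInner_def]

theorem mul_conj_one {a b : IrrCharacter G} (ha : charDegree (a : G → ℂ) = f) (hb : charDegree (b : G → ℂ) = f) :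
    (a : G → ℂ) 1 * conj ((b : G → ℂ) 1) = ((f ^ 2 : ℕ) : ℂ) := by
  rw [← charDegree_natCast (isCharacter_of_isIrrCharacter a.2), ← charDegree_natCast (isCharacter_of_isIrrCharacter b.2),
    ha, hb, Complex.conj_natCast]
  push_cast
  ring

/-- Multiplicity of the trivial character in `a · conj b`. -/
theorem mult_trv {a b : IrrCharacter G} {m : IrrCharacter G → ℕ}
    (hm : (fun g => (a : G → ℂ) g * conj ((b : G → ℂ) g)) = ∑ j, m j • (j : G → ℂ)) :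
    open scoped Classical in m (trv G) = if a = b then 1 else 0 := by
  classical
  have h1 := inner_mul_conj_trv (a : G → ℂ) (b : G → ℂ)
  rw [hm, classInner_of_nat_combination, inner_irr] at h1
  split_ifs at h1 with h2
  · rw [if_pos h2]
    exact_mod_cast h1
  · rw [if_neg h2]
    exact_mod_cast h1

variable {χ₁ χ₂ : IrrCharacter G} {d₁ d₂ : DD P p} {θ₁ : Cn P → ℂ}

include h

/-- **Case `B`**: the decomposition of the products. -/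
theorem HD.caseB (F : Fam M P p (trv (Cn P))) (hd : d₂ ∉ orbF d₁) (hB : dinv d₁ ∉ orbF d₁)
    (hdeg₁ : charDegree (χ₁ : G → ℂ) = f) (hdeg₂ : charDegree (χ₂ : G → ℂ) = f) (hne : χ₁ ≠ χ₂)
    (hθ₁ : IsIrrCharacter (Cn P) θ₁) (hO₁ : Over P θ₁ (χ₁ : G → ℂ)) (hO₂ : Over P θ₁ (χ₂ : G → ℂ))
    (hv₁ : ∀ x : Cn P, (x : G) ∈ P → x ≠ 1 → (χ₁ : G → ℂ) x = eta P d₁.1 x)
    (hv₂ : ∀ x : Cn P, (x : G) ∈ P → x ≠ 1 → (χ₂ : G → ℂ) x = eta P d₂.1 x)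
    (hreg : ∀ g, ¬ p ∣ orderOf g → (χ₁ : G → ℂ) g = (χ₂ : G → ℂ) g) :
    F.ε = 1 ∧ charDegree (F.ν d₁ : G → ℂ) = f ∧ trv G ∈ F.X ∧
      (∀ χ ∈ Xp F, χ = trv G ∨ charDegree (χ : G → ℂ) = 2 * f + 2) ∧
      (∀ χ ∈ Xm F, charDegree (χ : G → ℂ) = 2 * f) ∧
      (∀ g, (χ₁ : G → ℂ) g * conj ((χ₁ : G → ℂ) g) = ∑ χ ∈ Xp F, (χ : G → ℂ) g) ∧
      (∀ g, (χ₁ : G → ℂ) g * conj ((χ₂ : G → ℂ) g) = (F.ν d₂ : G → ℂ) g + ∑ χ ∈ Xm F, (χ : G → ℂ) g) ∧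
      2 * (Xp F).card = f + 1 ∧
      classInner (fun g => (χ₁ : G → ℂ) g * conj ((χ₁ : G → ℂ) g))
        (fun g => (χ₁ : G → ℂ) g * conj ((χ₁ : G → ℂ) g)) = ((Xp F).card : ℂ) := by
  classical
  have hf1 : 1 ≤ f := by
    have := h.hf2
    omega
  have hθP : ∀ x : Cn P, (x : G) ∈ P → (trv (Cn P) : Cn P → ℂ) x = (trv (Cn P) : Cn P → ℂ) 1 := trv_ker
  -- the product of the two
  obtain ⟨m₁, hm₁⟩ := exists_nat_combination (isChar_mul_conj χ₁ χ₂)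
  have hval₁ : ∀ x : Cn P, (x : G) ∈ P → x ≠ 1 → 2 * (∑ j, m₁ j • (j : G → ℂ)) x =
      ((-((f : ℤ) + 1) : ℤ) : ℂ) + 2 * ((-1 : ℤ) : ℂ) * eta P d₁.1 x := by
    intro x hx hx1
    obtain ⟨h1, h2, h3, h4⟩ := h.rel_B hd hB hx hx1
    rw [← hm₁]
    show 2 * ((χ₁ : G → ℂ) x * conj ((χ₂ : G → ℂ) x)) = _
    rw [hv₁ x hx hx1, hv₂ x hx hx1, h2]
    push_cast
    linear_combination 2 * (eta P d₁.1 x) * h3 - h4
  obtain ⟨a1, a2, a3, a4⟩ := h.step trv_ker F hd m₁ (Δ := f ^ 2)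
    (by rw [← hm₁]; exact mul_conj_one hdeg₁ hdeg₂)
    (by rw [← hm₁]; exact over_mul_conj h hθ₁ hO₁ hO₂) hval₁
  have hO0 : (if trv G ∈ F.X then m₁ (trv G) else 0) = 0 := by
    rw [mult_trv hm₁, if_neg hne]
    simp
  rw [hO0] at a3 a4
  obtain ⟨hε, hD, hPp₁, heq₁⟩ := arith_B1 hf1 F.hε a1 a2 (by simpa using a3)
    (fun h1 => h.deg_nu_plus trv_ker F h1 d₁) (fun h1 => h.deg_nu_minus trv_ker F h1 d₁)
  have ht₁ : Tight F d₁ d₂ f m₁ := a4 (by simpa using heq₁)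
  -- the square
  obtain ⟨m₀, hm₀⟩ := exists_nat_combination (isChar_mul_conj χ₁ χ₁)
  have hval₀ : ∀ x : Cn P, (x : G) ∈ P → x ≠ 1 → 2 * (∑ j, m₀ j • (j : G → ℂ)) x =
      ((((f : ℤ) + 1) : ℤ) : ℂ) + 2 * ((0 : ℤ) : ℂ) * eta P d₁.1 x := by
    intro x hx hx1
    obtain ⟨h1, h2, h3, h4⟩ := h.rel_B hd hB hx hx1
    rw [← hm₀]
    show 2 * ((χ₁ : G → ℂ) x * conj ((χ₁ : G → ℂ) x)) = _
    rw [hv₁ x hx hx1, h1]
    push_cast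
    linear_combination h4
  obtain ⟨b1, b2, b3, b4⟩ := h.step trv_ker F hd m₀ (Δ := f ^ 2)
    (by rw [← hm₀]; exact mul_conj_one hdeg₁ hdeg₁)
    (by rw [← hm₀]; exact over_mul_conj h hθ₁ hO₁ hO₁) hval₀
  have hO1 : (if trv G ∈ F.X then m₀ (trv G) else 0) ≤ 1 := by
    rw [mult_trv hm₀, if_pos rfl]
    split_ifs <;> simp
  rw [hD] at b3 b4
  rw [hε] at b1 b2
  obtain ⟨hPm₀, hac₀, hPp₀, hO₀, heq₀⟩ := arith_B2 hf1 b1 b2 b3 hO1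
  have ht₀ : Tight F d₁ d₂ f m₀ := b4 heq₀
  have htrv : trv G ∈ F.X := by
    by_contra hne'
    rw [if_neg hne'] at hO₀
    omega
  -- the identity
  have hd' : d₁ ∉ orbF d₂ := fun h1 => hd (orbF_symm h1)
  have hT : ∀ g, (∑ j, m₀ j • (j : G → ℂ)) g - (∑ j, m₁ j • (j : G → ℂ)) g =
      - Ws P (trv (Cn P) : Cn P → ℂ) d₂.1 g := by
    apply h.neg_Ws (trv (Cn P)).2 trv_ker d₂
    · intro g x
      have h0 := isClassFunction_of_isCharacter (isChar_mul_conj χ₁ χ₁)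
      have h0' := isClassFunction_of_isCharacter (isChar_mul_conj χ₁ χ₂)
      rw [hm₀] at h0
      rw [hm₁] at h0'
      beta_reduce
      rw [h0 g x, h0' g x]
    · rw [← hm₀, ← hm₁]
      exact over_sub (over_mul_conj h hθ₁ hO₁ hO₁) (over_mul_conj h hθ₁ hO₁ hO₂)
    · intro g hg
      rw [← hm₀, ← hm₁]
      show (χ₁ : G → ℂ) g * conj ((χ₁ : G → ℂ) g) - (χ₁ : G → ℂ) g * conj ((χ₂ : G → ℂ) g) = 0
      rw [hreg g hg]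
      ring
    · intro x hx hx1
      obtain ⟨h1, h2, h3, h4⟩ := h.rel_B hd hB hx hx1
      rw [← hm₀, ← hm₁]
      show (χ₁ : G → ℂ) x * conj ((χ₁ : G → ℂ) x) - (χ₁ : G → ℂ) x * conj ((χ₂ : G → ℂ) x) = _
      rw [hv₁ x hx hx1, hv₂ x hx hx1, h1, h2]
      linear_combination h4 + (1 - eta P d₁.1 x) * h3
  obtain ⟨hac1, hac2⟩ : m₀ (F.ν d₁) = 0 ∧ m₀ (F.ν d₂) = 0 := by omega
  obtain ⟨c1, c2, c3, c4, c5, c6, c7⟩ := h.pair_val trv_ker F hd' m₀ m₁ hT hPm₀ hPp₁ ht₀.symm ht₁.symm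
    (Or.inl ⟨hε, hac2, hac1⟩)
  simp only [hε] at c1 c2 c3
  refine ⟨hε, hD, htrv, c4, c5, ?_, ?_, ?_, ?_⟩
  · intro g
    have h1 := c1 g
    rw [← hm₀] at h1
    simpa using h1
  · intro g
    have h1 := c2 g
    rw [← hm₁] at h1
    show _ = _
    simp only [if_true] at h1
    rw [add_comm]
    exact h1
  · rw [← c6]
    exact hPp₀
  · rw [hm₀, classInner_self_of_nat_combination, c3]
    simp

/-- **Case `A`**: the decomposition of the products, in the principal block. -/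
theorem HD.caseA₁ (F : Fam M P p (trv (Cn P))) (hd : d₂ ∉ orbF d₁) (hA : dinv d₁ ∈ orbF d₁)
    (hdeg₁ : charDegree (χ₁ : G → ℂ) = f) (hdeg₂ : charDegree (χ₂ : G → ℂ) = f) (hne : χ₁ ≠ χ₂)
    (hθ₁ : IsIrrCharacter (Cn P) θ₁) (hO₁ : Over P θ₁ (χ₁ : G → ℂ)) (hO₂ : Over P θ₁ (χ₂ : G → ℂ))
    (hv₁ : ∀ x : Cn P, (x : G) ∈ P → x ≠ 1 → (χ₁ : G → ℂ) x = eta P d₁.1 x)
    (hv₂ : ∀ x : Cn P, (x : G) ∈ P → x ≠ 1 → (χ₂ : G → ℂ) x = eta P d₂.1 x)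
    (hreg : ∀ g, ¬ p ∣ orderOf g → (χ₁ : G → ℂ) g = (χ₂ : G → ℂ) g) :
    F.ε = -1 ∧ charDegree (F.ν d₁ : G → ℂ) = f + 1 ∧ trv G ∈ F.X ∧
      (∀ χ ∈ Xp F, χ = trv G ∨ charDegree (χ : G → ℂ) = 2 * f + 2) ∧
      (∀ χ ∈ Xm F, charDegree (χ : G → ℂ) = 2 * f) ∧
      (∀ g, (χ₁ : G → ℂ) g * conj ((χ₁ : G → ℂ) g) = ∑ χ ∈ Xp F, (χ : G → ℂ) g + (F.ν d₁ : G → ℂ) g) ∧
      (∀ g, (χ₂ : G → ℂ) g * conj ((χ₁ : G → ℂ) g) = ∑ χ ∈ Xm F, (χ : G → ℂ) g) ∧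
      2 * (Xp F).card = f ∧
      classInner (fun g => (χ₁ : G → ℂ) g * conj ((χ₁ : G → ℂ) g))
        (fun g => (χ₁ : G → ℂ) g * conj ((χ₁ : G → ℂ) g)) = ((Xp F).card : ℂ) + 1 := by
  classical
  have hf1 : 1 ≤ f := by
    have := h.hf2
    omega
  -- the square
  obtain ⟨m₀, hm₀⟩ := exists_nat_combination (isChar_mul_conj χ₁ χ₁)
  have hval₀ : ∀ x : Cn P, (x : G) ∈ P → x ≠ 1 → 2 * (∑ j, m₀ j • (j : G → ℂ)) x =
      (((f : ℤ) : ℤ) : ℂ) + 2 * ((-1 : ℤ) : ℂ) * eta P d₁.1 x := by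
    intro x hx hx1
    obtain ⟨h1, h2, h3, h4⟩ := h.rel_A hd hA hx hx1
    rw [← hm₀]
    show 2 * ((χ₁ : G → ℂ) x * conj ((χ₁ : G → ℂ) x)) = _
    rw [hv₁ x hx hx1, h1]
    push_cast
    linear_combination 2 * (eta P d₁.1 x) * h3 - h4
  obtain ⟨b1, b2, b3, b4⟩ := h.step trv_ker F hd m₀ (Δ := f ^ 2)
    (by rw [← hm₀]; exact mul_conj_one hdeg₁ hdeg₁)
    (by rw [← hm₀]; exact over_mul_conj h hθ₁ hO₁ hO₁) hval₀
  have hO1 : (if trv G ∈ F.X then m₀ (trv G) else 0) ≤ 1 := by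
    rw [mult_trv hm₀, if_pos rfl]
    split_ifs <;> simp
  obtain ⟨hε, hD, hPm₀, hO₀, heq₀⟩ := arith_A1 hf1 F.hε b1 b2 b3 hO1
    (fun h1 => h.deg_nu_plus trv_ker F h1 d₁) (fun h1 => h.deg_nu_minus trv_ker F h1 d₁)
  have ht₀ : Tight F d₁ d₂ f m₀ := b4 heq₀
  have htrv : trv G ∈ F.X := by
    by_contra hne'
    rw [if_neg hne'] at hO₀
    omega
  -- the product of the two
  obtain ⟨m₁, hm₁⟩ := exists_nat_combination (isChar_mul_conj χ₂ χ₁)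
  have hval₁ : ∀ x : Cn P, (x : G) ∈ P → x ≠ 1 → 2 * (∑ j, m₁ j • (j : G → ℂ)) x =
      ((-(f : ℤ) : ℤ) : ℂ) + 2 * ((0 : ℤ) : ℂ) * eta P d₁.1 x := by
    intro x hx hx1
    obtain ⟨h1, h2, h3, h4⟩ := h.rel_A hd hA hx hx1
    rw [← hm₁]
    show 2 * ((χ₂ : G → ℂ) x * conj ((χ₁ : G → ℂ) x)) = _
    rw [hv₁ x hx hx1, hv₂ x hx hx1, h1]
    push_cast
    linear_combination h4
  obtain ⟨a1, a2, a3, a4⟩ := h.step trv_ker F hd m₁ (Δ := f ^ 2)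
    (by rw [← hm₁]; exact mul_conj_one hdeg₂ hdeg₁)
    (by rw [← hm₁]; exact over_mul_conj h hθ₁ hO₂ hO₁) hval₁
  have hO0 : (if trv G ∈ F.X then m₁ (trv G) else 0) = 0 := by
    rw [mult_trv hm₁, if_neg (Ne.symm hne)]
    simp
  rw [hO0] at a3 a4
  rw [hε] at a1 a2
  rw [hD] at a3 a4
  obtain ⟨hPp₁, hac₁, hPm₁, heq₁⟩ := arith_A2 hf1 a1 a2 (by simpa using a3)
  have ht₁ : Tight F d₁ d₂ f m₁ := a4 (by simpa using heq₁)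
  -- the identity
  have hT : ∀ g, (∑ j, m₀ j • (j : G → ℂ)) g - (∑ j, m₁ j • (j : G → ℂ)) g =
      - Ws P (trv (Cn P) : Cn P → ℂ) d₁.1 g := by
    apply h.neg_Ws (trv (Cn P)).2 trv_ker d₁
    · intro g x
      have h0 := isClassFunction_of_isCharacter (isChar_mul_conj χ₁ χ₁)
      have h0' := isClassFunction_of_isCharacter (isChar_mul_conj χ₂ χ₁)
      rw [hm₀] at h0
      rw [hm₁] at h0'
      beta_reduce
      rw [h0 g x, h0' g x]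
    · rw [← hm₀, ← hm₁]
      exact over_sub (over_mul_conj h hθ₁ hO₁ hO₁) (over_mul_conj h hθ₁ hO₂ hO₁)
    · intro g hg
      rw [← hm₀, ← hm₁]
      show (χ₁ : G → ℂ) g * conj ((χ₁ : G → ℂ) g) - (χ₂ : G → ℂ) g * conj ((χ₁ : G → ℂ) g) = 0
      rw [hreg g hg]
      ring
    · intro x hx hx1
      obtain ⟨h1, h2, h3, h4⟩ := h.rel_A hd hA hx hx1
      rw [← hm₀, ← hm₁]
      show (χ₁ : G → ℂ) x * conj ((χ₁ : G → ℂ) x) - (χ₂ : G → ℂ) x * conj ((χ₁ : G → ℂ) x) = _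
      rw [hv₁ x hx hx1, hv₂ x hx hx1, h1]
      linear_combination (eta P d₁.1 x) * h3 - h4
  obtain ⟨hac1, hac2⟩ : m₁ (F.ν d₁) = 0 ∧ m₁ (F.ν d₂) = 0 := by omega
  obtain ⟨c1, c2, c3, c4, c5, c6, c7⟩ := h.pair_val trv_ker F hd m₀ m₁ hT hPm₀ hPp₁ ht₀ ht₁
    (Or.inr ⟨hε, hac1, hac2⟩)
  simp only [hε] at c1 c2 c3
  refine ⟨hε, hD, htrv, c4, c5, ?_, ?_, ?_, ?_⟩
  · intro g
    have h1 := c1 g
    rw [← hm₀] at h1
    simpa using h1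
  · intro g
    have h1 := c2 g
    rw [← hm₁] at h1
    simpa using h1
  · have h1 : (Xp F).card + (Xm F).card = f := by
      rw [← Finset.card_union_of_disjoint (disj_X F), ← X_eq F]
      exact h.card_X trv_ker F
    rw [← c7] at h1
    omega
  · rw [hm₀, classInner_self_of_nat_combination, c3]
    simp

/-- **Case `A`**: the decomposition of the products, in the block of `θ`. -/
theorem HD.caseA₂ {θ : IrrCharacter (Cn P)} (hθP : ∀ x : Cn P, (x : G) ∈ P → (θ : Cn P → ℂ) x = (θ : Cn P → ℂ) 1)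
    (F : Fam M P p θ) (F₀ : Fam M P p (trv (Cn P))) (hd : d₂ ∉ orbF d₁) (hA : dinv d₁ ∈ orbF d₁)
    (hε : F.ε = 1) (hdeg : charDegree (F.ν d₁ : G → ℂ) = f) (hε₀ : F₀.ε = -1)
    (hdeg₀ : charDegree (F₀.ν d₁ : G → ℂ) = f + 1) (htrv : trv G ∉ F.X) :
    (∀ χ ∈ Xp F, χ = trv G ∨ charDegree (χ : G → ℂ) = 2 * f + 2) ∧
      (∀ χ ∈ Xm F, charDegree (χ : G → ℂ) = 2 * f) ∧
      (∀ g, (F.ν d₁ : G → ℂ) g * (F₀.ν d₂ : G → ℂ) g = ∑ χ ∈ Xp F, (χ : G → ℂ) g) ∧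
      (∀ g, (F.ν d₁ : G → ℂ) g * (F₀.ν d₁ : G → ℂ) g = ∑ χ ∈ Xm F, (χ : G → ℂ) g + (F.ν d₁ : G → ℂ) g) := by
  classical
  have hf1 : 1 ≤ f := by
    have := h.hf2
    omega
  have hOψ := h.over_of_nu hθP F d₁
  have hdeg₀₂ : charDegree (F₀.ν d₂ : G → ℂ) = f + 1 := by
    rw [← hdeg₀]
    exact h.nu_deg trv_ker F₀ d₂ d₁
  have hone : ∀ e : DD P p, charDegree (F₀.ν e : G → ℂ) = f + 1 →
      (F.ν d₁ : G → ℂ) 1 * (F₀.ν e : G → ℂ) 1 = ((f * (f + 1) : ℕ) : ℂ) := by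
    intro e he
    rw [← charDegree_natCast (isCharacter_of_isIrrCharacter (F.ν d₁).2),
      ← charDegree_natCast (isCharacter_of_isIrrCharacter (F₀.ν e).2), hdeg, he]
    push_cast
    ring
  have hchar : ∀ e : DD P p, IsCharacter G (fun g => (F.ν d₁ : G → ℂ) g * (F₀.ν e : G → ℂ) g) := fun e =>
    isCharacter_mul (isCharacter_of_isIrrCharacter (F.ν d₁).2) (isCharacter_of_isIrrCharacter (F₀.ν e).2)
  have hv : ∀ x : Cn P, (x : G) ∈ P → x ≠ 1 → (F.ν d₁ : G → ℂ) x = eta P d₁.1 x := by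
    intro x hx hx1
    rw [h.val_nu hθP F d₁ hx hx1, hε]
    simp
  have hv₀ : ∀ (e : DD P p) (x : Cn P), (x : G) ∈ P → x ≠ 1 → (F₀.ν e : G → ℂ) x = - eta P e.1 x := by
    intro e x hx hx1
    rw [h.val_nu trv_ker F₀ e hx hx1, hε₀]
    simp
  -- the product with `ν₂`
  obtain ⟨m₀, hm₀⟩ := exists_nat_combination (hchar d₂)
  have hval₀ : ∀ x : Cn P, (x : G) ∈ P → x ≠ 1 → 2 * (∑ j, m₀ j • (j : G → ℂ)) x =
      (((f : ℤ) : ℤ) : ℂ) + 2 * ((0 : ℤ) : ℂ) * eta P d₁.1 x := by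
    intro x hx hx1
    obtain ⟨h1, h2, h3, h4⟩ := h.rel_A hd hA hx hx1
    rw [← hm₀]
    show 2 * ((F.ν d₁ : G → ℂ) x * (F₀.ν d₂ : G → ℂ) x) = _
    rw [hv x hx hx1, hv₀ d₂ x hx hx1]
    push_cast
    linear_combination - h4
  have hO₀₂ := h.over_of_nu trv_ker F₀ d₂
  have hO₀₁ := h.over_of_nu trv_ker F₀ d₁
  obtain ⟨b1, b2, b3, b4⟩ := h.step hθP F hd m₀ (Δ := f * (f + 1))
    (by rw [← hm₀]; exact hone d₂ hdeg₀₂)
    (by rw [← hm₀]; exact over_mul_trv hOψ hO₀₂) hval₀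
  rw [if_neg htrv] at b3 b4
  rw [hε] at b1 b2
  rw [hdeg] at b3 b4
  obtain ⟨hPm₀, hac₀, hPp₀, heq₀⟩ := arith_A3 hf1 b1 b2 (by simpa using b3)
  have ht₀ : Tight F d₁ d₂ f m₀ := b4 (by simpa using heq₀)
  -- the product with `ν₁`
  obtain ⟨m₁, hm₁⟩ := exists_nat_combination (hchar d₁)
  have hval₁ : ∀ x : Cn P, (x : G) ∈ P → x ≠ 1 → 2 * (∑ j, m₁ j • (j : G → ℂ)) x =
      ((-(f : ℤ) : ℤ) : ℂ) + 2 * ((1 : ℤ) : ℂ) * eta P d₁.1 x := by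
    intro x hx hx1
    obtain ⟨h1, h2, h3, h4⟩ := h.rel_A hd hA hx hx1
    rw [← hm₁]
    show 2 * ((F.ν d₁ : G → ℂ) x * (F₀.ν d₁ : G → ℂ) x) = _
    rw [hv x hx hx1, hv₀ d₁ x hx hx1]
    push_cast
    linear_combination - 2 * (eta P d₁.1 x) * h3 + h4
  obtain ⟨a1, a2, a3, a4⟩ := h.step hθP F hd m₁ (Δ := f * (f + 1))
    (by rw [← hm₁]; exact hone d₁ hdeg₀)
    (by rw [← hm₁]; exact over_mul_trv hOψ hO₀₁) hval₁
  rw [if_neg htrv] at a3 a4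
  rw [hε] at a1 a2
  rw [hdeg] at a3 a4
  obtain ⟨hPp₁, heq₁⟩ := arith_A4 hf1 a1 a2 (by simpa using a3)
  have ht₁ : Tight F d₁ d₂ f m₁ := a4 (by simpa using heq₁)
  -- the identity
  have hT : ∀ g, (∑ j, m₀ j • (j : G → ℂ)) g - (∑ j, m₁ j • (j : G → ℂ)) g =
      - Ws P (θ : Cn P → ℂ) d₁.1 g := by
    apply h.neg_Ws θ.2 hθP d₁
    · intro g x
      have h0 := isClassFunction_of_isCharacter (hchar d₂)
      have h0' := isClassFunction_of_isCharacter (hchar d₁)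
      rw [hm₀] at h0
      rw [hm₁] at h0'
      beta_reduce
      rw [h0 g x, h0' g x]
    · rw [← hm₀, ← hm₁]
      exact over_sub (over_mul_trv hOψ hO₀₂) (over_mul_trv hOψ hO₀₁)
    · intro g hg
      rw [← hm₀, ← hm₁]
      show (F.ν d₁ : G → ℂ) g * (F₀.ν d₂ : G → ℂ) g - (F.ν d₁ : G → ℂ) g * (F₀.ν d₁ : G → ℂ) g = 0
      rw [h.nu_reg trv_ker F₀ d₂ d₁ hg]
      ring
    · intro x hx hx1
      obtain ⟨h1, h2, h3, h4⟩ := h.rel_A hd hA hx hx1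
      rw [← hm₀, ← hm₁]
      show (F.ν d₁ : G → ℂ) x * (F₀.ν d₂ : G → ℂ) x - (F.ν d₁ : G → ℂ) x * (F₀.ν d₁ : G → ℂ) x = _
      rw [hv x hx hx1, hv₀ d₁ x hx hx1, hv₀ d₂ x hx hx1]
      linear_combination (eta P d₁.1 x) * h3 - h4
  obtain ⟨hac1, hac2⟩ : m₀ (F.ν d₁) = 0 ∧ m₀ (F.ν d₂) = 0 := by omega
  obtain ⟨c1, c2, c3, c4, c5, c6, c7⟩ := h.pair_val hθP F hd m₀ m₁ hT hPm₀ hPp₁ ht₀ ht₁
    (Or.inl ⟨hε, hac1, hac2⟩)
  simp only [hε] at c1 c2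
  refine ⟨c4, c5, ?_, ?_⟩
  · intro g
    have h1 := c1 g
    rw [← hm₀] at h1
    simpa using h1
  · intro g
    have h1 := c2 g
    rw [← hm₁] at h1
    simpa using h1

end Cases

end Cfsg.Agent.Lib.CharDeep.Half
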