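import Cfsg.Agent.Lib.CharDeep.Half.Twist

/-!
# The case of degree `(p - 1) / 2`: multiplicities in characters with given values on `P`
-/

set_option autoImplicit false
set_option linter.style.haveILetI false
set_option linter.unusedSectionVars false
set_option linter.unusedVariables false

namespace Cfsg.Agent.Lib.CharDeep.Half

open Cfsg
open Cfsg.Agent.Lib.Blocks.Local Cfsg.Agent.Lib.Blocks.Central Cfsg.Agent.Lib.Blocks.General
open Cfsg.Agent.Lib.Blocks.Induced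
open Cfsg.Agent.Lib.Char.Induced Cfsg.Agent.Lib.Char.Ortho Cfsg.Agent.Lib.Char.Linear
open Cfsg.Agent.Lib.Char.Basic Cfsg.Agent.Lib.Char.GenLattice Cfsg.Agent.Lib.Char.Complete
open Cfsg.Agent.Lib.Char.Degree
open Cfsg.Agent.Lib.ExcP.Gram Cfsg.Agent.Lib.ExcP.Inst Cfsg.Agent.Lib.ExcP.Dual
open Cfsg.Agent.Lib.ModRep.Prime Cfsg.Agent.Lib.ModRep.ThGram Cfsg.Agent.Lib.ModRep.ThIdem
open Cfsg.Agent.Lib.ModRep.ThDeg Cfsg.Agent.Lib.ModRep.Numerics2 Cfsg.Agent.Lib.ModRep.BlockTh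
open Cfsg.Agent.Lib.CharDeep.BrauerDeg
open scoped ComplexConjugate

universe u

variable {G : Type u} [Group G] {p f : ℕ} [hp : Fact p.Prime] {P : Subgroup G}

theorem sum_ind {ι : Type*} [Fintype ι] [DecidableEq ι] (S : Finset ι) (m : ι → ℕ) (c : ℕ) :
    ∑ i, m i * (if i ∈ S then c else 0) = c * ∑ i ∈ S, m i := by
  have h1 : ∀ i, m i * (if i ∈ S then c else 0) = if i ∈ S then c * m i else 0 := by
    intro i
    split_ifs <;> ring
  simp only [h1]
  rw [Finset.sum_ite_mem, Finset.univ_inter, Finset.mul_sum]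

section Ineq

variable [Fintype G] [Fintype (Cn P)] [Fintype (Nn P)] [Fintype (DD P p)] [Fintype (IrrCharacter G)]
  [Fintype (IrrCharacter (Cn P))] [Fintype (Subgroup.center G)] [Fintype P] {M : Ideal AlgInt} (h : HD P p f)
  {θ : IrrCharacter (Cn P)} (hθP : ∀ x : Cn P, (x : G) ∈ P → (θ : Cn P → ℂ) x = (θ : Cn P → ℂ) 1)
  (F : Fam M P p θ)

/-- The part of `X` with sign `+`. -/
noncomputable def Xp : Finset (IrrCharacter G) :=
  open scoped Classical in F.X.filter (fun χ => F.εX χ = 1)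

/-- The part of `X` with sign `-`. -/
noncomputable def Xm : Finset (IrrCharacter G) :=
  open scoped Classical in F.X.filter (fun χ => F.εX χ = -1)

omit [Fintype (Subgroup.center G)] [Fintype P] in
theorem mem_Xp {χ : IrrCharacter G} : χ ∈ Xp F ↔ χ ∈ F.X ∧ F.εX χ = 1 := by
  classical
  simp [Xp]

omit [Fintype (Subgroup.center G)] [Fintype P] in
theorem mem_Xm {χ : IrrCharacter G} : χ ∈ Xm F ↔ χ ∈ F.X ∧ F.εX χ = -1 := by
  classical
  simp [Xm]

omit [Fintype (Subgroup.center G)] [Fintype P] in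
theorem disj_X : Disjoint (Xp F) (Xm F) := by
  rw [Finset.disjoint_left]
  intro χ h1 h2
  have h3 := ((mem_Xp F).mp h1).2
  have h4 := ((mem_Xm F).mp h2).2
  omega

omit [Fintype (Subgroup.center G)] [Fintype P] in
theorem X_eq : F.X = Xp F ∪ Xm F := by
  classical
  ext χ
  simp only [Finset.mem_union, mem_Xp, mem_Xm]
  constructor
  · intro h1
    rcases F.hεX χ h1 with h2 | h2
    · exact Or.inl ⟨h1, h2⟩
    · exact Or.inr ⟨h1, h2⟩
  · rintro (h1 | h1) <;> exact h1.1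

omit [Fintype (Subgroup.center G)] [Fintype P] in
theorem sum_eps (a : IrrCharacter G → ℂ) :
    ∑ χ ∈ F.X, (F.εX χ : ℂ) * a χ = ∑ χ ∈ Xp F, a χ - ∑ χ ∈ Xm F, a χ := by
  classical
  rw [X_eq F, Finset.sum_union (disj_X F), sub_eq_add_neg, ← Finset.sum_neg_distrib]
  congr 1
  · refine Finset.sum_congr rfl fun χ hχ => ?_
    rw [((mem_Xp F).mp hχ).2]
    simp
  · refine Finset.sum_congr rfl fun χ hχ => ?_
    rw [((mem_Xm F).mp hχ).2]
    simp

omit [Fintype (Subgroup.center G)] [Fintype P] in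
theorem sum_X_split {R : Type*} [AddCommMonoid R] (a : IrrCharacter G → R) :
    ∑ χ ∈ F.X, a χ = ∑ χ ∈ Xp F, a χ + ∑ χ ∈ Xm F, a χ := by
  classical
  rw [X_eq F, Finset.sum_union (disj_X F)]

omit [Fintype (Subgroup.center G)] [Fintype P] in
theorem inner_nat {m : IrrCharacter G → ℕ} (i : IrrCharacter G) :
    classInner (∑ j, m j • (j : G → ℂ)) (i : G → ℂ) = m i := classInner_of_nat_combination m i

theorem isClass_comb (m : IrrCharacter G → ℕ) : IsClassFunction G (∑ j, m j • (j : G → ℂ)) := by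
  intro g x
  simp only [Finset.sum_apply, Pi.smul_apply]
  refine Finset.sum_congr rfl fun j _ => ?_
  rw [isClassFunction_of_isIrrCharacter j.2 g x]

include h hθP

/-- The multiplicities, from the values on `P`. -/
theorem HD.analysis {d₁ d₂ : DD P p} (hd : d₂ ∉ orbF d₁) (m : IrrCharacter G → ℕ)
    (hO : Over P (θ : Cn P → ℂ) (∑ j, m j • (j : G → ℂ))) {A b : ℤ}
    (hval : ∀ x : Cn P, (x : G) ∈ P → x ≠ 1 →
      2 * (∑ j, m j • (j : G → ℂ)) x = (A : ℂ) + 2 * (b : ℂ) * eta P d₁.1 x) :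
    F.ε * ((m (F.ν d₁) : ℤ) - m (F.ν d₂)) = b ∧
      2 * (((∑ χ ∈ Xp F, m χ : ℕ) : ℤ) - ((∑ χ ∈ Xm F, m χ : ℕ) : ℤ)) =
        A - b + F.ε * ((m (F.ν d₁) : ℤ) + m (F.ν d₂)) := by
  classical
  set Pp : ℕ := ∑ χ ∈ Xp F, m χ with hPp
  set Pm : ℕ := ∑ χ ∈ Xm F, m χ with hPm
  set a : ℕ := m (F.ν d₁) with ha
  set c : ℕ := m (F.ν d₂) with hc
  have hexp : ∀ x : Cn P, (x : G) ∈ P → x ≠ 1 → (∑ j, m j • (j : G → ℂ)) x =
      (Pp : ℂ) - (Pm : ℂ) + (F.ε : ℂ) * ((a : ℂ) * eta P d₁.1 x + (c : ℂ) * eta P d₂.1 x) := by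
    intro x hx hx1
    rw [h.expand_over hθP F (isClass_comb m) hO hd hx hx1]
    simp only [inner_nat]
    rw [sum_eps F (fun χ => (m χ : ℂ))]
    simp only [hPp, hPm]
    push_cast
    rfl
  let u : ℤ := 2 * ((Pp : ℤ) - (Pm : ℤ)) - 2 * F.ε * c - A
  let v : ℤ := 2 * F.ε * ((a : ℤ) - c) - 2 * b
  have huv : ∀ x : Cn P, (x : G) ∈ P → x ≠ 1 → (u : ℂ) + (v : ℂ) * eta P d₁.1 x = 0 := by
    intro x hx hx1
    have h1 := hexp x hx hx1
    have h2 := hval x hx hx1
    rw [h1] at h2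
    have h3 := h.eta_add hd hx hx1
    have h4 : eta P d₂.1 x = -1 - eta P d₁.1 x := by linear_combination h3
    rw [h4] at h2
    simp only [u, v]
    push_cast
    linear_combination h2
  obtain ⟨x₀, hx₀, hx₀1⟩ := h.exists_Psharp
  obtain ⟨x₁, hx₁, hx₁1, hne⟩ := h.exists_eta_ne hd hx₀ hx₀1
  have hv : v = 0 := by
    have h1 := huv x₀ hx₀ hx₀1
    have h2 := huv x₁ hx₁ hx₁1
    have h3 : (v : ℂ) * (eta P d₁.1 x₁ - eta P d₁.1 x₀) = 0 := by linear_combination h2 - h1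
    have h4 := (mul_eq_zero.mp h3).resolve_right (sub_ne_zero.mpr hne)
    exact_mod_cast h4
  have hu : u = 0 := by
    have h1 := huv x₀ hx₀ hx₀1
    rw [hv] at h1
    simp only [Int.cast_zero, zero_mul, add_zero] at h1
    exact_mod_cast h1
  simp only [u, v] at hu hv
  have hb : F.ε * ((a : ℤ) - c) = b := by linarith
  refine ⟨hb, ?_⟩
  linarith

omit hθP in
/-- The trivial character has sign `+`. -/
theorem HD.trv_eps (hθP : ∀ x : Cn P, (x : G) ∈ P → (θ : Cn P → ℂ) x = (θ : Cn P → ℂ) 1) (ht : trv G ∈ F.X) :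
    F.εX (trv G) = 1 := by
  obtain ⟨x, hx, hx1⟩ := h.exists_Psharp
  have h1 := h.val_X hθP F ht hx hx1
  rw [trv_apply] at h1
  have h2 : ((F.εX (trv G) : ℤ) : ℂ) = ((1 : ℤ) : ℂ) := by
    rw [← h1]
    simp
  exact_mod_cast h2

/-- A linear character in `X₊` is trivial. -/
theorem HD.eq_trv_of_deg {χ : IrrCharacter G} (hχ : χ ∈ Xp F) (h1 : charDegree (χ : G → ℂ) = 1) : χ = trv G := by
  obtain ⟨h2, h3⟩ := (mem_Xp F).mp hχ
  have hone : (χ : G → ℂ) 1 = 1 := by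
    rw [← charDegree_natCast (isCharacter_of_isIrrCharacter χ.2), h1]
    simp
  apply Subtype.ext
  funext g
  rw [trv_apply, h.ker_of_P (isCharacter_of_isIrrCharacter χ.2) _ g, hone]
  intro x hx
  by_cases hx1 : x = 1
  · rw [hx1]
  · have hxC : x ∈ Cn P := le_centralizer h.hP hx
    have h4 := h.val_X hθP F h2 (x := ⟨x, hxC⟩) hx (fun h0 => hx1 (congrArg (Subtype.val : Cn P → G) h0))
    rw [h3] at h4
    have h5 : (χ : G → ℂ) x = 1 := by
      rw [show x = ((⟨x, hxC⟩ : Cn P) : G) from rfl, h4]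
      simp
    rw [h5, hone]

/-- **The inequality on degrees**. -/
theorem HD.deg_ineq {d₁ d₂ : DD P p} (hd : d₂ ∉ orbF d₁) (m : IrrCharacter G → ℕ) (D : ℕ)
    (hD : D = charDegree (F.ν d₁ : G → ℂ)) :
    open scoped Classical in
    (2 * f + 2) * (∑ χ ∈ Xp F, m χ) + 2 * f * (∑ χ ∈ Xm F, m χ) + (m (F.ν d₁) + m (F.ν d₂)) * D ≤
        ∑ χ, m χ * charDegree (χ : G → ℂ) + (2 * f + 1) * (if trv G ∈ F.X then m (trv G) else 0) ∧
      ((2 * f + 2) * (∑ χ ∈ Xp F, m χ) + 2 * f * (∑ χ ∈ Xm F, m χ) + (m (F.ν d₁) + m (F.ν d₂)) * D =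
        ∑ χ, m χ * charDegree (χ : G → ℂ) + (2 * f + 1) * (if trv G ∈ F.X then m (trv G) else 0) →
        ∀ χ, m χ ≠ 0 → (χ ∈ Xp F ∧ (χ = trv G ∨ charDegree (χ : G → ℂ) = 2 * f + 2)) ∨
          (χ ∈ Xm F ∧ charDegree (χ : G → ℂ) = 2 * f) ∨ χ = F.ν d₁ ∨ χ = F.ν d₂) := by
  classical
  have hne : F.ν d₁ ≠ F.ν d₂ := fun he => hd ((h.nu_eq_iff hθP F d₂ d₁).mp he.symm)
  let L : IrrCharacter G → ℕ := fun χ => (if χ ∈ Xp F then 2 * f + 2 else 0) + (if χ ∈ Xm F then 2 * f else 0) +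
    (if χ ∈ ({F.ν d₁} : Finset _) then D else 0) + (if χ ∈ ({F.ν d₂} : Finset _) then D else 0)
  let R : IrrCharacter G → ℕ := fun χ => charDegree (χ : G → ℂ) +
    (if χ ∈ (if trv G ∈ F.X then {trv G} else ∅ : Finset _) then 2 * f + 1 else 0)
  have hXnu : ∀ d, F.ν d ∉ Xp F ∧ F.ν d ∉ Xm F := by
    intro d
    constructor
    · exact fun h1 => nu_not_mem_X F d ((mem_Xp F).mp h1).1
    · exact fun h1 => nu_not_mem_X F d ((mem_Xm F).mp h1).1
  have hdegD : ∀ d, charDegree (F.ν d : G → ℂ) = D := fun d => by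
    rw [hD]
    exact h.nu_deg hθP F d d₁
  have hLR : ∀ χ, L χ ≤ R χ := by
    intro χ
    simp only [L, R]
    by_cases h1 : χ ∈ Xp F
    · have h2 : χ ∉ Xm F := fun h3 => Finset.disjoint_left.mp (disj_X F) h1 h3
      have h3 : χ ≠ F.ν d₁ := fun he => (hXnu d₁).1 (he ▸ h1)
      have h4 : χ ≠ F.ν d₂ := fun he => (hXnu d₂).1 (he ▸ h1)
      simp only [if_pos h1, if_neg h2, Finset.mem_singleton, if_neg h3, if_neg h4, add_zero]
      by_cases h5 : χ = trv G
      · have h6 : trv G ∈ F.X := h5 ▸ ((mem_Xp F).mp h1).1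
        have h7 : charDegree (χ : G → ℂ) = 1 := by
          rw [h5]
          exact charDegree_trv G
        rw [if_pos h6, h7, if_pos (by simp [h5])]
        omega
      · have h6 : charDegree (χ : G → ℂ) ≠ 1 := fun h7 => h5 (h.eq_trv_of_deg hθP F h1 h7)
        have h7 := (h.deg_X_plus hθP F ((mem_Xp F).mp h1).1 ((mem_Xp F).mp h1).2).resolve_left h6
        omega
    · by_cases h2 : χ ∈ Xm F
      · have h3 : χ ≠ F.ν d₁ := fun he => (hXnu d₁).2 (he ▸ h2)
        have h4 : χ ≠ F.ν d₂ := fun he => (hXnu d₂).2 (he ▸ h2)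
        have h5 := h.deg_X_minus hθP F ((mem_Xm F).mp h2).1 ((mem_Xm F).mp h2).2
        simp only [if_neg h1, if_pos h2, Finset.mem_singleton, if_neg h3, if_neg h4, add_zero, zero_add]
        omega
      · simp only [if_neg h1, if_neg h2, Finset.mem_singleton, zero_add]
        by_cases h3 : χ = F.ν d₁
        · have h4 : χ ≠ F.ν d₂ := fun he => hne (h3.symm.trans he)
          simp only [if_pos h3, if_neg h4, add_zero]
          rw [h3, hdegD]
          omega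
        · by_cases h4 : χ = F.ν d₂
          · simp only [if_neg h3, if_pos h4, zero_add]
            rw [h4, hdegD]
            omega
          · simp only [if_neg h3, if_neg h4, add_zero]
            omega
  have hsumL : ∑ χ, m χ * L χ = (2 * f + 2) * (∑ χ ∈ Xp F, m χ) + 2 * f * (∑ χ ∈ Xm F, m χ) +
      (m (F.ν d₁) + m (F.ν d₂)) * D := by
    simp only [L, mul_add, Finset.sum_add_distrib, sum_ind]
    simp only [Finset.sum_singleton]
    ring
  have hsumR : ∑ χ, m χ * R χ = ∑ χ, m χ * charDegree (χ : G → ℂ) +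
      (2 * f + 1) * (if trv G ∈ F.X then m (trv G) else 0) := by
    simp only [R, mul_add, Finset.sum_add_distrib, sum_ind]
    congr 2
    split_ifs <;> simp
  rw [← hsumL, ← hsumR]
  refine ⟨Finset.sum_le_sum fun χ _ => Nat.mul_le_mul_left _ (hLR χ), ?_⟩
  intro heq χ hχ
  have h1 := (Finset.sum_eq_sum_iff_of_le (fun χ _ => Nat.mul_le_mul_left _ (hLR χ))).mp heq χ (Finset.mem_univ _)
  have h2 : L χ = R χ := Nat.eq_of_mul_eq_mul_left (Nat.pos_of_ne_zero hχ) h1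
  simp only [L, R] at h2
  have hpos := charDegree_pos χ.2
  by_cases h3 : χ ∈ Xp F
  · left
    refine ⟨h3, ?_⟩
    by_cases h5 : χ = trv G
    · exact Or.inl h5
    · right
      have h4 : χ ∉ Xm F := fun h6 => Finset.disjoint_left.mp (disj_X F) h3 h6
      have h6 : χ ≠ F.ν d₁ := fun he => (hXnu d₁).1 (he ▸ h3)
      have h7 : χ ≠ F.ν d₂ := fun he => (hXnu d₂).1 (he ▸ h3)
      simp only [if_pos h3, if_neg h4, Finset.mem_singleton, if_neg h6, if_neg h7, add_zero] at h2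
      have h8 : χ ∉ (if trv G ∈ F.X then {trv G} else ∅ : Finset _) := by
        split_ifs <;> simp [h5]
      rw [if_neg h8] at h2
      omega
  · right
    by_cases h4 : χ ∈ Xm F
    · left
      refine ⟨h4, ?_⟩
      have h6 : χ ≠ F.ν d₁ := fun he => (hXnu d₁).2 (he ▸ h4)
      have h7 : χ ≠ F.ν d₂ := fun he => (hXnu d₂).2 (he ▸ h4)
      simp only [if_neg h3, if_pos h4, Finset.mem_singleton, if_neg h6, if_neg h7, add_zero, zero_add] at h2
      have h5 := h.deg_X_minus hθP F ((mem_Xm F).mp h4).1 ((mem_Xm F).mp h4).2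
      have h8 : charDegree (χ : G → ℂ) ≤ 2 * f := by
        rw [h2]
        exact Nat.le_add_right _ _
      omega
    · right
      by_contra hcon
      push Not at hcon
      simp only [if_neg h3, if_neg h4, Finset.mem_singleton, if_neg hcon.1, if_neg hcon.2, add_zero, zero_add] at h2
      omega

end Ineq

section Over

variable [Fintype G] [Fintype (Cn P)] [Fintype (Nn P)] [Fintype (DD P p)] [Fintype (IrrCharacter G)]
  [Fintype (IrrCharacter (Cn P))] [Fintype (Subgroup.center G)] [Fintype P]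

theorem over_mul_conj (h : HD P p f) {θ : Cn P → ℂ} (hθ : IsIrrCharacter (Cn P) θ) {a b : G → ℂ} (ha : Over P θ a)
    (hb : Over P θ b) : Over P (trv (Cn P) : Cn P → ℂ) (fun g => a g * conj (b g)) := by
  intro g z
  simp only [ha g z, hb g z, map_mul, trv_apply]
  have h1 := h.theta_conj hθ (zC P z)
  linear_combination (a g * conj (b g)) * h1

theorem over_mul_trv {θ : Cn P → ℂ} {a b : G → ℂ} (ha : Over P θ a) (hb : Over P (trv (Cn P) : Cn P → ℂ) b) :
    Over P θ (fun g => a g * b g) := by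
  intro g z
  simp only [ha g z, hb g z, trv_apply]
  ring

theorem over_sub {θ : Cn P → ℂ} {a b : G → ℂ} (ha : Over P θ a) (hb : Over P θ b) :
    Over P θ (fun g => a g - b g) := by
  intro g z
  simp only [ha g z, hb g z]
  ring

variable (h : HD P p f)

include h

/-- The values of `Ws` on the centralizer. -/
theorem HD.Ws_val {θ : Cn P → ℂ} (hθ : IsIrrCharacter (Cn P) θ) (hθP : ∀ x : Cn P, (x : G) ∈ P → θ x = θ 1)
    (d : DD P p) (c : Cn P) : Ws P θ d.1 c = θ c * (eta P d.1 c - f) := by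
  have hC := card_ne_zero_Cn (P := P)
  rw [Ws_apply h.hP h.hp2 θ d.2.1 c]
  simp only [h.inv_theta hθ hθP, fl, cj_apply, eta, ← Finset.sum_mul, Finset.sum_sub_distrib, Finset.sum_const,
    Finset.card_univ, ← Nat.card_eq_fintype_card, h.hf, nsmul_eq_mul, mul_one]
  push_cast
  field_simp

/-- Every `p`-singular element is conjugate to an element of the centralizer. -/
theorem HD.conj_into_C {g : G} (hg : p ∣ orderOf g) : ∃ (l : G) (c : Cn P), g = l * c * l⁻¹ ∧ p ∣ orderOf (c : G) := by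
  have h1 := orderOf_pow_div (p := p) hg
  set u := g ^ (orderOf g / p) with hu
  have hcard : Nat.card (Subgroup.zpowers u) = p := by rw [Nat.card_zpowers, h1]
  obtain ⟨l, hl⟩ := exists_conj_of_card h.hP h.hp2 hcard
  have hmem : u ∈ P.map (MulAut.conj l).toMonoidHom := by
    rw [hl]
    exact Subgroup.mem_zpowers u
  obtain ⟨w, hw, hwu⟩ := Subgroup.mem_map.mp hmem
  have h2 : (MulAut.conj l).toMonoidHom w = l * w * l⁻¹ := rfl
  rw [h2] at hwu
  have hw1 : w ≠ 1 := by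
    rintro rfl
    rw [mul_one, mul_inv_cancel] at hwu
    rw [← hwu, orderOf_one] at h1
    exact hp.out.one_lt.ne h1
  have hc : l⁻¹ * g * l ∈ Cn P := by
    rw [Subgroup.mem_centralizer_iff]
    intro a ha
    have ha' : a ∈ Subgroup.zpowers w := by
      rw [← eq_zpowers_of_mem h.hP hw hw1]
      exact ha
    obtain ⟨n, rfl⟩ := ha'
    have h3 : Commute w (l⁻¹ * g * l) := by
      have h4 : w = l⁻¹ * u * l := by
        rw [← hwu]
        group
      rw [h4]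
      have h5 : Commute u g := (Commute.refl g).pow_left _
      calc (l⁻¹ * u * l) * (l⁻¹ * g * l) = l⁻¹ * (u * g) * l := by group
        _ = l⁻¹ * (g * u) * l := by rw [h5.eq]
        _ = (l⁻¹ * g * l) * (l⁻¹ * u * l) := by group
    exact (h3.zpow_left n).eq
  refine ⟨l, ⟨l⁻¹ * g * l, hc⟩, by group, ?_⟩
  have h3 : l⁻¹ * g * l = MulAut.conj l⁻¹ g := by simp [MulAut.conj_apply]
  show p ∣ orderOf (l⁻¹ * g * l)
  rw [h3, MulEquiv.orderOf_eq]
  exact hg

/-- A `p`-singular element of the centralizer. -/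
theorem HD.dec_sing (c : Cn P) (hc : p ∣ orderOf (c : G)) :
    ∃ (a : Cn P) (z : Subgroup.center G), (a : G) ∈ P ∧ a ≠ 1 ∧ c = a * zC P z := by
  obtain ⟨⟨x, z⟩, hxz⟩ := h.bij.2 c
  have hxz' : pC h.hP x * zC P z = c := hxz
  subst hxz'
  refine ⟨pC h.hP x, z, x.2, ?_, rfl⟩
  intro h0
  have h1 : pC h.hP x * zC P z = zC P z := by rw [h0, one_mul]
  rw [h1] at hc
  exact h.reg_of_central z.2 hc

theorem HD.eta_mul_zC (d : Cn P →* ℂˣ) (hd : ∀ c, d c ^ p = 1) (a : Cn P) (z : Subgroup.center G) :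
    eta P d (a * zC P z) = eta P d a := by
  simp only [eta, map_mul, HD.cjH_zC h, h.apply_zC hd, mul_one]

/-- **The identity**: a class function with the values of `- Ws`. -/
theorem HD.neg_Ws {θ : Cn P → ℂ} (hθ : IsIrrCharacter (Cn P) θ) (hθP : ∀ x : Cn P, (x : G) ∈ P → θ x = θ 1)
    (d : DD P p) {T : G → ℂ} (hT : IsClassFunction G T) (hO : Over P θ T) (h0 : ∀ g, ¬ p ∣ orderOf g → T g = 0)
    (h1 : ∀ a : Cn P, (a : G) ∈ P → a ≠ 1 → T a = f - eta P d.1 a) (g : G) : T g = - Ws P θ d.1 g := by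
  by_cases hg : p ∣ orderOf g
  · obtain ⟨l, c, rfl, hc⟩ := h.conj_into_C hg
    have hWs : IsClassFunction G (Ws P θ d.1) := isClassFunction_indFun _ _
    rw [hT, hWs, h.Ws_val hθ hθP]
    obtain ⟨a, z, ha, ha1, rfl⟩ := h.dec_sing c hc
    have h3 : ((a * zC P z : Cn P) : G) = (a : G) * z := rfl
    rw [h3, hO, h1 a ha ha1, h.eta_mul_zC d.1 d.2.1, irr_mul_of_mem hθ hθP ha]
    ring
  · rw [h0 g hg, Ws_regular _ d.2.1 hg, neg_zero]

end Over

section Pair

variable [Fintype G] [Fintype (Cn P)] [Fintype (Nn P)] [Fintype (DD P p)] [Fintype (IrrCharacter G)]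
  [Fintype (IrrCharacter (Cn P))] [Fintype (Subgroup.center G)] [Fintype P] {M : Ideal AlgInt} (h : HD P p f)
  {θ : IrrCharacter (Cn P)} (hθP : ∀ x : Cn P, (x : G) ∈ P → (θ : Cn P → ℂ) x = (θ : Cn P → ℂ) 1)
  (F : Fam M P p θ)

include h hθP

/-- The multiplicities in a pair of characters with difference `- Ws`. -/
theorem HD.pair_mult {d d' : DD P p} (hd : d' ∉ orbF d) (mp mm : IrrCharacter G → ℕ)
    (hT : ∀ g, (∑ j, mp j • (j : G → ℂ)) g - (∑ j, mm j • (j : G → ℂ)) g = - Ws P (θ : Cn P → ℂ) d.1 g)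
    (hPm : ∑ χ ∈ Xm F, mp χ = 0) (hPp : ∑ χ ∈ Xp F, mm χ = 0)
    (htp : ∀ χ, mp χ ≠ 0 → χ ∈ F.X ∨ χ = F.ν d ∨ χ = F.ν d')
    (htm : ∀ χ, mm χ ≠ 0 → χ ∈ F.X ∨ χ = F.ν d ∨ χ = F.ν d')
    (hcase : (F.ε = 1 ∧ mp (F.ν d) = 0 ∧ mp (F.ν d') = 0) ∨ (F.ε = -1 ∧ mm (F.ν d) = 0 ∧ mm (F.ν d') = 0)) :
    open scoped Classical in
    ∀ χ, mp χ = (if χ ∈ Xp F then 1 else 0) + (if F.ε = -1 ∧ χ = F.ν d then 1 else 0) ∧
      mm χ = (if χ ∈ Xm F then 1 else 0) + (if F.ε = 1 ∧ χ = F.ν d then 1 else 0) := by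
  classical
  intro χ
  have hrel : (mp χ : ℤ) - mm χ = (if χ ∈ F.X then F.εX χ else 0) - (if F.ν d = χ then F.ε else 0) := by
    have h1 : classInner ((∑ j, mp j • (j : G → ℂ)) - (∑ j, mm j • (j : G → ℂ))) (χ : G → ℂ) =
        - classInner (Ws P (θ : Cn P → ℂ) d.1) (χ : G → ℂ) := by
      rw [← classInner_neg_left]
      congr 1
      funext g
      exact hT g
    rw [classInner_sub_left, classInner_of_nat_combination, classInner_of_nat_combination, inner_fam F d χ] at h1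
    have h2 : (((mp χ : ℤ) - mm χ : ℤ) : ℂ) =
        (((if χ ∈ F.X then F.εX χ else 0) - (if F.ν d = χ then F.ε else 0) : ℤ) : ℂ) := by
      push_cast
      rw [h1]
      split_ifs <;> simp <;> ring
    exact Int.cast_injective h2
  have hXnu : ∀ d₀, F.ν d₀ ∉ Xp F ∧ F.ν d₀ ∉ Xm F := by
    intro d₀
    constructor
    · exact fun h1 => nu_not_mem_X F d₀ ((mem_Xp F).mp h1).1
    · exact fun h1 => nu_not_mem_X F d₀ ((mem_Xm F).mp h1).1
  have hne : F.ν d ≠ F.ν d' := fun he => hd ((h.nu_eq_iff hθP F d' d).mp he.symm)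
  by_cases h1 : χ ∈ Xp F
  · have h2 : χ ∉ Xm F := fun h3 => Finset.disjoint_left.mp (disj_X F) h1 h3
    have h3 : χ ≠ F.ν d := fun he => (hXnu d).1 (he ▸ h1)
    have h4 : mm χ = 0 := (Finset.sum_eq_zero_iff.mp hPp) χ h1
    obtain ⟨h5, h6⟩ := (mem_Xp F).mp h1
    rw [if_pos h5, if_neg (Ne.symm h3), h6, h4] at hrel
    refine ⟨?_, ?_⟩
    · rw [if_pos h1, if_neg (fun hc => h3 hc.2)]
      omega
    · rw [if_neg h2, if_neg (fun hc => h3 hc.2), h4]
  · by_cases h2 : χ ∈ Xm F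
    · have h3 : χ ≠ F.ν d := fun he => (hXnu d).2 (he ▸ h2)
      have h4 : mp χ = 0 := (Finset.sum_eq_zero_iff.mp hPm) χ h2
      obtain ⟨h5, h6⟩ := (mem_Xm F).mp h2
      rw [if_pos h5, if_neg (Ne.symm h3), h6, h4] at hrel
      refine ⟨?_, ?_⟩
      · rw [if_neg h1, if_neg (fun hc => h3 hc.2), h4]
      · rw [if_pos h2, if_neg (fun hc => h3 hc.2)]
        omega
    · have h5 : χ ∉ F.X := by
        rw [X_eq F, Finset.mem_union]
        exact fun h6 => h6.elim h1 h2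
      rw [if_neg h5] at hrel
      by_cases h3 : χ = F.ν d
      · rw [if_pos h3.symm] at hrel
        rcases hcase with ⟨h6, h7, h8⟩ | ⟨h6, h7, h8⟩
        · have h9 : mp χ = 0 := by
            rw [h3]
            exact h7
          rw [h6] at hrel
          refine ⟨?_, ?_⟩
          · rw [if_neg h1, if_neg (fun hc => by
              have := hc.1
              omega), h9]
          · rw [if_neg h2, if_pos ⟨h6, h3⟩]
            omega
        · have h9 : mm χ = 0 := by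
            rw [h3]
            exact h7
          rw [h6] at hrel
          refine ⟨?_, ?_⟩
          · rw [if_neg h1, if_pos ⟨h6, h3⟩]
            omega
          · rw [if_neg h2, if_neg (fun hc => by
              have := hc.1
              omega), h9]
      · rw [if_neg (Ne.symm h3)] at hrel
        have hzero : mp χ = 0 ∧ mm χ = 0 := by
          by_cases h4 : χ = F.ν d'
          · rcases hcase with ⟨h6, h7, h8⟩ | ⟨h6, h7, h8⟩
            · have h9 : mp χ = 0 := by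
                rw [h4]
                exact h8
              omega
            · have h9 : mm χ = 0 := by
                rw [h4]
                exact h8
              omega
          · constructor
            · by_contra h6
              rcases htp χ h6 with h7 | h7 | h7
              · exact h5 h7
              · exact h3 h7
              · exact h4 h7
            · by_contra h6
              rcases htm χ h6 with h7 | h7 | h7
              · exact h5 h7
              · exact h3 h7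
              · exact h4 h7
        refine ⟨?_, ?_⟩
        · rw [if_neg h1, if_neg (fun hc => h3 hc.2), hzero.1]
        · rw [if_neg h2, if_neg (fun hc => h3 hc.2), hzero.2]

omit h hθP in
/-- Tightness. -/
def Tight (F : Fam M P p θ) (d₁ d₂ : DD P p) (f : ℕ) (m : IrrCharacter G → ℕ) : Prop :=
  ∀ χ, m χ ≠ 0 → (χ ∈ Xp F ∧ (χ = trv G ∨ charDegree (χ : G → ℂ) = 2 * f + 2)) ∨
    (χ ∈ Xm F ∧ charDegree (χ : G → ℂ) = 2 * f) ∨ χ = F.ν d₁ ∨ χ = F.ν d₂

omit h hθP in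
theorem Tight.symm {F : Fam M P p θ} {d₁ d₂ : DD P p} {m : IrrCharacter G → ℕ} (ht : Tight F d₁ d₂ f m) :
    Tight F d₂ d₁ f m := by
  intro χ hχ
  rcases ht χ hχ with h1 | h1 | h1 | h1
  · exact Or.inl h1
  · exact Or.inr (Or.inl h1)
  · exact Or.inr (Or.inr (Or.inr h1))
  · exact Or.inr (Or.inr (Or.inl h1))

omit h hθP in
theorem Tight.mem {F : Fam M P p θ} {d₁ d₂ : DD P p} {m : IrrCharacter G → ℕ} (ht : Tight F d₁ d₂ f m) (χ : IrrCharacter G)
    (hχ : m χ ≠ 0) : χ ∈ F.X ∨ χ = F.ν d₁ ∨ χ = F.ν d₂ := by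
  rcases ht χ hχ with h1 | h1 | h1
  · exact Or.inl ((mem_Xp F).mp h1.1).1
  · exact Or.inl ((mem_Xm F).mp h1.1).1
  · exact Or.inr h1

/-- The values of a pair of characters with difference `- Ws`. -/
theorem HD.pair_val {d d' : DD P p} (hd : d' ∉ orbF d) (mp mm : IrrCharacter G → ℕ)
    (hT : ∀ g, (∑ j, mp j • (j : G → ℂ)) g - (∑ j, mm j • (j : G → ℂ)) g = - Ws P (θ : Cn P → ℂ) d.1 g)
    (hPm : ∑ χ ∈ Xm F, mp χ = 0) (hPp : ∑ χ ∈ Xp F, mm χ = 0)
    (htp : Tight F d d' f mp) (htm : Tight F d d' f mm)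
    (hcase : (F.ε = 1 ∧ mp (F.ν d) = 0 ∧ mp (F.ν d') = 0) ∨ (F.ε = -1 ∧ mm (F.ν d) = 0 ∧ mm (F.ν d') = 0)) :
    (∀ g, (∑ j, mp j • (j : G → ℂ)) g = ∑ χ ∈ Xp F, (χ : G → ℂ) g + if F.ε = -1 then (F.ν d : G → ℂ) g else 0) ∧
    (∀ g, (∑ j, mm j • (j : G → ℂ)) g = ∑ χ ∈ Xm F, (χ : G → ℂ) g + if F.ε = 1 then (F.ν d : G → ℂ) g else 0) ∧
    (∑ j, mp j ^ 2 = (Xp F).card + if F.ε = -1 then 1 else 0) ∧
    (∀ χ ∈ Xp F, χ = trv G ∨ charDegree (χ : G → ℂ) = 2 * f + 2) ∧
    (∀ χ ∈ Xm F, charDegree (χ : G → ℂ) = 2 * f) ∧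
    (∑ χ ∈ Xp F, mp χ = (Xp F).card) ∧ (∑ χ ∈ Xm F, mm χ = (Xm F).card) := by
  classical
  have hm := h.pair_mult hθP F hd mp mm hT hPm hPp htp.mem htm.mem hcase
  have hXnu : ∀ d₀, F.ν d₀ ∉ Xp F ∧ F.ν d₀ ∉ Xm F := by
    intro d₀
    constructor
    · exact fun h1 => nu_not_mem_X F d₀ ((mem_Xp F).mp h1).1
    · exact fun h1 => nu_not_mem_X F d₀ ((mem_Xm F).mp h1).1
  have hmp1 : ∀ χ ∈ Xp F, mp χ = 1 := by
    intro χ hχ
    have h3 : χ ≠ F.ν d := fun he => (hXnu d).1 (he ▸ hχ)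
    rw [(hm χ).1, if_pos hχ, if_neg (fun hc => h3 hc.2)]
  have hmm1 : ∀ χ ∈ Xm F, mm χ = 1 := by
    intro χ hχ
    have h3 : χ ≠ F.ν d := fun he => (hXnu d).2 (he ▸ hχ)
    rw [(hm χ).2, if_pos hχ, if_neg (fun hc => h3 hc.2)]
  have hval : ∀ (S : Finset (IrrCharacter G)) (e₀ : ℤ) (n : IrrCharacter G → ℕ)
      (hn : ∀ χ, n χ = (if χ ∈ S then 1 else 0) + (if F.ε = e₀ ∧ χ = F.ν d then 1 else 0)) (g : G),
      (∑ j, n j • (j : G → ℂ)) g = ∑ χ ∈ S, (χ : G → ℂ) g + if F.ε = e₀ then (F.ν d : G → ℂ) g else 0 := by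
    intro S e₀ n hn g
    rw [Finset.sum_apply]
    have h1 : ∀ j : IrrCharacter G, (n j • (j : G → ℂ)) g = (if j ∈ S then (j : G → ℂ) g else 0) +
        (if j = F.ν d then (if F.ε = e₀ then (F.ν d : G → ℂ) g else 0) else 0) := by
      intro j
      rw [Pi.smul_apply, hn j, nsmul_eq_mul]
      by_cases h3 : j = F.ν d
      · rw [h3]
        by_cases h2 : F.ν d ∈ S <;> by_cases h4 : F.ε = e₀ <;> simp [h2, h4] <;> ring
      · by_cases h2 : j ∈ S <;> simp [h2, h3]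
    simp only [h1]
    rw [Finset.sum_add_distrib, Finset.sum_ite_mem, Finset.univ_inter, Finset.sum_ite_eq']
    simp
  refine ⟨hval _ _ _ fun χ => (hm χ).1, hval _ _ _ fun χ => (hm χ).2, ?_, ?_, ?_, ?_, ?_⟩
  · have h1 : ∀ j : IrrCharacter G, mp j ^ 2 = (if j ∈ Xp F then 1 else 0) +
        (if j = F.ν d then (if F.ε = -1 then 1 else 0) else 0) := by
      intro j
      rw [(hm j).1]
      by_cases h3 : j = F.ν d
      · rw [h3]
        by_cases h4 : F.ε = -1 <;> simp [(hXnu d).1, h4]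
      · by_cases h2 : j ∈ Xp F <;> simp [h2, h3]
    simp only [h1]
    rw [Finset.sum_add_distrib, Finset.sum_ite_mem, Finset.univ_inter, Finset.sum_ite_eq']
    simp
  · intro χ hχ
    have h1 : mp χ ≠ 0 := by
      rw [hmp1 χ hχ]
      exact one_ne_zero
    have hnX : χ ∉ Xm F := fun h6 => Finset.disjoint_left.mp (disj_X F) hχ h6
    rcases htp χ h1 with h2 | h2 | h2 | h2
    · exact h2.2
    · exact absurd h2.1 hnX
    · exact absurd (h2 ▸ hχ) (hXnu d).1
    · exact absurd (h2 ▸ hχ) (hXnu d').1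
  · intro χ hχ
    have h1 : mm χ ≠ 0 := by
      rw [hmm1 χ hχ]
      exact one_ne_zero
    have hnX : χ ∉ Xp F := fun h6 => Finset.disjoint_left.mp (disj_X F) h6 hχ
    rcases htm χ h1 with h2 | h2 | h2 | h2
    · exact absurd h2.1 hnX
    · exact h2.2
    · exact absurd (h2 ▸ hχ) (hXnu d).2
    · exact absurd (h2 ▸ hχ) (hXnu d').2
  · rw [Finset.sum_congr rfl hmp1]
    simp
  · rw [Finset.sum_congr rfl hmm1]
    simp

omit h hθP in
/-- The degree of a combination. -/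
theorem sum_deg_comb (m : IrrCharacter G → ℕ) :
    (∑ j, m j • (j : G → ℂ)) 1 = ((∑ χ, m χ * charDegree (χ : G → ℂ) : ℕ) : ℂ) := by
  rw [Finset.sum_apply]
  push_cast
  refine Finset.sum_congr rfl fun χ _ => ?_
  rw [Pi.smul_apply, charDegree_natCast (isCharacter_of_isIrrCharacter χ.2), nsmul_eq_mul]

/-- One step: the analysis of a combination. -/
theorem HD.step {d₁ d₂ : DD P p} (hd : d₂ ∉ orbF d₁) (m : IrrCharacter G → ℕ) {Δ : ℕ}
    (h1 : (∑ j, m j • (j : G → ℂ)) 1 = (Δ : ℂ))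
    (hO : Over P (θ : Cn P → ℂ) (∑ j, m j • (j : G → ℂ))) {A b : ℤ}
    (hval : ∀ x : Cn P, (x : G) ∈ P → x ≠ 1 →
      2 * (∑ j, m j • (j : G → ℂ)) x = (A : ℂ) + 2 * (b : ℂ) * eta P d₁.1 x) :
    open scoped Classical in
    F.ε * ((m (F.ν d₁) : ℤ) - m (F.ν d₂)) = b ∧
      2 * (((∑ χ ∈ Xp F, m χ : ℕ) : ℤ) - ((∑ χ ∈ Xm F, m χ : ℕ) : ℤ)) =
        A - b + F.ε * ((m (F.ν d₁) : ℤ) + m (F.ν d₂)) ∧
      (2 * f + 2) * (∑ χ ∈ Xp F, m χ) + 2 * f * (∑ χ ∈ Xm F, m χ) +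
          (m (F.ν d₁) + m (F.ν d₂)) * charDegree (F.ν d₁ : G → ℂ) ≤
        Δ + (2 * f + 1) * (if trv G ∈ F.X then m (trv G) else 0) ∧
      ((2 * f + 2) * (∑ χ ∈ Xp F, m χ) + 2 * f * (∑ χ ∈ Xm F, m χ) +
          (m (F.ν d₁) + m (F.ν d₂)) * charDegree (F.ν d₁ : G → ℂ) =
        Δ + (2 * f + 1) * (if trv G ∈ F.X then m (trv G) else 0) → Tight F d₁ d₂ f m) := by
  classical
  obtain ⟨h2, h3⟩ := h.analysis hθP F hd m hO hval
  obtain ⟨h4, h5⟩ := h.deg_ineq hθP F hd m _ rfl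
  have hΔ : ∑ χ, m χ * charDegree (χ : G → ℂ) = Δ := by
    have h6 := sum_deg_comb (G := G) m
    rw [h1] at h6
    exact_mod_cast h6.symm
  rw [hΔ] at h4 h5
  exact ⟨h2, h3, h4, h5⟩

end Pair

end Cfsg.Agent.Lib.CharDeep.Half
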