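import Cfsg.Agent.Lib.CharDeep.BrauerDeg.Core

/-!
# The case of a faithful irreducible character of degree `(p - 1) / 2`: invariance of `θ`

`ψ` is an irreducible character with `ψ = ob d₀ θ` on `C = C_G(P)`, `θ` of degree one, `|N : C| = f` and `p = 2 f + 1`.
Then `θ` is invariant under `N`.
-/

set_option autoImplicit false
set_option linter.style.haveILetI false
set_option linter.unusedSectionVars false

namespace Cfsg.Agent.Lib.CharDeep.Half

open Cfsg
open Cfsg.Agent.Lib.Blocks.Local Cfsg.Agent.Lib.Blocks.Central Cfsg.Agent.Lib.Blocks.General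
open Cfsg.Agent.Lib.Blocks.Induced
open Cfsg.Agent.Lib.Char.Induced Cfsg.Agent.Lib.Char.Ortho Cfsg.Agent.Lib.Char.Linear
open Cfsg.Agent.Lib.Char.Basic Cfsg.Agent.Lib.Char.GenLattice Cfsg.Agent.Lib.Char.Complete
open Cfsg.Agent.Lib.Char.Degree
open Cfsg.Agent.Lib.ExcP.Gram Cfsg.Agent.Lib.ExcP.Inst Cfsg.Agent.Lib.ExcP.Dual
open Cfsg.Agent.Lib.ModRep.Prime Cfsg.Agent.Lib.ModRep.ThGram Cfsg.Agent.Lib.ModRep.ThIdem
open Cfsg.Agent.Lib.ModRep.ThDeg Cfsg.Agent.Lib.ModRep.Numerics2 Cfsg.Agent.Lib.ModRep.BlockTh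
open Cfsg.Agent.Lib.CharDeep.BrauerDeg
open scoped ComplexConjugate

universe u

variable {G : Type u} [Group G] {p : ℕ} [hp : Fact p.Prime] {P : Subgroup G}

/-- A character of degree one has norm one. -/
theorem mul_conj_eq_one [Finite (Cn P)] {θ : Cn P → ℂ} (hθ : IsIrrCharacter (Cn P) θ) (hθ1 : θ 1 = 1) (c : Cn P) :
    θ c * conj (θ c) = 1 := by
  letI : Fintype (Cn P) := Fintype.ofFinite _
  obtain ⟨lam, rfl⟩ := exists_hom_of_deg_one (isCharacter_of_isIrrCharacter hθ) hθ1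
  show ((lam c : ℂˣ) : ℂ) * conj ((lam c : ℂˣ) : ℂ) = 1
  rw [conj_hom, MonoidHom.inv_apply]
  simp

section Family

variable [Fintype G] [Fintype (Cn P)] [Fintype (Nn P)] [Fintype (DD P p)] [Fintype (IrrCharacter G)]
  [Fintype (IrrCharacter (Cn P))] {M : Ideal AlgInt}

/-- Conjugates of `θ` under elements with the same conjugate of `d₀` are equal. -/
theorem cjt_eq_of_cj_eq (hP : Nat.card P = p) (hp2 : ¬ p ^ 2 ∣ Nat.card G) (d₀ : DD P p) {θ : Cn P → ℂ}
    (hθ : IsIrrCharacter (Cn P) θ) {y z : Nn P} (h : cj P y d₀.1 = cj P z d₀.1) :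
    cjt P y θ = cjt P z θ := by
  have h2 : cj P (z⁻¹ * y) d₀.1 = d₀.1 := by
    rw [cj_mul, h, ← cj_mul, inv_mul_cancel, cj_one]
  have h3 := mem_centralizer_of_cj_eq hP hp2 d₀.2.1 d₀.2.2 h2
  have h4 := mem_stabN_of_mem (isClassFunction_of_isIrrCharacter hθ) h3
  have h5 := mem_stabN_iff.mp h4
  have h6 : y = z * (z⁻¹ * y) := by group
  rw [h6, cjt_mul, h5]

/-- The inner product of `ob · conj ob` with `θ₁`. -/
theorem inner_Om_gen (hP : Nat.card P = p) (hp2 : ¬ p ^ 2 ∣ Nat.card G) (d₀ : DD P p) {θ : Cn P → ℂ}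
    (hθ : IsIrrCharacter (Cn P) θ) (hθP : ∀ x : Cn P, (x : G) ∈ P → θ x = θ 1) (hθ1 : θ 1 = 1)
    (θ₁ : IrrCharacter (Cn P)) (hθ₁P : ∀ x : Cn P, (x : G) ∈ P → (θ₁ : Cn P → ℂ) x = (θ₁ : Cn P → ℂ) 1) {f : ℕ}
    (hf : Nat.card (Nn P) = f * Nat.card (Cn P)) :
    open scoped Classical in
    classInner (θ₁ : Cn P → ℂ) (fun c => ob P d₀.1 θ c * conj (ob P d₀.1 θ c)) =
      if θ₁ = trv (Cn P) then (f : ℂ) else 0 := by
  classical
  have hC0 : (Nat.card (Cn P) : ℂ) ≠ 0 := Nat.cast_ne_zero.mpr Nat.card_pos.ne'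
  have h1 := inner_prod hP hp2 (1 : Cn P →* ℂˣ) (by simp) θ₁.2 hθ₁P d₀.2.1 d₀.2.1 hθ hθP hθ hθP
  rw [tw_one_eq] at h1
  rw [h1]
  have hdel : classInner (θ₁ : Cn P → ℂ) (trv (Cn P) : Cn P → ℂ) = if θ₁ = trv (Cn P) then 1 else 0 := by
    rw [classInner_irr θ₁.2 (trv (Cn P)).2]
    by_cases h2 : θ₁ = trv (Cn P)
    · rw [if_pos h2, if_pos (congrArg _ h2)]
    · rw [if_neg h2, if_neg (fun h => h2 (Subtype.ext h))]
  have h2 : ∀ y z : Nn P, (if (1 : Cn P →* ℂˣ) = cj P y d₀.1 * (cj P z d₀.1)⁻¹ then (1 : ℂ) else 0) *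
      classInner (θ₁ : Cn P → ℂ) (fun c => cjt P y θ c * conj (cjt P z θ c)) =
      (if cj P y d₀.1 = cj P z d₀.1 then (1 : ℂ) else 0) * (if θ₁ = trv (Cn P) then 1 else 0) := by
    intro y z
    by_cases h3 : cj P y d₀.1 = cj P z d₀.1
    · rw [if_pos ((one_eq_mul_inv_iff _ _).mpr h3), if_pos h3, one_mul, one_mul, ← hdel]
      congr 1
      funext c
      rw [cjt_eq_of_cj_eq hP hp2 d₀ hθ h3]
      rw [cjt_apply]
      exact mul_conj_eq_one hθ hθ1 _
    · rw [if_neg (fun h => h3 ((one_eq_mul_inv_iff _ _).mp h)), if_neg h3, zero_mul, zero_mul]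
  simp only [h2]
  have h3 : ∀ y : Nn P, ∑ z : Nn P, (if cj P y d₀.1 = cj P z d₀.1 then (1 : ℂ) else 0) = (Nat.card (Cn P) : ℂ) := by
    intro y
    rw [Finset.sum_boole, ← card_conj_eq hP hp2 d₀.2 y, Nat.card_eq_fintype_card, Fintype.card_subtype]
  simp only [← Finset.sum_mul, h3, Finset.sum_const, Finset.card_univ, ← Nat.card_eq_fintype_card, hf,
    nsmul_eq_mul]
  split_ifs
  · push_cast
    field_simp
  · simp

/-- The multiplicities of the `d` in `ob · conj ob`. -/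
theorem inner_Om_d (hP : Nat.card P = p) (hp2 : ¬ p ^ 2 ∣ Nat.card G) (d₀ : DD P p) {θ : Cn P → ℂ}
    (hθ : IsIrrCharacter (Cn P) θ) (hθP : ∀ x : Cn P, (x : G) ∈ P → θ x = θ 1) (d : DD P p) :
    open scoped Classical in
    classInner (tw d.1 (trv (Cn P) : Cn P → ℂ)) (fun c => ob P d₀.1 θ c * conj (ob P d₀.1 θ c)) =
      ((Nat.card (Cn P) : ℂ)⁻¹) ^ 2 * ∑ y : Nn P, ∑ z : Nn P,
        (if d.1 = cj P y d₀.1 * (cj P z d₀.1)⁻¹ then 1 else 0) * dl P θ y z := by
  classical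
  rw [inner_prod hP hp2 d.1 d.2.1 (trv (Cn P)).2 trv_ker d₀.2.1 d₀.2.1 hθ hθP hθ hθP]
  simp only [dl_eq hθ]

/-- The sum of the multiplicities of the `d`. -/
theorem sum_inner_Om_d (hP : Nat.card P = p) (hp2 : ¬ p ^ 2 ∣ Nat.card G) (d₀ : DD P p) {θ : Cn P → ℂ}
    (hθ : IsIrrCharacter (Cn P) θ) (hθP : ∀ x : Cn P, (x : G) ∈ P → θ x = θ 1) {f : ℕ}
    (hf : Nat.card (Nn P) = f * Nat.card (Cn P)) :
    ∑ d : DD P p, classInner (tw d.1 (trv (Cn P) : Cn P → ℂ)) (fun c => ob P d₀.1 θ c * conj (ob P d₀.1 θ c)) =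
      (f : ℂ) * ((Nat.card (Cn P) : ℂ)⁻¹ * WW P θ - 1) := by
  classical
  have hC0 : (Nat.card (Cn P) : ℂ) ≠ 0 := Nat.cast_ne_zero.mpr Nat.card_pos.ne'
  simp only [inner_Om_d hP hp2 d₀ hθ hθP]
  rw [← Finset.mul_sum, Finset.sum_comm]
  have h1 : ∀ y z : Nn P, ∑ d : DD P p, (if d.1 = cj P y d₀.1 * (cj P z d₀.1)⁻¹ then (1 : ℂ) else 0) * dl P θ y z =
      dl P θ y z - if cj P y d₀.1 = cj P z d₀.1 then 1 else 0 := by
    intro y z
    by_cases h3 : cj P y d₀.1 = cj P z d₀.1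
    · have h4 : cj P y d₀.1 * (cj P z d₀.1)⁻¹ = 1 := by
        rw [h3]
        ext c
        simp [MonoidHom.mul_apply, MonoidHom.inv_apply]
      have h5 : dl P θ y z = 1 := by
        unfold dl
        rw [if_pos (cjt_eq_of_cj_eq hP hp2 d₀ hθ h3)]
      rw [if_pos h3, h4, h5, sub_self]
      apply Finset.sum_eq_zero
      intro d _
      rw [if_neg d.2.2, zero_mul]
    · have hA : IsD P p (cj P y d₀.1 * (cj P z d₀.1)⁻¹) := by
        refine ⟨fun c => ?_, fun h => ?_⟩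
        · rw [MonoidHom.mul_apply, mul_pow, MonoidHom.inv_apply, inv_pow, cj_apply, cj_apply, d₀.2.1, d₀.2.1]
          simp
        · exact h3 ((one_eq_mul_inv_iff _ _).mp h.symm)
      rw [if_neg h3, sub_zero, Finset.sum_eq_single (⟨_, hA⟩ : DD P p)]
      · rw [if_pos rfl, one_mul]
      · intro b _ hb
        rw [if_neg (fun h => hb (Subtype.ext h)), zero_mul]
      · simp
  have h2 : ∑ d : DD P p, ∑ y : Nn P, ∑ z : Nn P,
      (if d.1 = cj P y d₀.1 * (cj P z d₀.1)⁻¹ then (1 : ℂ) else 0) * dl P θ y z =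
      ∑ y : Nn P, ∑ z : Nn P, (dl P θ y z - if cj P y d₀.1 = cj P z d₀.1 then 1 else 0) := by
    rw [Finset.sum_comm]
    refine Finset.sum_congr rfl fun y _ => ?_
    rw [Finset.sum_comm]
    refine Finset.sum_congr rfl fun z _ => h1 y z
  rw [Finset.sum_comm, h2]
  simp only [Finset.sum_sub_distrib, sum_dl_right]
  have h3 : ∀ y : Nn P, ∑ z : Nn P, (if cj P y d₀.1 = cj P z d₀.1 then (1 : ℂ) else 0) = (Nat.card (Cn P) : ℂ) := by
    intro y
    rw [Finset.sum_boole, ← card_conj_eq hP hp2 d₀.2 y, Nat.card_eq_fintype_card, Fintype.card_subtype]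
  simp only [h3, Finset.sum_const, Finset.card_univ, ← Nat.card_eq_fintype_card, hf, nsmul_eq_mul]
  push_cast
  field_simp

/-- The inequality for a constituent in the non-exceptional part of the principal block. -/
theorem key_X (hP : Nat.card P = p) (hp2 : ¬ p ^ 2 ∣ Nat.card G) (F : Fam M P p (trv (Cn P)))
    (hker : ∀ ξ : IrrCharacter G, (∀ x ∈ P, (ξ : G → ℂ) x = (ξ : G → ℂ) 1) → ∀ g, (ξ : G → ℂ) g = (ξ : G → ℂ) 1)
    (ξ : IrrCharacter G) (hξ1 : ξ ≠ trv G) (hX : ξ ∈ F.X)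
    (hcon : ∀ (κ : Cn P →* ℂˣ), (∀ x, κ x ^ p = 1) → ∀ θ₁ : IrrCharacter (Cn P),
      (∀ x : Cn P, (x : G) ∈ P → (θ₁ : Cn P → ℂ) x = (θ₁ : Cn P → ℂ) 1) → θ₁ ≠ trv (Cn P) →
        nn (tw κ (θ₁ : Cn P → ℂ)) (rs P (ξ : G → ℂ)) = 0) (d : DD P p) :
    nn (trv (Cn P) : Cn P → ℂ) (rs P (ξ : G → ℂ)) ≤ 2 * nn (tw d.1 (trv (Cn P) : Cn P → ℂ)) (rs P (ξ : G → ℂ)) := by
  classical
  have h := mult_rel F d ξ
  have hY : ξ ∉ F.Y := fun h1 => Finset.disjoint_left.mp F.hdisj hX h1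
  have hν : ∀ d₁, F.ν d₁ ≠ ξ := fun d₁ h1 => hY ((F.hY ξ).mpr ⟨d₁, h1⟩)
  rw [if_pos hX, if_neg (hν d)] at h
  rcases F.hεX ξ hX with h1 | h1
  · rw [h1] at h
    by_cases ha : nn (trv (Cn P) : Cn P → ℂ) (rs P (ξ : G → ℂ)) = 1
    · exfalso
      -- every `b` vanishes
      have hb : ∀ d₁ : DD P p, nn (tw d₁.1 (trv (Cn P) : Cn P → ℂ)) (rs P (ξ : G → ℂ)) = 0 := by
        intro d₁
        have h2 := mult_rel F d₁ ξ
        rw [if_pos hX, if_neg (hν d₁), h1, ha] at h2
        simp only [Nat.cast_one, add_zero, Int.reduceNeg] at h2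
        omega
      obtain ⟨m, hm⟩ := exists_nat_combination (isChar_rs (P := P) (isCharacter_of_isIrrCharacter ξ.2))
      have hm0 : ∀ i : IrrCharacter (Cn P), i ≠ trv (Cn P) → m i = 0 := by
        intro i hi
        rw [← nn_eq_mult (isChar_rs (P := P) (isCharacter_of_isIrrCharacter ξ.2)) hm i]
        obtain ⟨κ, θ₁, hκ, hθ₁, hdec⟩ := exists_decomp hP hp2 i
        have h3 : (i : Cn P → ℂ) = tw κ (θ₁ : Cn P → ℂ) := by
          funext c
          exact hdec c
        rw [h3]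
        by_cases hθ₁' : θ₁ = trv (Cn P)
        · subst hθ₁'
          by_cases hκ1 : κ = 1
          · exfalso
            apply hi
            apply Subtype.ext
            rw [h3, hκ1, tw_one_eq]
          · exact hb ⟨κ, hκ, hκ1⟩
        · exact hcon κ hκ θ₁ hθ₁ hθ₁'
      have hm1 : m (trv (Cn P)) = 1 := by
        rw [← nn_eq_mult (isChar_rs (P := P) (isCharacter_of_isIrrCharacter ξ.2)) hm (trv (Cn P))]
        exact ha
      have hval : ∀ c : Cn P, (ξ : G → ℂ) c = 1 := by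
        intro c
        have h4 := congrFun hm c
        rw [Finset.sum_apply, Finset.sum_eq_single (trv (Cn P))] at h4
        · simpa [rs, hm1] using h4
        · intro i _ hi
          simp [hm0 i hi]
        · simp
      have h5 : ∀ g, (ξ : G → ℂ) g = (ξ : G → ℂ) 1 := by
        apply hker
        intro x hx
        have h6 := hval ⟨x, le_centralizer hP hx⟩
        have h7 := hval 1
        simp only [OneMemClass.coe_one] at h7
        rw [h7]
        exact h6
      have h8 := hval 1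
      simp only [OneMemClass.coe_one] at h8
      apply hξ1
      apply Subtype.ext
      funext g
      rw [h5 g, h8]
      rfl
    · simp only [Int.reduceNeg, add_zero] at h
      omega
  · rw [h1] at h
    simp only [Int.reduceNeg, add_zero] at h
    omega

theorem relIndex_eq [Finite G] {f : ℕ} (hf : Nat.card (Nn P) = f * Nat.card (Cn P)) : (Cn P).relIndex (Nn P) = f := by
  have hle2 : Cn P ≤ Nn P := Subgroup.centralizer_le_normalizer _
  have h3 := Subgroup.card_mul_index ((Cn P).subgroupOf (Nn P))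
  have h4 : Nat.card ((Cn P).subgroupOf (Nn P)) = Nat.card (Cn P) :=
    Nat.card_congr (Subgroup.subgroupOfEquivOfLe hle2).toEquiv
  rw [h4, hf, mul_comm] at h3
  exact Nat.eq_of_mul_eq_mul_right Nat.card_pos h3

theorem charDegree_trv (H : Type u) [Group H] [Finite H] : charDegree (trv H : H → ℂ) = 1 :=
  charDegree_eq_of_eq_natCast (by simp)

/-- The class of a `d` under `N`, when `θ` is trivial. -/
theorem e_trv (hP : Nat.card P = p) (hp2 : ¬ p ^ 2 ∣ Nat.card G) (F : Fam M P p (trv (Cn P))) {f : ℕ}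
    (hf : Nat.card (Nn P) = f * Nat.card (Cn P)) : F.e = f := by
  classical
  have hne : Nonempty (DD P p) := by
    rw [← Fintype.card_pos_iff, ← Nat.card_eq_fintype_card, card_DD hP hp2]
    have := hp.out.two_le
    omega
  obtain ⟨b⟩ := hne
  rw [← F.hcls b, ← card_orbF hP hp2 b hf, Nat.card_eq_fintype_card, Fintype.card_subtype]
  congr 1
  ext a
  simp only [Finset.mem_filter, Finset.mem_univ, true_and, orbF]
  constructor
  · rintro ⟨y, -, hy⟩
    exact ⟨y, hy⟩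
  · rintro ⟨y, hy⟩
    exact ⟨y, fun c => rfl, hy⟩

/-- The sum over `D` of a function of the exceptional character, in the principal block. -/
theorem sum_nu_eq (hP : Nat.card P = p) (hp2 : ¬ p ^ 2 ∣ Nat.card G) (F : Fam M P p (trv (Cn P))) {f : ℕ}
    (hf : Nat.card (Nn P) = f * Nat.card (Cn P)) (m : IrrCharacter G → ℕ) :
    ∑ d : DD P p, m (F.ν d) = f * ∑ y ∈ F.Y, m y := by
  classical
  have h1 : ∀ d ∈ (Finset.univ : Finset (DD P p)), F.ν d ∈ F.Y := fun d _ => (F.hY _).mpr ⟨d, rfl⟩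
  rw [← Finset.sum_fiberwise_of_maps_to h1, Finset.mul_sum]
  refine Finset.sum_congr rfl fun y hy => ?_
  obtain ⟨b, rfl⟩ := (F.hY y).mp hy
  rw [Finset.sum_congr rfl (g := fun _ => m (F.ν b)) (fun d hd => by rw [(Finset.mem_filter.mp hd).2])]
  rw [Finset.sum_const, smul_eq_mul]
  congr 1
  rw [← e_trv hP hp2 F hf, ← F.hcls b, Nat.card_eq_fintype_card, Fintype.card_subtype]
  congr 1
  ext a
  simp [F.hν]

set_option maxHeartbeats 1200000 in
/-- **Invariance of `θ`**. -/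
theorem theta_inv (hM : IsPModular p M) (hP : Nat.card P = p) (hp2 : ¬ p ^ 2 ∣ Nat.card G) {f : ℕ}
    (hf : Nat.card (Nn P) = f * Nat.card (Cn P)) (hpf : p = 2 * f + 1)
    (hker : ∀ ξ : IrrCharacter G, (∀ x ∈ P, (ξ : G → ℂ) x = (ξ : G → ℂ) 1) → ∀ g, (ξ : G → ℂ) g = (ξ : G → ℂ) 1)
    (F₀ : Fam M P p (trv (Cn P))) {θ : IrrCharacter (Cn P)}
    (hθP : ∀ x : Cn P, (x : G) ∈ P → (θ : Cn P → ℂ) x = (θ : Cn P → ℂ) 1) (hθ1 : (θ : Cn P → ℂ) 1 = 1) (d₀ : DD P p)
    (ψ : IrrCharacter G) (hval : ∀ c : Cn P, (ψ : G → ℂ) c = ob P d₀.1 (θ : Cn P → ℂ) c) (y : Nn P) :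
    cjt P y (θ : Cn P → ℂ) = θ := by
  classical
  have hC0 : (Nat.card (Cn P) : ℂ) ≠ 0 := Nat.cast_ne_zero.mpr Nat.card_pos.ne'
  have hCpos : 0 < Nat.card (Cn P) := Nat.card_pos
  have hf0 : 0 < f := by
    rcases Nat.eq_zero_or_pos f with h | h
    · rw [h, zero_mul] at hf
      exact absurd hf Nat.card_pos.ne'
    · exact h
  have hj := isCharacter_of_isIrrCharacter ψ.2
  let Ω : G → ℂ := (ψ : G → ℂ) * fun g => conj ((ψ : G → ℂ) g)
  have hΩ : IsCharacter G Ω := isCharacter_mul hj (Cfsg.Agent.Lib.CharX.Conj.isCharacter_conj hj)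
  have hrs : rs P Ω = fun c => ob P d₀.1 (θ : Cn P → ℂ) c * conj (ob P d₀.1 (θ : Cn P → ℂ) c) := by
    funext c
    show (ψ : G → ℂ) c * conj ((ψ : G → ℂ) c) = _
    rw [hval]
  have hj1 : (ψ : G → ℂ) 1 = f := by
    have h1 := hval 1
    rw [ob_one hf, hθ1, mul_one] at h1
    simpa using h1
  have hΩ1 : Ω 1 = ((f ^ 2 : ℕ) : ℂ) := by
    show (ψ : G → ℂ) 1 * conj ((ψ : G → ℂ) 1) = _
    rw [hj1, Complex.conj_natCast]
    push_cast
    ring
  obtain ⟨m, hm⟩ := exists_nat_combination hΩ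
  have hm1 : m (trv G) = 1 := by
    have h1 : classInner Ω (trv G : G → ℂ) = (m (trv G) : ℂ) := by
      conv_lhs => rw [hm]
      exact classInner_of_nat_combination m _
    have h2 : classInner Ω (trv G : G → ℂ) = classInner (ψ : G → ℂ) (ψ : G → ℂ) := by
      simp [classInner_def, Ω]
    rw [h2, classInner_irr ψ.2 ψ.2, if_pos rfl] at h1
    exact_mod_cast h1.symm
  -- the multiplicities of the `θ₁`
  have hA : nn (trv (Cn P) : Cn P → ℂ) (rs P Ω) = f := by
    have h1 := nn_cast (isCharacter_of_isIrrCharacter (trv (Cn P)).2) (isChar_rs (P := P) hΩ)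
    rw [hrs, inner_Om_gen hP hp2 d₀ θ.2 hθP hθ1 (trv (Cn P)) trv_ker hf, if_pos rfl, ← hrs] at h1
    exact_mod_cast h1
  have hA0 : ∀ θ₁ : IrrCharacter (Cn P), (∀ x : Cn P, (x : G) ∈ P → (θ₁ : Cn P → ℂ) x = (θ₁ : Cn P → ℂ) 1) →
      θ₁ ≠ trv (Cn P) → nn (θ₁ : Cn P → ℂ) (rs P Ω) = 0 := by
    intro θ₁ hθ₁ hne
    have h1 := nn_cast (isCharacter_of_isIrrCharacter θ₁.2) (isChar_rs (P := P) hΩ)
    rw [hrs, inner_Om_gen hP hp2 d₀ θ.2 hθP hθ1 θ₁ hθ₁ hf, if_neg hne, ← hrs] at h1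
    exact_mod_cast h1
  -- the constituents in the non-exceptional part have only the trivial `θ₁`
  have hcon : ∀ ξ : IrrCharacter G, m ξ ≠ 0 → ξ ∈ F₀.X → ∀ (κ : Cn P →* ℂˣ), (∀ x, κ x ^ p = 1) →
      ∀ θ₁ : IrrCharacter (Cn P), (∀ x : Cn P, (x : G) ∈ P → (θ₁ : Cn P → ℂ) x = (θ₁ : Cn P → ℂ) 1) →
      θ₁ ≠ trv (Cn P) → nn (tw κ (θ₁ : Cn P → ℂ)) (rs P (ξ : G → ℂ)) = 0 := by
    intro ξ hξ hX κ hκ θ₁ hθ₁ hne
    have h0 : nn (θ₁ : Cn P → ℂ) (rs P (ξ : G → ℂ)) = 0 := by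
      have h1 := nn_expand hΩ hm (isCharacter_of_isIrrCharacter θ₁.2) (P := P)
      rw [hA0 θ₁ hθ₁ hne] at h1
      have h2 := (Finset.sum_eq_zero_iff.mp h1.symm) ξ (Finset.mem_univ _)
      exact (Nat.mul_eq_zero.mp h2).resolve_left hξ
    by_cases hκ1 : κ = 1
    · rw [hκ1, tw_one_eq]
      exact h0
    · obtain ⟨F₁⟩ := exists_fam hM hP hp2 θ₁ hθ₁
      have hmem : ξ ∈ F₀.B := by
        rw [F₀.hB, Finset.mem_union]
        exact Or.inl hX
      have hnotB : ξ ∉ F₁.B := by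
        intro hin
        obtain ⟨y, hy⟩ := exists_conj_of_mem hM hP hp2 trv_ker hθ₁ F₀ F₁ hmem hin
        exact hne (Subtype.ext hy.symm)
      have hnot : ξ ∉ F₁.X ∧ ξ ∉ F₁.Y := by
        rw [F₁.hB, Finset.mem_union] at hnotB
        exact not_or.mp hnotB
      have h := mult_rel F₁ ⟨κ, hκ, hκ1⟩ ξ
      have hne' : F₁.ν ⟨κ, hκ, hκ1⟩ ≠ ξ := fun h1 => hnot.2 ((F₁.hY _).mpr ⟨_, h1⟩)
      rw [if_neg hnot.1, if_neg hne', h0] at h
      simp only [Nat.cast_zero, neg_zero, zero_add, add_zero] at h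
      exact_mod_cast h
  -- the main inequality, for a constituent
  have hkey : ∀ ξ : IrrCharacter G, m ξ ≠ 0 → ξ ≠ trv G → ∀ d : DD P p,
      nn (trv (Cn P) : Cn P → ℂ) (rs P (ξ : G → ℂ)) ≤
        2 * nn (tw d.1 (trv (Cn P) : Cn P → ℂ)) (rs P (ξ : G → ℂ)) +
          if F₀.ε = -1 ∧ F₀.ν d = ξ then 1 else 0 := by
    intro ξ hξ hne d
    by_cases hX : ξ ∈ F₀.X
    · have h1 := key_X hP hp2 F₀ hker ξ hne hX (hcon ξ hξ hX) d
      omega
    · have h := mult_rel F₀ d ξ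
      rw [if_neg hX] at h
      simp only [neg_zero, add_zero] at h
      by_cases h2 : F₀.ν d = ξ
      · rw [if_pos h2] at h
        rcases F₀.hε with h3 | h3
        · rw [h3] at h
          rw [if_neg (by rw [h3]; norm_num)]
          omega
        · rw [h3] at h
          rw [if_pos ⟨h3, h2⟩]
          omega
      · rw [if_neg h2] at h
        rw [if_neg (fun h3 => h2 h3.2)]
        omega
  -- the sum over the constituents
  have hatrv : nn (trv (Cn P) : Cn P → ℂ) (rs P (trv G : G → ℂ)) = 1 := by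
    have h1 := nn_cast (isCharacter_of_isIrrCharacter (trv (Cn P)).2)
      (isChar_rs (P := P) (isCharacter_of_isIrrCharacter (trv G).2))
    have h2 : rs P (trv G : G → ℂ) = (trv (Cn P) : Cn P → ℂ) := rfl
    rw [h2, classInner_irr (trv (Cn P)).2 (trv (Cn P)).2, if_pos rfl] at h1
    rw [h2]
    exact_mod_cast h1
  have hexpA := nn_expand hΩ hm (isCharacter_of_isIrrCharacter (trv (Cn P)).2) (P := P)
  rw [hA, ← Finset.add_sum_erase _ _ (Finset.mem_univ (trv G)), hm1, hatrv, one_mul] at hexpA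
  have hB : ∀ d : DD P p, f ≤ 2 * nn (tw d.1 (trv (Cn P) : Cn P → ℂ)) (rs P Ω) + 1 +
      (if F₀.ε = -1 then m (F₀.ν d) else 0) := by
    intro d
    have htw := isCharacter_of_isIrrCharacter (isIrr_tw d.1 (trv (Cn P)).2)
    have h1 := nn_expand hΩ hm htw (P := P)
    rw [h1, hexpA, add_comm 1, Finset.mul_sum]
    have h2 : ∑ x ∈ Finset.univ.erase (trv G), m x * nn (trv (Cn P) : Cn P → ℂ) (rs P (x : G → ℂ)) ≤
        ∑ x ∈ Finset.univ.erase (trv G), (2 * (m x * nn (tw d.1 (trv (Cn P) : Cn P → ℂ)) (rs P (x : G → ℂ))) +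
          m x * if F₀.ε = -1 ∧ F₀.ν d = x then 1 else 0) := by
      refine Finset.sum_le_sum fun x hx => ?_
      by_cases hx0 : m x = 0
      · simp [hx0]
      · have h3 := hkey x hx0 (Finset.ne_of_mem_erase hx) d
        calc m x * nn (trv (Cn P) : Cn P → ℂ) (rs P (x : G → ℂ))
            ≤ m x * (2 * nn (tw d.1 (trv (Cn P) : Cn P → ℂ)) (rs P (x : G → ℂ)) +
                if F₀.ε = -1 ∧ F₀.ν d = x then 1 else 0) := Nat.mul_le_mul_left _ h3
          _ = _ := by ring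
    rw [Finset.sum_add_distrib] at h2
    have h3 : ∑ x ∈ Finset.univ.erase (trv G), 2 * (m x * nn (tw d.1 (trv (Cn P) : Cn P → ℂ)) (rs P (x : G → ℂ))) ≤
        ∑ x, 2 * (m x * nn (tw d.1 (trv (Cn P) : Cn P → ℂ)) (rs P (x : G → ℂ))) :=
      Finset.sum_le_sum_of_subset (Finset.erase_subset _ _)
    have h4 : ∑ x ∈ Finset.univ.erase (trv G), (m x * if F₀.ε = -1 ∧ F₀.ν d = x then 1 else 0) ≤
        if F₀.ε = -1 then m (F₀.ν d) else 0 := by
      by_cases hε : F₀.ε = -1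
      · rw [if_pos hε]
        simp only [hε, true_and, mul_ite, mul_one, mul_zero]
        have h5 : ∑ x ∈ Finset.univ.erase (trv G), (if F₀.ν d = x then m x else 0) ≤
            ∑ x, (if F₀.ν d = x then m x else 0) :=
          Finset.sum_le_sum_of_subset (Finset.erase_subset _ _)
        simpa using h5
      · rw [if_neg hε]
        simp [hε]
    omega
  -- the sum over `d`
  have hsumM := sum_inner_Om_d hP hp2 d₀ θ.2 hθP hf
  have hMcast : ∀ d : DD P p, classInner (tw d.1 (trv (Cn P) : Cn P → ℂ))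
      (fun c => ob P d₀.1 (θ : Cn P → ℂ) c * conj (ob P d₀.1 (θ : Cn P → ℂ) c)) =
      (nn (tw d.1 (trv (Cn P) : Cn P → ℂ)) (rs P Ω) : ℂ) := by
    intro d
    have h1 := nn_cast (isCharacter_of_isIrrCharacter (isIrr_tw d.1 (trv (Cn P)).2)) (isChar_rs (P := P) hΩ)
    rw [hrs] at h1 ⊢
    exact h1.symm
  simp only [hMcast] at hsumM
  -- the size of the stabilizer
  set s : ℕ := (Finset.univ.filter (fun y : Nn P => cjt P y (θ : Cn P → ℂ) = cjt P 1 (θ : Cn P → ℂ))).card with hs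
  have hWW : WW P (θ : Cn P → ℂ) = (s : ℂ) := by
    rw [WW, hs, Finset.card_filter]
    simp only [dl, Nat.cast_sum, Nat.cast_ite, Nat.cast_one, Nat.cast_zero]
    refine Finset.sum_congr rfl fun y _ => ?_
    congr
  set SM := ∑ d : DD P p, nn (tw d.1 (trv (Cn P) : Cn P → ℂ)) (rs P Ω) with hSM
  have hSMeq : SM * Nat.card (Cn P) + f * Nat.card (Cn P) = f * s := by
    have h1 : ((SM : ℕ) : ℂ) = (f : ℂ) * ((Nat.card (Cn P) : ℂ)⁻¹ * (s : ℂ) - 1) := by
      rw [hSM, ← hWW, ← hsumM]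
      push_cast
      rfl
    have h2 : ((SM * Nat.card (Cn P) + f * Nat.card (Cn P) : ℕ) : ℂ) = ((f * s : ℕ) : ℂ) := by
      push_cast
      rw [h1]
      field_simp
      ring
    exact_mod_cast h2
  have hcard : Fintype.card (DD P p) = p - 1 := by
    rw [← Nat.card_eq_fintype_card, card_DD hP hp2]
  have hsumB : (2 * f) * f ≤ 2 * SM + 2 * f + (if F₀.ε = -1 then f * ∑ y ∈ F₀.Y, m y else 0) := by
    have h1 : ∑ _d : DD P p, f ≤ ∑ d : DD P p, (2 * nn (tw d.1 (trv (Cn P) : Cn P → ℂ)) (rs P Ω) + 1 +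
        (if F₀.ε = -1 then m (F₀.ν d) else 0)) := Finset.sum_le_sum fun d _ => hB d
    have hp1 : p - 1 = 2 * f := by omega
    simp only [Finset.sum_const, Finset.card_univ, hcard, smul_eq_mul, Finset.sum_add_distrib, ← Finset.mul_sum,
      hp1, mul_one] at h1
    by_cases hε : F₀.ε = -1
    · simp only [hε, if_true] at h1 ⊢
      rw [sum_nu_eq hP hp2 F₀ hf] at h1
      omega
    · simp only [hε, if_false] at h1 ⊢
      simp only [Finset.sum_const_zero] at h1
      omega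
  -- the stabilizer is everything
  have hsN : s = Nat.card (Nn P) := by
    have hsle : s ≤ Nat.card (Nn P) := by
      rw [hs, Nat.card_eq_fintype_card, ← Finset.card_univ]
      exact Finset.card_filter_le _ _
    apply le_antisymm hsle
    rcases F₀.hε with hε | hε
    · rw [if_neg (by rw [hε]; norm_num)] at hsumB
      rw [hf]
      have h3 : (2 * f) * f * Nat.card (Cn P) ≤ (2 * SM + 2 * f + 0) * Nat.card (Cn P) :=
        Nat.mul_le_mul_right _ hsumB
      have h4 : f * (f * Nat.card (Cn P)) ≤ f * s := by nlinarith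
      exact Nat.le_of_mul_le_mul_left h4 hf0
    · by_contra hlt
      push Not at hlt
      rw [if_pos hε] at hsumB
      -- the stabilizer has index at least two
      have hdvd : s ∣ Nat.card (Nn P) := by
        have h1 : Nat.card (stabN P (θ : Cn P → ℂ)) = s := by
          rw [hs, Nat.card_eq_fintype_card, Fintype.card_subtype]
          congr 1
          ext a
          simp only [Finset.mem_filter, Finset.mem_univ, true_and]
          rw [cjt_one, mem_stabN_iff]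
        rw [← h1]
        exact Subgroup.card_subgroup_dvd_card _
      have hs2 : 2 * s ≤ Nat.card (Nn P) := by
        obtain ⟨k, hk⟩ := hdvd
        have hspos : 0 < s := by
          rw [hs, Finset.card_pos]
          exact ⟨1, by simp⟩
        have hk2 : 2 ≤ k := by
          by_contra hk2
          have hk3 : k = 0 ∨ k = 1 := by omega
          rcases hk3 with h | h
          · rw [h, mul_zero] at hk
            exact Nat.card_pos.ne' hk
          · rw [h, mul_one] at hk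
            omega
        rw [hk]
        nlinarith
      -- the degrees of the exceptional characters
      have hdeg : ∀ y ∈ F₀.Y, f + 1 ≤ charDegree (y : G → ℂ) := by
        intro y hy
        obtain ⟨b, rfl⟩ := (F₀.hY y).mp hy
        have h1 := F₀.hdν b
        have he := e_trv hP hp2 F₀ hf
        rw [hε, he, relIndex_eq hf, Nat.div_self hf0, charDegree_trv] at h1
        have hpos := charDegree_pos (F₀.ν b).2
        have h2 : (p : ℤ) ≤ (charDegree (F₀.ν b : G → ℂ) : ℤ) + f := by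
          apply Int.le_of_dvd (by positivity)
          convert h1 using 1
          push_cast
          ring
        have h3 : ((p : ℕ) : ℤ) = 2 * (f : ℤ) + 1 := by
          rw [hpf]
          push_cast
          ring
        omega
      set T := ∑ y ∈ F₀.Y, m y with hT
      have hTlt : T < f := by
        have h1 : (f + 1) * T ≤ f ^ 2 := by
          have h2 : ((∑ i, m i * charDegree (i : G → ℂ) : ℕ) : ℂ) = ((f ^ 2 : ℕ) : ℂ) := by
            rw [← hΩ1, hm]
            push_cast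
            rw [Finset.sum_apply]
            refine Finset.sum_congr rfl fun j _ => ?_
            rw [Pi.smul_apply, charDegree_natCast (isCharacter_of_isIrrCharacter j.2)]
            simp
          have h3 : ∑ i, m i * charDegree (i : G → ℂ) = f ^ 2 := by exact_mod_cast h2
          rw [← h3, hT, Finset.mul_sum]
          calc ∑ y ∈ F₀.Y, (f + 1) * m y ≤ ∑ y ∈ F₀.Y, m y * charDegree (y : G → ℂ) := by
                refine Finset.sum_le_sum fun y hy => ?_
                rw [mul_comm]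
                exact Nat.mul_le_mul_left _ (hdeg y hy)
            _ ≤ _ := Finset.sum_le_sum_of_subset (Finset.subset_univ _)
        by_contra hge
        push Not at hge
        nlinarith
      have h3 : (2 * f) * f * Nat.card (Cn P) ≤ (2 * SM + 2 * f + f * T) * Nat.card (Cn P) :=
        Nat.mul_le_mul_right _ hsumB
      have h4 : f * (2 * f * Nat.card (Cn P)) ≤ f * (2 * s + T * Nat.card (Cn P)) := by nlinarith
      have h5 := Nat.le_of_mul_le_mul_left h4 hf0
      rw [hf] at hs2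
      have h6 : f * Nat.card (Cn P) ≤ T * Nat.card (Cn P) := by nlinarith
      have h7 := Nat.le_of_mul_le_mul_right h6 hCpos
      omega
  have hmem : y ∈ Finset.univ.filter (fun y : Nn P => cjt P y (θ : Cn P → ℂ) = cjt P 1 (θ : Cn P → ℂ)) := by
    have h1 : Finset.univ.filter (fun y : Nn P => cjt P y (θ : Cn P → ℂ) = cjt P 1 (θ : Cn P → ℂ)) = Finset.univ := by
      apply Finset.eq_univ_of_card
      rw [← hs, hsN, Nat.card_eq_fintype_card]
    rw [h1]
    exact Finset.mem_univ _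
  have h1 := (Finset.mem_filter.mp hmem).2
  rw [cjt_one] at h1
  exact h1

end Family

end Cfsg.Agent.Lib.CharDeep.Half
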