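import Cfsg.Agent.Lib.CharDeep.Half.Struct

/-!
# The case of degree `(p - 1) / 2`: the fourth moment and the bound on the group order
-/

set_option autoImplicit false
set_option linter.style.haveILetI false
set_option linter.unusedSectionVars false
set_option linter.unusedVariables false

namespace Cfsg.Agent.Lib.CharDeep.Half

open Cfsg
open Cfsg.Agent.Lib.Blocks.Local Cfsg.Agent.Lib.Blocks.Central Cfsg.Agent.Lib.Blocks.General
open Cfsg.Agent.Lib.Blocks.Induced
open Cfsg.Agent.Lib.Char.Induced Cfsg.Agent.Lib.Char.Ortho Cfsg.Agent.Lib.Char.Linear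
open Cfsg.Agent.Lib.Char.Basic Cfsg.Agent.Lib.Char.GenLattice Cfsg.Agent.Lib.Char.Complete
open Cfsg.Agent.Lib.Char.Degree
open Cfsg.Agent.Lib.ExcP.Gram Cfsg.Agent.Lib.ExcP.Inst Cfsg.Agent.Lib.ExcP.Dual
open Cfsg.Agent.Lib.ModRep.Prime Cfsg.Agent.Lib.ModRep.ThGram Cfsg.Agent.Lib.ModRep.ThIdem
open Cfsg.Agent.Lib.ModRep.ThDeg Cfsg.Agent.Lib.ModRep.Numerics2 Cfsg.Agent.Lib.ModRep.BlockTh
open Cfsg.Agent.Lib.CharDeep.BrauerDeg
open scoped ComplexConjugate

universe u

variable {G : Type u} [Group G] {p f : ℕ} [hp : Fact p.Prime] {P : Subgroup G}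

section Sing

variable [Fintype G] [Fintype (Cn P)] [Fintype (Nn P)] [Fintype (DD P p)] [Fintype (IrrCharacter G)]
  [Fintype (IrrCharacter (Cn P))] [Fintype (Subgroup.center G)] [Fintype P] (h : HD P p f)

include h

/-- The sum of all `Ws` at an element of the centralizer. -/
theorem HD.sum_Ws_C (c : Cn P) (hc : p ∣ orderOf (c : G)) :
    ∑ d : DD P p, Ws P (fun _ => (1 : ℂ)) d.1 c = - ((p : ℂ) * f) := by
  classical
  have hC := card_ne_zero_Cn (P := P)
  have hθ : IsIrrCharacter (Cn P) (fun _ => (1 : ℂ)) := by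
    simpa using isIrrCharacter_of_hom (1 : Cn P →* ℂˣ)
  simp only [h.Ws_val hθ (fun _ _ => rfl), one_mul]
  rw [Finset.sum_sub_distrib]
  obtain ⟨a, z, ha, ha1, rfl⟩ := h.dec_sing c hc
  have h1 : ∑ d : DD P p, eta P d.1 (a * zC P z) = - (f : ℂ) := by
    have h2 : ∀ y : Nn P, ∑ d : DD P p, ((d.1 (cjH P y (a * zC P z)) : ℂˣ) : ℂ) = -1 := by
      intro y
      have h3 : ∀ d : DD P p, d.1 (cjH P y (a * zC P z)) = d.1 (cjH P y a) := by
        intro d
        rw [map_mul, HD.cjH_zC h, map_mul, h.apply_zC d.2.1, mul_one]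
      simp only [h3]
      exact sum_DD_apply h.hP h.hp2 (cjH_mem y ha) (cjH_ne_one y ha1)
    simp only [eta, ← Finset.mul_sum]
    rw [Finset.sum_comm]
    simp only [h2, Finset.sum_const, Finset.card_univ, ← Nat.card_eq_fintype_card, h.hf, nsmul_eq_mul]
    push_cast
    field_simp
  rw [h1]
  simp only [Finset.sum_const, Finset.card_univ, ← Nat.card_eq_fintype_card, card_DD h.hP h.hp2, nsmul_eq_mul]
  have h2 : p - 1 = 2 * f := by
    have := h.hpf
    omega
  rw [h2, h.hpf]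
  push_cast
  ring

/-- The sum of the values of all `d`. -/
theorem HD.sum_DD_sub (a : P) (z : Subgroup.center G) :
    open scoped Classical in
    ∑ d : DD P p, (((d.1 (pC h.hP a * zC P z) : ℂˣ) : ℂ) - 1) = if a = 1 then 0 else - (p : ℂ) := by
  classical
  have h3 : ∀ d : DD P p, d.1 (pC h.hP a * zC P z) = d.1 (pC h.hP a) := by
    intro d
    rw [map_mul, h.apply_zC d.2.1, mul_one]
  simp only [h3]
  rw [Finset.sum_sub_distrib]
  simp only [Finset.sum_const, Finset.card_univ, ← Nat.card_eq_fintype_card, card_DD h.hP h.hp2, nsmul_eq_mul, mul_one]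
  have h2 : ((p - 1 : ℕ) : ℂ) = 2 * f := by
    have h4 : p - 1 = 2 * f := by
      have := h.hpf
      omega
    rw [h4]
    push_cast
    rfl
  split_ifs with ha
  · subst ha
    have h4 : pC h.hP 1 = 1 := rfl
    simp only [h4, map_one, Units.val_one, Finset.sum_const, Finset.card_univ, ← Nat.card_eq_fintype_card,
      card_DD h.hP h.hp2, nsmul_eq_mul, mul_one, sub_self]
  · have h4 : pC h.hP a ≠ 1 := by
      intro h5
      apply ha
      apply Subtype.ext
      exact congrArg (Subtype.val : Cn P → G) h5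
    rw [sum_DD_apply h.hP h.hp2 a.2 h4, h2]
    have h5 : (p : ℂ) = 2 * f + 1 := by
      rw [h.hpf]
      push_cast
      rfl
    rw [h5]
    ring

/-- **The sum over the `p`-singular elements**. -/
theorem HD.sum_sing {W : G → ℂ} (hW : IsClassFunction G W) (hWz : ∀ (g : G) (z : Subgroup.center G), W (g * z) = W g) :
    open scoped Classical in
    ∑ g ∈ Finset.univ.filter (fun g : G => p ∣ orderOf g), W g =
      (Nat.card G : ℂ) * ((p : ℂ)⁻¹ * (f : ℂ)⁻¹) * ∑ a ∈ (Finset.univ : Finset P).erase 1, W a := by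
  classical
  have hG0 : (Nat.card G : ℂ) ≠ 0 := Nat.cast_ne_zero.mpr Nat.card_pos.ne'
  have hC0 := card_ne_zero_Cn (P := P)
  have hZ0 : (Nat.card (Subgroup.center G) : ℂ) ≠ 0 := Nat.cast_ne_zero.mpr Nat.card_pos.ne'
  have hp0 : (p : ℂ) ≠ 0 := Nat.cast_ne_zero.mpr hp.out.ne_zero
  have hf0 : (f : ℂ) ≠ 0 := by
    have := h.hf2
    exact Nat.cast_ne_zero.mpr (by omega)
  have hCard : (Nat.card (Cn P) : ℂ) = p * Nat.card (Subgroup.center G) := by
    rw [h.card_Cn]
    push_cast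
    rfl
  have hWc : IsClassFunction G (fun g => conj (W g)) := by
    intro g x
    simp only [hW g x]
  let T₀ : G → ℂ := fun g => ∑ d : DD P p, Ws P (fun _ => (1 : ℂ)) d.1 g
  have hWs : ∀ d : DD P p, IsClassFunction G (Ws P (fun _ => (1 : ℂ)) d.1) := fun d => isClassFunction_indFun _ _
  have hT₀ : ∀ g, T₀ g = if p ∣ orderOf g then - ((p : ℂ) * f) else 0 := by
    intro g
    split_ifs with hg
    · obtain ⟨l, c, rfl, hc⟩ := h.conj_into_C hg
      simp only [T₀, hWs _ _ l]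
      exact h.sum_Ws_C c hc
    · simp only [T₀]
      exact Finset.sum_eq_zero fun d _ => Ws_regular _ d.2.1 hg
  -- two expressions for the inner product
  have h1 : ∑ g : G, T₀ g * W g = - ((p : ℂ) * f) * ∑ g ∈ Finset.univ.filter (fun g : G => p ∣ orderOf g), W g := by
    simp only [hT₀]
    rw [Finset.mul_sum, Finset.sum_filter]
    refine Finset.sum_congr rfl fun g _ => ?_
    split_ifs <;> simp
  have h2 : ∀ d : DD P p, (Nat.card G : ℂ)⁻¹ * ∑ g : G, Ws P (fun _ => (1 : ℂ)) d.1 g * W g =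
      (Nat.card (Cn P) : ℂ)⁻¹ * ∑ c : Cn P, (((d.1 c : ℂˣ) : ℂ) - 1) * W c := by
    intro d
    have h3 := classInner_Ws_eq (fun _ => (1 : ℂ)) d.1 hWc
    rw [classInner_subgroup_eq, classInner_subgroup_eq, classInner_def, ← mul_sub, ← Finset.sum_sub_distrib] at h3
    simp only [Complex.conj_conj, tw, rs, mul_one, one_mul] at h3
    rw [h3]
    congr 1
    refine Finset.sum_congr rfl fun c _ => ?_
    ring
  have h3 : (Nat.card G : ℂ)⁻¹ * ∑ g : G, T₀ g * W g = - ∑ a ∈ (Finset.univ : Finset P).erase 1, W a := by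
    simp only [T₀, Finset.sum_mul]
    rw [Finset.sum_comm, Finset.mul_sum]
    simp only [h2, ← Finset.mul_sum]
    rw [Finset.sum_comm]
    simp only [← Finset.sum_mul]
    rw [h.sum_Cn]
    simp only [h.sum_DD_sub]
    have h4 : ∀ (a : P) (z : Subgroup.center G), W ((pC h.hP a * zC P z : Cn P) : G) = W a := by
      intro a z
      exact hWz (a : G) z
    simp only [h4, Finset.sum_const, Finset.card_univ, ← Nat.card_eq_fintype_card, nsmul_eq_mul]
    have h5 : ∑ x : P, (Nat.card (Subgroup.center G) : ℂ) * ((if x = 1 then 0 else - (p : ℂ)) * W x) =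
        ∑ a ∈ (Finset.univ : Finset P).erase 1, (Nat.card (Subgroup.center G) : ℂ) * (- (p : ℂ) * W a) := by
      rw [← Finset.sum_erase (s := (Finset.univ : Finset P)) (a := 1)
        (f := fun x => (Nat.card (Subgroup.center G) : ℂ) * ((if x = 1 then 0 else - (p : ℂ)) * W x)) (by simp)]
      refine Finset.sum_congr rfl fun a ha => ?_
      rw [if_neg (Finset.ne_of_mem_erase ha)]
    rw [h5, hCard, Finset.mul_sum, ← Finset.sum_neg_distrib]
    refine Finset.sum_congr rfl fun a _ => ?_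
    field_simp
  rw [h1] at h3
  have h5 : ∑ a ∈ (Finset.univ : Finset P).erase 1, W a = (Nat.card G : ℂ)⁻¹ * ((p : ℂ) * f) *
      ∑ g ∈ Finset.univ.filter (fun g : G => p ∣ orderOf g), W g := by
    linear_combination h3
  rw [h5]
  field_simp

open scoped Classical in
/-- **The moment inequality**. -/
theorem HD.moment (ψ : IrrCharacter G) (hfaith : ∀ g, (ψ : G → ℂ) g = (ψ : G → ℂ) 1 → g = 1)
    (hdeg : charDegree (ψ : G → ℂ) = f) {θ : Cn P → ℂ} (hθ : IsIrrCharacter (Cn P) θ) (hO : Over P θ (ψ : G → ℂ))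
    (hbound : ∀ g, ¬ p ∣ orderOf g → ‖(ψ : G → ℂ) g‖ < f → ‖(ψ : G → ℂ) g‖ ^ 2 ≤ 1) {n : ℝ}
    (hn : classInner (fun g => (ψ : G → ℂ) g * conj ((ψ : G → ℂ) g))
      (fun g => (ψ : G → ℂ) g * conj ((ψ : G → ℂ) g)) = (n : ℂ)) :
    (n - 1) * Nat.card G ≤ Nat.card (Subgroup.center G) * ((f : ℝ) ^ 4 - (f : ℝ) ^ 2) +
      Nat.card G * ((p : ℝ)⁻¹ * (f : ℝ)⁻¹) *
        ∑ a ∈ (Finset.univ : Finset P).erase 1, ((‖(ψ : G → ℂ) a‖ ^ 2) ^ 2 - ‖(ψ : G → ℂ) a‖ ^ 2) := by
  classical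
  have hG0 : (Nat.card G : ℂ) ≠ 0 := Nat.cast_ne_zero.mpr Nat.card_pos.ne'
  have hGR : (0 : ℝ) < Nat.card G := by exact_mod_cast Nat.card_pos
  have hfR : (2 : ℝ) ≤ f := by exact_mod_cast h.hf2
  have hψc := isCharacter_of_isIrrCharacter ψ.2
  let t : G → ℝ := fun g => ‖(ψ : G → ℂ) g‖ ^ 2
  have ht0 : ∀ g, 0 ≤ t g := fun g => by positivity
  have hΩ : ∀ g, (ψ : G → ℂ) g * conj ((ψ : G → ℂ) g) = (t g : ℂ) := by
    intro g
    rw [Complex.mul_conj, Complex.normSq_eq_norm_sq]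
  let F : G → ℝ := fun g => (t g) ^ 2 - t g
  have ha : ∑ g, (t g) ^ 2 = n * Nat.card G := by
    have h1 := hn
    rw [classInner_def] at h1
    simp only [hΩ, Complex.conj_ofReal] at h1
    have h2 : ((∑ g, (t g) ^ 2 : ℝ) : ℂ) = ((n * Nat.card G : ℝ) : ℂ) := by
      push_cast
      rw [← h1]
      field_simp
    exact_mod_cast h2
  have hb : ∑ g, t g = (Nat.card G : ℝ) := by
    have h1 := classInner_self_of_isIrr ψ.2
    rw [classInner_def] at h1
    simp only [hΩ] at h1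
    have h2 : ((∑ g, t g : ℝ) : ℂ) = ((Nat.card G : ℝ) : ℂ) := by
      push_cast
      field_simp at h1
      exact h1
    exact_mod_cast h2
  have hsum : ∑ g, F g = (n - 1) * Nat.card G := by
    simp only [F]
    rw [Finset.sum_sub_distrib, ha, hb]
    ring
  -- the sum over the `p`-singular elements
  have hWz : ∀ (g : G) (z : Subgroup.center G), t (g * z) = t g := by
    intro g z
    simp only [t]
    rw [hO g z, norm_mul, norm_eq_one_of_mul_conj (h.theta_conj hθ (zC P z)), one_mul]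
  have hcl : IsClassFunction G (fun g => ((F g : ℝ) : ℂ)) := by
    intro g x
    simp only [F, t]
    rw [isClassFunction_of_isIrrCharacter ψ.2 g x]
  have hS := h.sum_sing hcl (fun g z => by simp only [F, hWz])
  have hS' : ∑ g ∈ Finset.univ.filter (fun g : G => p ∣ orderOf g), F g =
      Nat.card G * ((p : ℝ)⁻¹ * (f : ℝ)⁻¹) * ∑ a ∈ (Finset.univ : Finset P).erase 1, F a := by
    apply Complex.ofReal_injective
    push_cast
    push_cast at hS
    exact hS
  -- the other elements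
  have hc0 : 0 ≤ (f : ℝ) ^ 4 - (f : ℝ) ^ 2 := by
    have h1 : (1 : ℝ) ≤ (f : ℝ) ^ 2 := by nlinarith
    have h2 : (f : ℝ) ^ 4 - (f : ℝ) ^ 2 = (f : ℝ) ^ 2 * ((f : ℝ) ^ 2 - 1) := by ring
    rw [h2]
    exact mul_nonneg (by positivity) (by linarith)
  have hone : (ψ : G → ℂ) 1 = f := by
    rw [← charDegree_natCast hψc, hdeg]
  have hF : ∀ g, ¬ p ∣ orderOf g → F g ≤ if g ∈ Subgroup.center G then (f : ℝ) ^ 4 - (f : ℝ) ^ 2 else 0 := by
    intro g hg
    split_ifs with hz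
    · have h1 : t g = (f : ℝ) ^ 2 := by
        have h2 := hWz 1 ⟨g, hz⟩
        simp only [one_mul] at h2
        rw [h2]
        simp only [t, hone]
        simp
      simp only [F, h1]
      apply le_of_eq
      ring
    · have h1 : ‖(ψ : G → ℂ) g‖ < f := by
        have h2 := norm_le_charDegree hψc g
        rw [hdeg] at h2
        apply lt_of_le_of_ne h2
        intro h3
        apply hz
        rw [Subgroup.mem_center_iff]
        intro w
        apply central_of_norm hψc hfaith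
        rw [hdeg]
        exact h3
      have h2 := hbound g hg h1
      have h3 : t g ≤ 1 := h2
      simp only [F]
      nlinarith [ht0 g]
  have hR : ∑ g ∈ Finset.univ.filter (fun g : G => ¬ p ∣ orderOf g), F g ≤
      Nat.card (Subgroup.center G) * ((f : ℝ) ^ 4 - (f : ℝ) ^ 2) := by
    calc ∑ g ∈ Finset.univ.filter (fun g : G => ¬ p ∣ orderOf g), F g
        ≤ ∑ g ∈ Finset.univ.filter (fun g : G => ¬ p ∣ orderOf g),
            (if g ∈ Subgroup.center G then (f : ℝ) ^ 4 - (f : ℝ) ^ 2 else 0) :=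
          Finset.sum_le_sum fun g hg => hF g (Finset.mem_filter.mp hg).2
      _ ≤ ∑ g : G, (if g ∈ Subgroup.center G then (f : ℝ) ^ 4 - (f : ℝ) ^ 2 else 0) := by
          apply Finset.sum_le_sum_of_subset_of_nonneg (Finset.subset_univ _)
          intro g _ _
          split_ifs
          · exact hc0
          · exact le_refl _
      _ = _ := by
          rw [Finset.sum_ite, Finset.sum_const_zero, add_zero, Finset.sum_const, nsmul_eq_mul]
          congr 2
          rw [Nat.card_eq_fintype_card, Fintype.card_subtype]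
  have hsplit := Finset.sum_filter_add_sum_filter_not (Finset.univ : Finset G) (fun g : G => p ∣ orderOf g) F
  rw [hsum, hS'] at hsplit
  simp only [F, t] at hsplit hR
  linarith

/-- The values of a nontrivial linear character on `P`. -/
theorem HD.sum_d_P (d : DD P p) : ∑ a : P, ((d.1 (pC h.hP a) : ℂˣ) : ℂ) = 0 := by
  classical
  let φ : P →* ℂ := (Units.coeHom ℂ).comp
    (MonoidHom.mk' (fun a : P => d.1 (pC h.hP a)) (fun a b => by
      rw [← map_mul]
      rfl))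
  have hφ : φ ≠ 1 := by
    intro h1
    apply d.2.2
    ext c
    obtain ⟨x, z, hc⟩ := h.exists_dec c
    have h2 : c = pC h.hP x * zC P z := Subtype.ext hc
    rw [h2, map_mul, h.apply_zC d.2.1, mul_one]
    have h3 : φ x = 1 := by rw [h1]; rfl
    simpa [φ] using h3
  have h4 : ∑ a : P, φ a = 0 := sum_hom_units_eq_zero φ hφ
  simpa [φ] using h4

/-- The sum of a period over the nontrivial elements of `P`. -/
theorem HD.sum_eta (d : DD P p) :
    open scoped Classical in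
    ∑ a ∈ (Finset.univ : Finset P).erase 1, eta P d.1 (pC h.hP a) = - (f : ℂ) := by
  classical
  have hf0 : (f : ℂ) ≠ 0 := by
    have := h.hf2
    exact Nat.cast_ne_zero.mpr (by omega)
  have h1 : ∑ a : P, eta P d.1 (pC h.hP a) = 0 := by
    simp only [← sum_orbF_apply h.hP h.hp2 d]
    rw [Finset.sum_comm]
    exact Finset.sum_eq_zero fun d' _ => h.sum_d_P d'
  rw [← Finset.add_sum_erase _ _ (Finset.mem_univ (1 : P))] at h1
  have h2 : eta P d.1 (pC h.hP (1 : P)) = f := by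
    have h3 : pC h.hP (1 : P) = 1 := rfl
    rw [h3]
    exact eta_one d.1 h.hf
  rw [h2] at h1
  linear_combination h1

open scoped Classical in
/-- Case `B`: the bound for the order of the group. -/
theorem HD.order_B (ψ : IrrCharacter G) (hfaith : ∀ g, (ψ : G → ℂ) g = (ψ : G → ℂ) 1 → g = 1)
    (hdeg : charDegree (ψ : G → ℂ) = f) {θ : Cn P → ℂ} (hθ : IsIrrCharacter (Cn P) θ) (hO : Over P θ (ψ : G → ℂ))
    (hbound : ∀ g, ¬ p ∣ orderOf g → ‖(ψ : G → ℂ) g‖ < f → ‖(ψ : G → ℂ) g‖ ^ 2 ≤ 1)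
    {d₁ d₂ : DD P p} (hd : d₂ ∉ orbF d₁) (hB : dinv d₁ ∉ orbF d₁)
    (hv : ∀ x : Cn P, (x : G) ∈ P → x ≠ 1 → (ψ : G → ℂ) x = eta P d₁.1 x) {n : ℕ} (hn2 : 2 * n = f + 1)
    (hn : classInner (fun g => (ψ : G → ℂ) g * conj ((ψ : G → ℂ) g))
      (fun g => (ψ : G → ℂ) g * conj ((ψ : G → ℂ) g)) = (n : ℂ)) :
    (Nat.card G : ℝ) ≤ 2 * p * Nat.card (Subgroup.center G) * f * (f + 1) := by
  have hfR : (2 : ℝ) ≤ f := by exact_mod_cast h.hf2
  have hpR : (p : ℝ) = 2 * f + 1 := by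
    have := h.hpf
    rw [this]
    push_cast
    rfl
  have hnR : (n : ℝ) = ((f : ℝ) + 1) / 2 := by
    have h1 : (2 : ℝ) * n = f + 1 := by exact_mod_cast hn2
    linarith
  have hm := h.moment ψ hfaith hdeg hθ hO hbound (n := (n : ℝ)) (by simpa using hn)
  have ht : ∀ a ∈ (Finset.univ : Finset P).erase 1, ‖(ψ : G → ℂ) a‖ ^ 2 = ((f : ℝ) + 1) / 2 := by
    intro a ha
    have ha1 : pC h.hP a ≠ 1 := by
      intro h5
      apply Finset.ne_of_mem_erase ha
      apply Subtype.ext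
      exact congrArg (Subtype.val : Cn P → G) h5
    obtain ⟨h1, h2, h3, h4⟩ := h.rel_B hd hB (x := pC h.hP a) a.2 ha1
    have h5 := hv (pC h.hP a) a.2 ha1
    rw [coe_pC] at h5
    have h6 : ((‖(ψ : G → ℂ) a‖ ^ 2 : ℝ) : ℂ) = eta P d₁.1 (pC h.hP a) * eta P d₂.1 (pC h.hP a) := by
      rw [← Complex.normSq_eq_norm_sq, ← Complex.mul_conj, h5, h1]
    apply Complex.ofReal_injective
    rw [h6]
    push_cast
    linear_combination (1 / 2 : ℂ) * h4
  have hcard : ((Finset.univ : Finset P).erase 1).card = 2 * f := by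
    rw [Finset.card_erase_of_mem (Finset.mem_univ _), Finset.card_univ, ← Nat.card_eq_fintype_card, h.hP, h.hpf]
    omega
  have hS : ∑ a ∈ (Finset.univ : Finset P).erase 1, ((‖(ψ : G → ℂ) a‖ ^ 2) ^ 2 - ‖(ψ : G → ℂ) a‖ ^ 2) =
      (f : ℝ) * ((f : ℝ) ^ 2 - 1) / 2 := by
    rw [Finset.sum_congr rfl (fun a ha => by rw [ht a ha]), Finset.sum_const, hcard, nsmul_eq_mul]
    push_cast
    ring
  rw [hS, hnR] at hm
  set A : ℝ := (Nat.card G : ℝ)
  set Z : ℝ := (Nat.card (Subgroup.center G) : ℝ)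
  set F : ℝ := (f : ℝ)
  have hF0 : 0 < F := by linarith
  have hp0 : 0 < (p : ℝ) := by rw [hpR]; linarith
  have h1 : A * ((p : ℝ)⁻¹ * F⁻¹) * (F * (F ^ 2 - 1) / 2) = A * ((F + 1) * (F - 1)) / (2 * p) := by
    field_simp
    ring
  rw [h1] at hm
  have h2 : (F + 1) / 2 - 1 = (F - 1) / 2 := by ring
  rw [h2] at hm
  have h3 : (F - 1) * (F * A) ≤ (F - 1) * (2 * p * Z * F * (F + 1) * F) := by
    have h4 := mul_le_mul_of_nonneg_left hm (by positivity : (0 : ℝ) ≤ 2 * p)
    have h5 : 2 * (p : ℝ) * (Z * (F ^ 4 - F ^ 2) + A * ((F + 1) * (F - 1)) / (2 * p)) =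
        2 * p * Z * (F ^ 4 - F ^ 2) + A * ((F + 1) * (F - 1)) := by
      field_simp
    rw [h5] at h4
    rw [hpR] at h4 ⊢
    nlinarith
  have h4 : F * A ≤ 2 * p * Z * F * (F + 1) * F := le_of_mul_le_mul_left h3 (by linarith)
  have h5 : A * F ≤ 2 * p * Z * F * (F + 1) * F := by linarith
  exact le_of_mul_le_mul_right h5 hF0

open scoped Classical in
/-- Case `A`: the bound for the order of the group. -/
theorem HD.order_A (ψ : IrrCharacter G) (hfaith : ∀ g, (ψ : G → ℂ) g = (ψ : G → ℂ) 1 → g = 1)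
    (hdeg : charDegree (ψ : G → ℂ) = f) {θ : Cn P → ℂ} (hθ : IsIrrCharacter (Cn P) θ) (hO : Over P θ (ψ : G → ℂ))
    (hbound : ∀ g, ¬ p ∣ orderOf g → ‖(ψ : G → ℂ) g‖ < f → ‖(ψ : G → ℂ) g‖ ^ 2 ≤ 1)
    {d₁ d₂ : DD P p} (hd : d₂ ∉ orbF d₁) (hA : dinv d₁ ∈ orbF d₁)
    (hv : ∀ x : Cn P, (x : G) ∈ P → x ≠ 1 → (ψ : G → ℂ) x = eta P d₁.1 x) {n : ℕ} (hn2 : 2 * n = f)
    (hn : classInner (fun g => (ψ : G → ℂ) g * conj ((ψ : G → ℂ) g))
      (fun g => (ψ : G → ℂ) g * conj ((ψ : G → ℂ) g)) = ((n + 1 : ℕ) : ℂ)) :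
    (Nat.card G : ℝ) ≤ 2 * p * Nat.card (Subgroup.center G) * f * (f + 1) := by
  have hfR : (2 : ℝ) ≤ f := by exact_mod_cast h.hf2
  have hf0 : (f : ℂ) ≠ 0 := by
    have := h.hf2
    exact Nat.cast_ne_zero.mpr (by omega)
  have hpR : (p : ℝ) = 2 * f + 1 := by
    have := h.hpf
    rw [this]
    push_cast
    rfl
  have hnR : ((n + 1 : ℕ) : ℝ) = (f : ℝ) / 2 + 1 := by
    have h1 : (2 : ℝ) * n = f := by exact_mod_cast hn2
    push_cast
    linarith
  have hm := h.moment ψ hfaith hdeg hθ hO hbound (n := ((n + 1 : ℕ) : ℝ)) (by simpa using hn)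
  have ht : ∀ a ∈ (Finset.univ : Finset P).erase 1, (‖(ψ : G → ℂ) a‖ ^ 2) ^ 2 - ‖(ψ : G → ℂ) a‖ ^ 2 =
      (f : ℝ) ^ 2 / 4 - f * (eta P d₁.1 (pC h.hP a)).re := by
    intro a ha
    have ha1 : pC h.hP a ≠ 1 := by
      intro h5
      apply Finset.ne_of_mem_erase ha
      apply Subtype.ext
      exact congrArg (Subtype.val : Cn P → G) h5
    obtain ⟨h1, h2, h3, h4⟩ := h.rel_A hd hA (x := pC h.hP a) a.2 ha1
    have h5 := hv (pC h.hP a) a.2 ha1
    rw [coe_pC] at h5
    have h6 : ((‖(ψ : G → ℂ) a‖ ^ 2 : ℝ) : ℂ) = eta P d₁.1 (pC h.hP a) * eta P d₁.1 (pC h.hP a) := by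
      rw [← Complex.normSq_eq_norm_sq, ← Complex.mul_conj, h5, h1]
    have h7 : ((eta P d₁.1 (pC h.hP a)).re : ℂ) = eta P d₁.1 (pC h.hP a) :=
      Complex.conj_eq_iff_real.mp h1 |>.choose_spec ▸ by simp
    set x := eta P d₁.1 (pC h.hP a)
    set y := eta P d₂.1 (pC h.hP a)
    have h8 : y = -1 - x := by linear_combination h3
    apply Complex.ofReal_injective
    push_cast
    push_cast at h6
    rw [h6, h7]
    rw [h8] at h4
    linear_combination (x / 2 - x * x / 2 - (f : ℂ) / 4) * h4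
  have hcard : ((Finset.univ : Finset P).erase 1).card = 2 * f := by
    rw [Finset.card_erase_of_mem (Finset.mem_univ _), Finset.card_univ, ← Nat.card_eq_fintype_card, h.hP, h.hpf]
    omega
  have hsum : ∑ a ∈ (Finset.univ : Finset P).erase 1, (eta P d₁.1 (pC h.hP a)).re = - (f : ℝ) := by
    have h1 := congrArg Complex.re (h.sum_eta d₁)
    simpa using h1
  have hS : ∑ a ∈ (Finset.univ : Finset P).erase 1, ((‖(ψ : G → ℂ) a‖ ^ 2) ^ 2 - ‖(ψ : G → ℂ) a‖ ^ 2) =
      (f : ℝ) ^ 3 / 2 + (f : ℝ) ^ 2 := by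
    rw [Finset.sum_congr rfl ht, Finset.sum_sub_distrib, ← Finset.mul_sum, hsum, Finset.sum_const, hcard, nsmul_eq_mul]
    push_cast
    ring
  rw [hS, hnR] at hm
  set A : ℝ := (Nat.card G : ℝ)
  set Z : ℝ := (Nat.card (Subgroup.center G) : ℝ)
  set F : ℝ := (f : ℝ)
  have hF0 : 0 < F := by linarith
  have hp0 : 0 < (p : ℝ) := by rw [hpR]; linarith
  have h1 : A * ((p : ℝ)⁻¹ * F⁻¹) * (F ^ 3 / 2 + F ^ 2) = A * (F * (F + 2)) / (2 * p) := by
    field_simp
  rw [h1] at hm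
  have h2 : F / 2 + 1 - 1 = F / 2 := by ring
  rw [h2] at hm
  have h3 : (F - 1) * (F * A) ≤ (F - 1) * (2 * p * Z * F * (F + 1) * F) := by
    have h4 := mul_le_mul_of_nonneg_left hm (by positivity : (0 : ℝ) ≤ 2 * p)
    have h5 : 2 * (p : ℝ) * (Z * (F ^ 4 - F ^ 2) + A * (F * (F + 2)) / (2 * p)) =
        2 * p * Z * (F ^ 4 - F ^ 2) + A * (F * (F + 2)) := by
      field_simp
    rw [h5] at h4
    rw [hpR] at h4 ⊢
    nlinarith
  have h4 : F * A ≤ 2 * p * Z * F * (F + 1) * F := le_of_mul_le_mul_left h3 (by linarith)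
  have h5 : A * F ≤ 2 * p * Z * F * (F + 1) * F := by linarith
  exact le_of_mul_le_mul_right h5 hF0

end Sing

end Cfsg.Agent.Lib.CharDeep.Half
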