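import Cfsg.Agent.Lib.CharDeep.Half.Moment

/-!
# The case of degree `(p - 1) / 2`: the local analysis of a group generated by elements of order `p`
-/

set_option autoImplicit false
set_option linter.style.haveILetI false
set_option linter.unusedSectionVars false
set_option linter.unusedVariables false

namespace Cfsg.Agent.Lib.CharDeep.Half

open Cfsg
open Cfsg.Agent.Lib.Blocks.Local Cfsg.Agent.Lib.Blocks.Central Cfsg.Agent.Lib.Blocks.General
open Cfsg.Agent.Lib.Blocks.Induced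
open Cfsg.Agent.Lib.Char.Induced Cfsg.Agent.Lib.Char.Ortho Cfsg.Agent.Lib.Char.Linear
open Cfsg.Agent.Lib.Char.Basic Cfsg.Agent.Lib.Char.GenLattice Cfsg.Agent.Lib.Char.Complete
open Cfsg.Agent.Lib.Char.Degree
open Cfsg.Agent.Lib.ExcP.Gram Cfsg.Agent.Lib.ExcP.Inst Cfsg.Agent.Lib.ExcP.Dual
open Cfsg.Agent.Lib.ModRep.Prime Cfsg.Agent.Lib.ModRep.ThGram Cfsg.Agent.Lib.ModRep.ThIdem
open Cfsg.Agent.Lib.ModRep.ThDeg Cfsg.Agent.Lib.ModRep.Numerics2 Cfsg.Agent.Lib.ModRep.BlockTh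
open Cfsg.Agent.Lib.CharDeep.BrauerDeg
open scoped ComplexConjugate

universe u

variable {G : Type u} [Group G] {p f : ℕ} [hp : Fact p.Prime] {P : Subgroup G}

section Bound

variable [Fintype G] [Fintype (Cn P)] [Fintype (Nn P)] [Fintype (DD P p)] [Fintype (IrrCharacter G)]
  [Fintype (IrrCharacter (Cn P))] [Fintype (Subgroup.center G)] [Fintype P] {M : Ideal AlgInt} (h : HD P p f)

include h

/-- The bound in the case of complex periods. -/
theorem HD.final_B {θ : IrrCharacter (Cn P)} (hθP : ∀ x : Cn P, (x : G) ∈ P → (θ : Cn P → ℂ) x = (θ : Cn P → ℂ) 1)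
    (F : Fam M P p θ) (F₀ : Fam M P p (trv (Cn P))) {d₁ d₂ : DD P p} (hd : d₂ ∉ orbF d₁) (hB : dinv d₁ ∉ orbF d₁)
    (hε : F.ε = 1) (hdeg : charDegree (F.ν d₁ : G → ℂ) = f)
    (hfaith : ∀ g, (F.ν d₁ : G → ℂ) g = (F.ν d₁ : G → ℂ) 1 → g = 1) :
    (Nat.card G : ℝ) ≤ 2 * p * Nat.card (Subgroup.center G) * f * (f + 1) := by
  classical
  have hO₁ := h.over_of_nu hθP F d₁
  have hO₂ := h.over_of_nu hθP F d₂
  have hdeg₂ : charDegree (F.ν d₂ : G → ℂ) = f := by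
    rw [← hdeg]
    exact h.nu_deg hθP F d₂ d₁
  have hne : F.ν d₁ ≠ F.ν d₂ := fun he => hd ((h.nu_eq_iff hθP F d₂ d₁).mp he.symm)
  have hv₁ : ∀ x : Cn P, (x : G) ∈ P → x ≠ 1 → (F.ν d₁ : G → ℂ) x = eta P d₁.1 x := by
    intro x hx hx1
    rw [h.val_nu hθP F d₁ hx hx1, hε]
    simp
  have hv₂ : ∀ x : Cn P, (x : G) ∈ P → x ≠ 1 → (F.ν d₂ : G → ℂ) x = eta P d₂.1 x := by
    intro x hx hx1
    rw [h.val_nu hθP F d₂ hx hx1, hε]
    simp
  have hreg : ∀ g, ¬ p ∣ orderOf g → (F.ν d₁ : G → ℂ) g = (F.ν d₂ : G → ℂ) g := fun g hg => h.nu_reg hθP F d₁ d₂ hg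
  obtain ⟨hε₀, hD₀, htrv, hXp, hXm, hΩ₁, -, hn2, hn⟩ :=
    h.caseB F₀ hd hB hdeg hdeg₂ hne θ.2 hO₁ hO₂ hv₁ hv₂ hreg
  -- the principal family
  have hO₁' := h.over_of_nu trv_ker F₀ d₁
  have hO₂' := h.over_of_nu trv_ker F₀ d₂
  have hdeg₂' : charDegree (F₀.ν d₂ : G → ℂ) = f := by
    rw [← hD₀]
    exact h.nu_deg trv_ker F₀ d₂ d₁
  have hne' : F₀.ν d₁ ≠ F₀.ν d₂ := fun he => hd ((h.nu_eq_iff trv_ker F₀ d₂ d₁).mp he.symm)
  have hv₁' : ∀ x : Cn P, (x : G) ∈ P → x ≠ 1 → (F₀.ν d₁ : G → ℂ) x = eta P d₁.1 x := by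
    intro x hx hx1
    rw [h.val_nu trv_ker F₀ d₁ hx hx1, hε₀]
    simp
  have hv₂' : ∀ x : Cn P, (x : G) ∈ P → x ≠ 1 → (F₀.ν d₂ : G → ℂ) x = eta P d₂.1 x := by
    intro x hx hx1
    rw [h.val_nu trv_ker F₀ d₂ hx hx1, hε₀]
    simp
  have hreg' : ∀ g, ¬ p ∣ orderOf g → (F₀.ν d₁ : G → ℂ) g = (F₀.ν d₂ : G → ℂ) g :=
    fun g hg => h.nu_reg trv_ker F₀ d₁ d₂ hg
  obtain ⟨-, -, -, -, -, hΩ₁', hΩ₂', -, -⟩ :=
    h.caseB F₀ hd hB hD₀ hdeg₂' hne' (trv (Cn P)).2 hO₁' hO₂' hv₁' hv₂' hreg'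
  have hnorm : ∀ g, ‖(F.ν d₁ : G → ℂ) g‖ ^ 2 = ‖(F₀.ν d₁ : G → ℂ) g‖ ^ 2 := by
    intro g
    have h1 := (hΩ₁ g).trans (hΩ₁' g).symm
    rw [Complex.mul_conj, Complex.mul_conj, Complex.normSq_eq_norm_sq, Complex.normSq_eq_norm_sq] at h1
    exact_mod_cast h1
  have hbound : ∀ g, ¬ p ∣ orderOf g → ‖(F.ν d₁ : G → ℂ) g‖ < f → ‖(F.ν d₁ : G → ℂ) g‖ ^ 2 ≤ 1 := by
    intro g hg hlt
    have h1 : ‖(F₀.ν d₁ : G → ℂ) g‖ = ‖(F.ν d₁ : G → ℂ) g‖ := by
      have h2 := hnorm g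
      exact (pow_left_inj₀ (norm_nonneg _) (norm_nonneg _) two_ne_zero).mp h2.symm
    have h3 := h.bound_B F₀ hd hB hD₀ htrv hXp hXm hΩ₁' hΩ₂' hg (by rw [h1]; exact hlt)
    rw [hnorm g]
    exact h3
  exact h.order_B (F.ν d₁) hfaith hdeg θ.2 hO₁ hbound hd hB hv₁ hn2 hn

/-- The bound in the case of real periods. -/
theorem HD.final_A {θ : IrrCharacter (Cn P)} (hθP : ∀ x : Cn P, (x : G) ∈ P → (θ : Cn P → ℂ) x = (θ : Cn P → ℂ) 1)
    (F : Fam M P p θ) (F₀ : Fam M P p (trv (Cn P))) {d₁ d₂ : DD P p} (hd : d₂ ∉ orbF d₁) (hA : dinv d₁ ∈ orbF d₁)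
    (hε : F.ε = 1) (hdeg : charDegree (F.ν d₁ : G → ℂ) = f)
    (hfaith : ∀ g, (F.ν d₁ : G → ℂ) g = (F.ν d₁ : G → ℂ) 1 → g = 1) :
    (Nat.card G : ℝ) ≤ 2 * p * Nat.card (Subgroup.center G) * f * (f + 1) := by
  classical
  have hO₁ := h.over_of_nu hθP F d₁
  have hO₂ := h.over_of_nu hθP F d₂
  have hdeg₂ : charDegree (F.ν d₂ : G → ℂ) = f := by
    rw [← hdeg]
    exact h.nu_deg hθP F d₂ d₁
  have hne : F.ν d₁ ≠ F.ν d₂ := fun he => hd ((h.nu_eq_iff hθP F d₂ d₁).mp he.symm)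
  have hv₁ : ∀ x : Cn P, (x : G) ∈ P → x ≠ 1 → (F.ν d₁ : G → ℂ) x = eta P d₁.1 x := by
    intro x hx hx1
    rw [h.val_nu hθP F d₁ hx hx1, hε]
    simp
  have hv₂ : ∀ x : Cn P, (x : G) ∈ P → x ≠ 1 → (F.ν d₂ : G → ℂ) x = eta P d₂.1 x := by
    intro x hx hx1
    rw [h.val_nu hθP F d₂ hx hx1, hε]
    simp
  have hreg : ∀ g, ¬ p ∣ orderOf g → (F.ν d₁ : G → ℂ) g = (F.ν d₂ : G → ℂ) g := fun g hg => h.nu_reg hθP F d₁ d₂ hg
  obtain ⟨hε₀, hD₀, htrv₀, hXp₀, hXm₀, hΩ₁, hΩ₂, hn2, hn⟩ :=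
    h.caseA₁ F₀ hd hA hdeg hdeg₂ hne θ.2 hO₁ hO₂ hv₁ hv₂ hreg
  -- the character `θ` is not principal
  have htrv : trv G ∉ F.X := by
    intro hmem
    have hO := h.over_of_mem_X hθP F hmem
    have hZ1 : ∀ z : Subgroup.center G, (θ : Cn P → ℂ) (zC P z) = 1 := by
      intro z
      have h1 := hO 1 z
      simpa using h1.symm
    have hθ1 : (θ : Cn P → ℂ) 1 = 1 := isIrr_deg_one_of_comm h.comm_Cn θ.2
    have hθt : θ = trv (Cn P) := by
      apply Subtype.ext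
      funext c
      obtain ⟨x, z, hc⟩ := h.exists_dec c
      have h2 : c = pC h.hP x * zC P z := Subtype.ext hc
      rw [h2, h.theta_mul θ.2, hZ1, mul_one, hθP _ x.2, hθ1]
      rfl
    subst hθt
    obtain ⟨hε', -⟩ := h.caseA₁ F hd hA hdeg hdeg₂ hne (trv (Cn P)).2 hO₁ hO₂ hv₁ hv₂ hreg
    rw [hε] at hε'
    norm_num at hε'
  obtain ⟨hXp, hXm, h3, h4⟩ := h.caseA₂ hθP F F₀ hd hA hε hdeg hε₀ hD₀ htrv
  have hbound : ∀ g, ¬ p ∣ orderOf g → ‖(F.ν d₁ : G → ℂ) g‖ < f → ‖(F.ν d₁ : G → ℂ) g‖ ^ 2 ≤ 1 :=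
    fun g hg hlt => h.bound_A hθP F F₀ hd hA hdeg hD₀ htrv₀ htrv hXp₀ hXm₀ hXp hXm hΩ₁ hΩ₂ h3 h4 hg hlt
  exact h.order_A (F.ν d₁) hfaith hdeg θ.2 hO₁ hbound hd hA hv₁ hn2 (by push_cast; exact hn)

end Bound

/-- **The local analysis**. -/
theorem start {H : Type u} [Group H] [Finite H] {p f : ℕ} [hp : Fact p.Prime] (hp2 : ¬ p ^ 2 ∣ Nat.card H)
    (hdiv : p ∣ Nat.card H) (hgen : Subgroup.closure {u : H | u ^ p = 1} = ⊤) {ψ : H → ℂ}
    (hψ : IsIrrCharacter H ψ) (hfaith : ∀ g, ψ g = ψ 1 → g = 1) (hdeg : charDegree ψ = f) (hpf : p = 2 * f + 1)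
    (hf2 : 2 ≤ f) :
    ∃ Q : Subgroup H, HD Q p f ∧
      (∀ x x' : H, x ∈ Q → x ≠ 1 → x' ∈ Q → x' ≠ 1 → ψ x = ψ x' → ∃ z ∈ Nn Q, z⁻¹ * x * z = x') ∧
      Nat.card H ≤ 2 * p * Nat.card (Subgroup.center H) * f * (f + 1) := by
  classical
  letI := Fintype.ofFinite H
  have hpp : p.Prime := hp.out
  obtain ⟨M, hM⟩ := Cfsg.Agent.Lib.BlockH.Basic.exists_isPModular hpp
  haveI := finite_irrCharacter (G := H)
  letI := Fintype.ofFinite (IrrCharacter H)
  obtain ⟨S⟩ : Nonempty (Sylow p H) := inferInstance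
  have hfac : (Nat.card H).factorization p = 1 := by
    have h2 : 1 ≤ (Nat.card H).factorization p := (hpp.dvd_iff_one_le_factorization Nat.card_pos.ne').mp hdiv
    have h3 : ¬ 2 ≤ (Nat.card H).factorization p := fun h =>
      hp2 ((hpp.pow_dvd_iff_le_factorization Nat.card_pos.ne').mpr h)
    omega
  set Q : Subgroup H := (S : Subgroup H) with hQ
  have hP : Nat.card Q = p := by
    have h1 : Nat.card S = p ^ (Nat.card H).factorization p := S.card_eq_multiplicity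
    rw [hfac, pow_one] at h1
    exact h1
  letI : Fintype (Cn Q) := Fintype.ofFinite _
  letI : Fintype (Nn Q) := Fintype.ofFinite _
  haveI := finite_irrCharacter (G := Cn Q)
  letI := Fintype.ofFinite (IrrCharacter (Cn Q))
  haveI := finite_DD (p := p) (P := Q) hP hp2
  letI : Fintype (DD Q p) := Fintype.ofFinite _
  letI : Fintype (Subgroup.center H) := Fintype.ofFinite _
  letI : Fintype Q := Fintype.ofFinite _
  have hψc := isCharacter_of_isIrrCharacter hψ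
  have hsmall : 2 * charDegree ψ + 1 ≤ p := by omega
  obtain ⟨x₀, hx₀, hne⟩ : ∃ x ∈ Q, ψ x ≠ ψ 1 := by
    have : Nontrivial Q := Finite.one_lt_card_iff_nontrivial.mp (by rw [hP]; exact hpp.one_lt)
    obtain ⟨x, hx⟩ := exists_ne (1 : Q)
    exact ⟨x, x.2, fun h => hx (Subtype.ext (hfaith _ h))⟩
  obtain ⟨θ, d₀, hθP, hnn⟩ := exists_pair hP hp2 hψc ⟨x₀, hx₀, hne⟩
  obtain ⟨F⟩ := exists_fam hM hP hp2 θ hθP
  let ψI : IrrCharacter H := ⟨ψ, hψ⟩
  obtain ⟨h1, hε, -, -⟩ := small_mult hP hp2 hθP F ψI hsmall d₀ hnn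
  have hsmall' : 2 * charDegree (F.ν d₀ : H → ℂ) + 1 ≤ p := by rw [h1]; exact hsmall
  have hval : ∀ c : Cn Q, ψ c = ob Q d₀.1 (θ : Cn Q → ℂ) c := by
    intro c
    have h2 := form_nu hM hP hp2 hθP F d₀ hsmall' hε d₀ c
    rwa [h1] at h2
  obtain ⟨f', hf⟩ : ∃ f', Nat.card (Nn Q) = f' * Nat.card (Cn Q) := by
    have h2 : Nat.card (Cn Q) ∣ Nat.card (Nn Q) :=
      Subgroup.card_dvd_of_le (Subgroup.centralizer_le_normalizer _)
    obtain ⟨f', hf'⟩ := h2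
    exact ⟨f', by rw [hf', mul_comm]⟩
  have hone : ψ 1 = (f' : ℂ) * (θ : Cn Q → ℂ) 1 := by
    have h2 := hval 1
    rw [ob_one hf] at h2
    simpa using h2
  have hdegf : charDegree ψ = f' * charDegree (θ : Cn Q → ℂ) := by
    have h2 := charDegree_natCast hψc
    have h3 := charDegree_natCast (isCharacter_of_isIrrCharacter θ.2)
    rw [hone, ← h3] at h2
    exact_mod_cast h2
  have hfle : f' ≤ charDegree ψ := by
    rw [hdegf]
    exact Nat.le_mul_of_pos_right _ (charDegree_pos θ.2)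
  obtain ⟨F₀⟩ := exists_fam hM hP hp2 (trv (Cn Q)) trv_ker
  -- the kernel condition
  have hker : ∀ ξ : IrrCharacter H, (∀ x ∈ Q, (ξ : H → ℂ) x = (ξ : H → ℂ) 1) → ∀ g, (ξ : H → ℂ) g = (ξ : H → ℂ) 1 := by
    intro ξ hξ g
    have hξc := isCharacter_of_isIrrCharacter ξ.2
    have hle : Subgroup.closure {u : H | u ^ p = 1} ≤ charKer hξc := by
      rw [Subgroup.closure_le]
      intro u hu
      show (ξ : H → ℂ) u = (ξ : H → ℂ) 1
      by_cases hu1 : u = 1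
      · rw [hu1]
      · have hord : orderOf u = p := orderOf_eq_prime hu hu1
        have hcard : Nat.card (Subgroup.zpowers u) = p := by rw [Nat.card_zpowers, hord]
        obtain ⟨x, hx⟩ := exists_conj_of_card hP hp2 hcard
        have hmem : u ∈ Q.map (MulAut.conj x).toMonoidHom := by
          rw [hx]
          exact Subgroup.mem_zpowers u
        obtain ⟨w, hw, hwu⟩ := Subgroup.mem_map.mp hmem
        rw [← hwu]
        have h2 : (MulAut.conj x).toMonoidHom w = x * w * x⁻¹ := rfl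
        rw [h2, isClassFunction_of_isCharacter hξc w x]
        exact hξ w hw
    have hg : g ∈ charKer hξc := hle (by rw [hgen]; trivial)
    exact hg
  -- the order of the normalizer
  have hf'f : f' = f := by
    by_contra hne'
    have hlt : f' < f := by omega
    have hf2' : 2 * f' + 1 < p := by omega
    obtain ⟨d', hd'⟩ := exists_pf hM hP hp2 hθP F d₀ hsmall' hε F₀ hf hf2'
    have hf1 : f' = 1 := by
      rcases princ_count hM hP hp2 F₀ d' hd' hker hf with h | h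
      · exact h
      · omega
    -- the normalizer is the centralizer
    have hNC : ∀ y : Nn Q, (y : H) ∈ Cn Q := by
      intro y
      have h2 : Cn Q = Nn Q := by
        apply Subgroup.eq_of_le_of_card_ge (Subgroup.centralizer_le_normalizer _)
        rw [hf, hf1, one_mul]
      rw [h2]
      exact y.2
    have hcjH : ∀ (y : Nn Q) (x : Cn Q), (x : H) ∈ Q → cjH Q y x = x := by
      intro y x hx
      apply Subtype.ext
      have h2 := Subgroup.mem_centralizer_iff.mp (hNC y) (x : H) hx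
      simp only [coe_cjH]
      rw [mul_assoc, h2, inv_mul_cancel_left]
    have hvalP : ∀ x : Cn Q, (x : H) ∈ Q → ψ x = ((d₀.1 x : ℂˣ) : ℂ) * ψ 1 := by
      intro x hx
      rw [hval x, hone, hf1]
      simp only [ob, hcjH _ x hx, Finset.sum_const, Finset.card_univ, ← Nat.card_eq_fintype_card, hf, hf1, one_mul,
        nsmul_eq_mul, tw]
      rw [hθP x hx]
      have hC := card_ne_zero_Cn (P := Q)
      push_cast
      field_simp
    have hcentral : ∀ x ∈ Q, ∀ g : H, g * x = x * g := by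
      intro x hx g
      apply central_of_norm hψc hfaith _ g
      have hxC : x ∈ Cn Q := le_centralizer hP hx
      have h2 := hvalP ⟨x, hxC⟩ hx
      have h3 : ((d₀.1 ⟨x, hxC⟩ : ℂˣ) : ℂ) ^ p = 1 := by
        have h4 := congrArg Units.val (d₀.2.1 ⟨x, hxC⟩)
        simpa using h4
      have h5 : ‖((d₀.1 ⟨x, hxC⟩ : ℂˣ) : ℂ)‖ = 1 := Complex.norm_eq_one_of_pow_eq_one h3 hpp.ne_zero
      have h6 : ψ x = ((d₀.1 ⟨x, hxC⟩ : ℂˣ) : ℂ) * ψ 1 := h2
      rw [h6, norm_mul, h5, one_mul, ← charDegree_natCast hψc]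
      simp
    have hall : ∀ u : H, u ^ p = 1 → u ∈ Q := by
      intro u hu
      by_cases hu1 : u = 1
      · rw [hu1]
        exact Q.one_mem
      · have hord : orderOf u = p := orderOf_eq_prime hu hu1
        have huC : u ∈ Cn Q := by
          rw [Subgroup.mem_centralizer_iff]
          intro x hx
          exact (hcentral x hx u).symm
        exact mem_of_orderOf_eq hP hp2 huC hord
    have htop : Q = ⊤ := by
      rw [eq_top_iff, ← hgen, Subgroup.closure_le]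
      exact fun u hu => hall u hu
    have hcomm : ∀ a b : H, a * b = b * a := by
      intro a b
      have ha : a ∈ Q := by rw [htop]; trivial
      exact (hcentral a ha b).symm
    have h7 := isIrr_deg_one_of_comm hcomm hψ
    have h8 := charDegree_natCast hψc
    rw [h7, hdeg] at h8
    have h9 : f = 1 := by exact_mod_cast h8
    omega
  subst hf'f
  have hdegθ : charDegree (θ : Cn Q → ℂ) = 1 := by
    rw [hdeg] at hdegf
    have h2 : f' * 1 = f' * charDegree (θ : Cn Q → ℂ) := by omega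
    exact (Nat.eq_of_mul_eq_mul_left (by omega) h2).symm
  have hθ1 : (θ : Cn Q → ℂ) 1 = 1 := by
    rw [← charDegree_natCast (isCharacter_of_isIrrCharacter θ.2), hdegθ]
    simp
  have hinv := theta_inv hM hP hp2 hf hpf hker F₀ hθP hθ1 d₀ ψI hval
  -- the elements of order prime to `p` in the centralizer are central
  have hZ : ∀ c : Cn Q, ¬ p ∣ orderOf (c : H) → ∀ g : H, g * c = c * g := by
    intro c hc g
    apply central_of_norm hψc hfaith _ g
    have h2 : ψ c = (f' : ℂ) * (θ : Cn Q → ℂ) c := by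
      rw [hval c]
      have h3 : ∀ y : Nn Q, tw d₀.1 (θ : Cn Q → ℂ) (cjH Q y c) = (θ : Cn Q → ℂ) c := by
        intro y
        have h4 : (cjH Q y c : H) = (y : H)⁻¹ * c * y := coe_cjH _ _ _
        have h5 : ¬ p ∣ orderOf ((cjH Q y c : Cn Q) : H) := by
          rw [h4]
          have h7 : (y : H)⁻¹ * c * y = (MulAut.conj (y : H)⁻¹).toMonoidHom c := by
            simp [MulAut.conj_apply]
          rw [h7, orderOf_injective _ (MulAut.conj (y : H)⁻¹).injective]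
          exact hc
        have h6 := congrFun (hinv y) c
        rw [cjt_apply] at h6
        simp only [tw]
        rw [apply_eq_one_of_not_dvd d₀.2.1 _ h5, h6]
        simp
      simp only [ob, h3, Finset.sum_const, Finset.card_univ, ← Nat.card_eq_fintype_card, hf, nsmul_eq_mul]
      have hC := card_ne_zero_Cn (P := Q)
      push_cast
      field_simp
    rw [h2, norm_mul, norm_eq_one_of_mul_conj (mul_conj_eq_one θ.2 hθ1 c), mul_one, hdeg]
    simp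
  have hHD : HD Q p f' := ⟨hP, hp2, hf, hpf, hf2, hZ, hgen⟩
  have hψdeg : charDegree (F.ν d₀ : H → ℂ) = f' := by rw [h1]; exact hdeg
  have hfaith' : ∀ g, (F.ν d₀ : H → ℂ) g = (F.ν d₀ : H → ℂ) 1 → g = 1 := by
    rw [h1]
    exact hfaith
  obtain ⟨d₂, hd⟩ := hHD.exists_other d₀
  refine ⟨Q, hHD, ?_, ?_⟩
  · intro x x' hx hx1 hx' hx'1 he
    have hxC : x ∈ Cn Q := le_centralizer hP hx
    have hxC' : x' ∈ Cn Q := le_centralizer hP hx'
    have hv : ∀ x : Cn Q, (x : H) ∈ Q → x ≠ 1 → ψ x = eta Q d₀.1 x := by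
      intro x hx hx1
      have h2 := hHD.val_nu hθP F d₀ hx hx1
      rw [h1, hε] at h2
      simpa using h2
    have hne1 : (⟨x, hxC⟩ : Cn Q) ≠ 1 := fun h => hx1 (congrArg Subtype.val h)
    have hne2 : (⟨x', hxC'⟩ : Cn Q) ≠ 1 := fun h => hx'1 (congrArg Subtype.val h)
    have h2 := hv ⟨x, hxC⟩ hx hne1
    have h3 := hv ⟨x', hxC'⟩ hx' hne2
    obtain ⟨z, hz⟩ := exists_conj_of_eta_eq hP hp2 d₀ hx hne1 hx' hne2 (by rw [← h2, ← h3]; exact he)
    refine ⟨z, z.2, ?_⟩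
    have h4 := congrArg Subtype.val hz
    simpa [coe_cjH] using h4
  · have hfinal : (Nat.card H : ℝ) ≤ 2 * p * Nat.card (Subgroup.center H) * f' * (f' + 1) := by
      by_cases hA : dinv d₀ ∈ orbF d₀
      · exact hHD.final_A hθP F F₀ hd hA hε hψdeg hfaith'
      · exact hHD.final_B hθP F F₀ hd hA hε hψdeg hfaith'
    exact_mod_cast hfinal

end Cfsg.Agent.Lib.CharDeep.Half
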