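import Cfsg.Agent.Lib.CharDeep.Half.Cases
import Cfsg.Agent.Lib.Char.ClassProd

/-!
# The case of degree `(p - 1) / 2`: structure constants and the bound on the values
-/

set_option autoImplicit false
set_option linter.style.haveILetI false
set_option linter.unusedSectionVars false
set_option linter.unusedVariables false

namespace Cfsg.Agent.Lib.CharDeep.Half

open Cfsg
open Cfsg.Agent.Lib.Blocks.Local Cfsg.Agent.Lib.Blocks.Central Cfsg.Agent.Lib.Blocks.General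
open Cfsg.Agent.Lib.Blocks.Induced
open Cfsg.Agent.Lib.Char.Induced Cfsg.Agent.Lib.Char.Ortho Cfsg.Agent.Lib.Char.Linear
open Cfsg.Agent.Lib.Char.Basic Cfsg.Agent.Lib.Char.GenLattice Cfsg.Agent.Lib.Char.Complete
open Cfsg.Agent.Lib.Char.Degree
open Cfsg.Agent.Lib.ExcP.Gram Cfsg.Agent.Lib.ExcP.Inst Cfsg.Agent.Lib.ExcP.Dual
open Cfsg.Agent.Lib.ModRep.Prime Cfsg.Agent.Lib.ModRep.ThGram Cfsg.Agent.Lib.ModRep.ThIdem
open Cfsg.Agent.Lib.ModRep.ThDeg Cfsg.Agent.Lib.ModRep.Numerics2 Cfsg.Agent.Lib.ModRep.BlockTh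
open Cfsg.Agent.Lib.CharDeep.BrauerDeg
open Cfsg.Agent.Lib.Char.ClassProd
open scoped ComplexConjugate

universe u

variable {G : Type u} [Group G] {p f : ℕ} [hp : Fact p.Prime] {P : Subgroup G}

theorem norm_eq_one_of_mul_conj {a : ℂ} (h : a * conj a = 1) : ‖a‖ = 1 := by
  have h1 : ‖a * conj a‖ = 1 := by rw [h]; simp
  rw [norm_mul, RCLike.norm_conj] at h1
  have h2 : 0 ≤ ‖a‖ := norm_nonneg a
  nlinarith

section SS

variable [Fintype G] [Fintype (IrrCharacter G)]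

/-- The sum in Frobenius' formula. -/
noncomputable def SS (a b c : G) : ℂ :=
  ∑ χ : IrrCharacter G, (χ : G → ℂ) a * (χ : G → ℂ) b * conj ((χ : G → ℂ) c) / (χ : G → ℂ) 1

theorem SS_nonneg (a b c : G) : ∃ r : ℝ, 0 ≤ r ∧ SS a b c = r := by
  have h := card_product_eq a b c
  have hA : (0 : ℝ) < Nat.card {x : G // IsConj a x} := by
    haveI : Nonempty {x : G // IsConj a x} := ⟨⟨a, IsConj.refl a⟩⟩
    exact_mod_cast Nat.card_pos
  have hB : (0 : ℝ) < Nat.card {x : G // IsConj b x} := by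
    haveI : Nonempty {x : G // IsConj b x} := ⟨⟨b, IsConj.refl b⟩⟩
    exact_mod_cast Nat.card_pos
  have hn : (0 : ℝ) < Nat.card G := by exact_mod_cast Nat.card_pos
  refine ⟨(Nat.card {p : G × G // IsConj a p.1 ∧ IsConj b p.2 ∧ p.1 * p.2 = c} : ℝ) * Nat.card G /
    ((Nat.card {x : G // IsConj a x} : ℝ) * Nat.card {x : G // IsConj b x}), by positivity, ?_⟩
  have hA' : (Nat.card {x : G // IsConj a x} : ℂ) ≠ 0 := by exact_mod_cast hA.ne'
  have hB' : (Nat.card {x : G // IsConj b x} : ℂ) ≠ 0 := by exact_mod_cast hB.ne'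
  have hn' : (Nat.card G : ℂ) ≠ 0 := by exact_mod_cast hn.ne'
  push_cast
  rw [h]
  unfold SS
  field_simp

variable [Fintype (Subgroup.center G)]

/-- The average of the sum in Frobenius' formula. -/
noncomputable def AV (P : Subgroup G) (θ : Cn P → ℂ) (u v g : G) : ℂ :=
  (Nat.card (Subgroup.center G) : ℂ)⁻¹ *
    ∑ z : Subgroup.center G, conj (θ (zC P z)) * SS u (v * z) g

end SS

section Formula

variable [Fintype G] [Fintype (Cn P)] [Fintype (Nn P)] [Fintype (DD P p)] [Fintype (IrrCharacter G)]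
  [Fintype (IrrCharacter (Cn P))] [Fintype (Subgroup.center G)] [Fintype P] {M : Ideal AlgInt} (h : HD P p f)
  {θ : IrrCharacter (Cn P)} (hθP : ∀ x : Cn P, (x : G) ∈ P → (θ : Cn P → ℂ) x = (θ : Cn P → ℂ) 1)
  (F : Fam M P p θ)

include h hθP

omit hθP in
/-- The bound. -/
theorem HD.AV_bound (u v g : G) :
    ∃ R : ℝ, 0 ≤ R ∧ AV P (trv (Cn P) : Cn P → ℂ) u v g = R ∧
      ∀ θ : Cn P → ℂ, IsIrrCharacter (Cn P) θ → ‖AV P θ u v g‖ ≤ R := by
  classical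
  choose r hr0 hr using fun z : Subgroup.center G => SS_nonneg u (v * z) g
  have hZ : (0 : ℝ) < Nat.card (Subgroup.center G) := by exact_mod_cast Nat.card_pos
  refine ⟨(Nat.card (Subgroup.center G) : ℝ)⁻¹ * ∑ z, r z, by
    exact mul_nonneg (by positivity) (Finset.sum_nonneg fun z _ => hr0 z), ?_, ?_⟩
  · simp only [AV, trv_apply, map_one, one_mul, hr]
    push_cast
    rfl
  · intro θ hθ
    simp only [AV, hr]
    rw [norm_mul]
    have h1 : ‖((Nat.card (Subgroup.center G) : ℂ)⁻¹)‖ = (Nat.card (Subgroup.center G) : ℝ)⁻¹ := by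
      rw [norm_inv]
      simp
    rw [h1]
    apply mul_le_mul_of_nonneg_left _ (by positivity)
    refine (norm_sum_le _ _).trans (le_of_eq ?_)
    refine Finset.sum_congr rfl fun z _ => ?_
    rw [norm_mul, RCLike.norm_conj, norm_eq_one_of_mul_conj (h.theta_conj hθ (zC P z)), one_mul]
    simp [abs_of_nonneg (hr0 z)]

/-- The formula for the average. -/
theorem HD.AV_eq {d₁ d₂ : DD P p} (hd : d₂ ∉ orbF d₁) {u v : Cn P} (hu : (u : G) ∈ P) (hu1 : u ≠ 1)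
    (hv : (v : G) ∈ P) (hv1 : v ≠ 1) (g : G) :
    AV P (θ : Cn P → ℂ) u v g = ∑ χ ∈ F.X, conj ((χ : G → ℂ) g) / (χ : G → ℂ) 1 +
      eta P d₁.1 u * eta P d₁.1 v * conj ((F.ν d₁ : G → ℂ) g) / (F.ν d₁ : G → ℂ) 1 +
      eta P d₂.1 u * eta P d₂.1 v * conj ((F.ν d₂ : G → ℂ) g) / (F.ν d₂ : G → ℂ) 1 := by
  classical
  let a : IrrCharacter G → ℂ := fun χ => (χ : G → ℂ) u * conj ((χ : G → ℂ) g) / (χ : G → ℂ) 1
  have hε2 : (F.ε : ℂ) * F.ε = 1 := by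
    rcases F.hε with h1 | h1 <;> simp [h1]
  have hne : F.ν d₁ ≠ F.ν d₂ := fun he => hd ((h.nu_eq_iff hθP F d₂ d₁).mp he.symm)
  have hT : ∀ χ : IrrCharacter G, (Nat.card (Subgroup.center G) : ℂ)⁻¹ * ∑ z : Subgroup.center G,
      conj ((θ : Cn P → ℂ) (zC P z)) * (χ : G → ℂ) ((v : G) * z) =
      (if χ ∈ F.X then (F.εX χ : ℂ) else 0) + (F.ε : ℂ) *
        ((if χ = F.ν d₁ then eta P d₁.1 v else 0) + (if χ = F.ν d₂ then eta P d₂.1 v else 0)) := by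
    intro χ
    rw [h.expand hθP F (isClassFunction_of_isIrrCharacter χ.2) hd hv hv1]
    simp only [inner_irr]
    congr 1
    · by_cases hχ : χ ∈ F.X
      · rw [if_pos hχ, Finset.sum_eq_single χ]
        · simp
        · intro b _ hb
          rw [if_neg (Ne.symm hb), mul_zero]
        · exact fun h3 => absurd hχ h3
      · rw [if_neg hχ]
        apply Finset.sum_eq_zero
        intro b hb
        rw [if_neg (fun (he : χ = b) => hχ (he ▸ hb)), mul_zero]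
    · congr 2 <;> split_ifs <;> simp
  have h1 : AV P (θ : Cn P → ℂ) u v g = ∑ χ : IrrCharacter G, a χ *
      ((Nat.card (Subgroup.center G) : ℂ)⁻¹ * ∑ z : Subgroup.center G,
        conj ((θ : Cn P → ℂ) (zC P z)) * (χ : G → ℂ) ((v : G) * z)) := by
    simp only [AV, SS, Finset.mul_sum]
    rw [Finset.sum_comm]
    refine Finset.sum_congr rfl fun χ _ => ?_
    refine Finset.sum_congr rfl fun z _ => ?_
    simp only [a]
    ring
  rw [h1]
  simp only [hT, mul_add, Finset.sum_add_distrib]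
  have h2 : ∑ χ : IrrCharacter G, a χ * (if χ ∈ F.X then (F.εX χ : ℂ) else 0) =
      ∑ χ ∈ F.X, conj ((χ : G → ℂ) g) / (χ : G → ℂ) 1 := by
    have h3 : ∀ χ : IrrCharacter G, a χ * (if χ ∈ F.X then (F.εX χ : ℂ) else 0) =
        if χ ∈ F.X then conj ((χ : G → ℂ) g) / (χ : G → ℂ) 1 else 0 := by
      intro χ
      by_cases hχ : χ ∈ F.X
      · rw [if_pos hχ, if_pos hχ]
        simp only [a]
        rw [h.val_X hθP F hχ hu hu1]
        rcases F.hεX χ hχ with h4 | h4 <;> rw [h4] <;> push_cast <;> ring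
      · rw [if_neg hχ, if_neg hχ, mul_zero]
    simp only [h3]
    rw [Finset.sum_ite_mem, Finset.univ_inter]
  have h3 : ∀ e : DD P p, ∀ w : ℂ, ∑ χ : IrrCharacter G, a χ * ((F.ε : ℂ) * (if χ = F.ν e then w else 0)) =
      eta P e.1 u * w * conj ((F.ν e : G → ℂ) g) / (F.ν e : G → ℂ) 1 := by
    intro e w
    rw [Finset.sum_eq_single (F.ν e)]
    · simp only [a, if_true]
      rw [h.val_nu hθP F e hu hu1]
      linear_combination (eta P e.1 u * w * conj ((F.ν e : G → ℂ) g) / (F.ν e : G → ℂ) 1) * hε2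
    · intro b _ hb
      rw [if_neg hb, mul_zero, mul_zero]
    · exact fun h4 => absurd (Finset.mem_univ _) h4
  rw [h2, h3, h3]
  ring

/-- The sum over `X` in the principal block. -/
theorem HD.sum_X_prin (htrv : trv G ∈ F.X)
    (hXp : ∀ χ ∈ Xp F, χ = trv G ∨ charDegree (χ : G → ℂ) = 2 * f + 2)
    (hXm : ∀ χ ∈ Xm F, charDegree (χ : G → ℂ) = 2 * f) (g : G) :
    ∑ χ ∈ F.X, conj ((χ : G → ℂ) g) / (χ : G → ℂ) 1 =
      1 + conj (∑ χ ∈ Xp F, (χ : G → ℂ) g - 1) / (2 * f + 2) + conj (∑ χ ∈ Xm F, (χ : G → ℂ) g) / (2 * f) := by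
  classical
  have hf0 : (f : ℂ) ≠ 0 := by
    have := h.hf2
    exact Nat.cast_ne_zero.mpr (by omega)
  have hf1 : (2 * (f : ℂ) + 2) ≠ 0 := by
    have h2 : ((2 * f + 2 : ℕ) : ℂ) ≠ 0 := Nat.cast_ne_zero.mpr (by omega)
    push_cast at h2
    exact h2
  have hp' : trv G ∈ Xp F := (mem_Xp F).mpr ⟨htrv, h.trv_eps F hθP htrv⟩
  rw [sum_X_split F]
  have h1 : ∑ χ ∈ Xp F, conj ((χ : G → ℂ) g) / (χ : G → ℂ) 1 =
      1 + conj (∑ χ ∈ Xp F, (χ : G → ℂ) g - 1) / (2 * f + 2) := by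
    rw [← Finset.add_sum_erase _ _ hp']
    have h2 : ∑ χ ∈ Xp F, (χ : G → ℂ) g - 1 = ∑ χ ∈ (Xp F).erase (trv G), (χ : G → ℂ) g := by
      rw [← Finset.add_sum_erase _ _ hp']
      simp
    rw [h2, map_sum, Finset.sum_div]
    simp only [trv_apply, map_one, div_one]
    congr 1
    refine Finset.sum_congr rfl fun χ hχ => ?_
    obtain ⟨h3, h4⟩ := Finset.mem_erase.mp hχ
    have h5 := (hXp χ h4).resolve_left h3
    rw [← charDegree_natCast (isCharacter_of_isIrrCharacter χ.2), h5]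
    push_cast
    rfl
  have h2 : ∑ χ ∈ Xm F, conj ((χ : G → ℂ) g) / (χ : G → ℂ) 1 = conj (∑ χ ∈ Xm F, (χ : G → ℂ) g) / (2 * f) := by
    rw [map_sum, Finset.sum_div]
    refine Finset.sum_congr rfl fun χ hχ => ?_
    rw [← charDegree_natCast (isCharacter_of_isIrrCharacter χ.2), hXm χ hχ]
    push_cast
    rfl
  rw [h1, h2]

/-- The sum over `X` in a non-principal block. -/
theorem HD.sum_X_other (htrv : trv G ∉ F.X)
    (hXp : ∀ χ ∈ Xp F, χ = trv G ∨ charDegree (χ : G → ℂ) = 2 * f + 2)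
    (hXm : ∀ χ ∈ Xm F, charDegree (χ : G → ℂ) = 2 * f) (g : G) :
    ∑ χ ∈ F.X, conj ((χ : G → ℂ) g) / (χ : G → ℂ) 1 =
      conj (∑ χ ∈ Xp F, (χ : G → ℂ) g) / (2 * f + 2) + conj (∑ χ ∈ Xm F, (χ : G → ℂ) g) / (2 * f) := by
  classical
  rw [sum_X_split F]
  congr 1
  · rw [map_sum, Finset.sum_div]
    refine Finset.sum_congr rfl fun χ hχ => ?_
    have h3 : χ ≠ trv G := fun he => htrv (he ▸ ((mem_Xp F).mp hχ).1)
    rw [← charDegree_natCast (isCharacter_of_isIrrCharacter χ.2), (hXp χ hχ).resolve_left h3]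
    push_cast
    rfl
  · rw [map_sum, Finset.sum_div]
    refine Finset.sum_congr rfl fun χ hχ => ?_
    rw [← charDegree_natCast (isCharacter_of_isIrrCharacter χ.2), hXm χ hχ]
    push_cast
    rfl

end Formula

section Real

theorem real_B {f c : ℝ} (hf : 1 ≤ f) (h1 : 0 ≤ f + c ^ 2 + (f + 1) * c) (h2 : 0 ≤ f + c ^ 2 - (f + 1) * c)
    (h3 : |c| < f) : c ^ 2 ≤ 1 := by
  obtain ⟨h4, h5⟩ := abs_lt.mp h3
  have h6 : c ≤ 1 := by
    by_contra hlt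
    push Not at hlt
    nlinarith
  have h7 : -1 ≤ c := by
    by_contra hlt
    push Not at hlt
    nlinarith
  nlinarith

theorem real_A {f s v : ℝ} (hsf : s < f) (h1 : s * (v + f + 1) ≤ s ^ 2 + f + f * v)
    (h2 : s * (f + 1 - v) ≤ s ^ 2 + f - f * v) (hs : 0 ≤ s) : s ^ 2 ≤ 1 := by
  have h3 : s ≤ 1 + v := by
    by_contra hlt
    push Not at hlt
    nlinarith
  have h4 : s ≤ 1 - v := by
    by_contra hlt
    push Not at hlt
    nlinarith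
  nlinarith

end Real

section Bounds

variable [Fintype G] [Fintype (Cn P)] [Fintype (Nn P)] [Fintype (DD P p)] [Fintype (IrrCharacter G)]
  [Fintype (IrrCharacter (Cn P))] [Fintype (Subgroup.center G)] [Fintype P] {M : Ideal AlgInt} (h : HD P p f)

include h

/-- The bound on the values, case `B`. -/
theorem HD.bound_B (F : Fam M P p (trv (Cn P))) {d₁ d₂ : DD P p} (hd : d₂ ∉ orbF d₁) (hB : dinv d₁ ∉ orbF d₁)
    (hD : charDegree (F.ν d₁ : G → ℂ) = f) (htrv : trv G ∈ F.X)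
    (hXp : ∀ χ ∈ Xp F, χ = trv G ∨ charDegree (χ : G → ℂ) = 2 * f + 2)
    (hXm : ∀ χ ∈ Xm F, charDegree (χ : G → ℂ) = 2 * f)
    (h1 : ∀ g, (F.ν d₁ : G → ℂ) g * conj ((F.ν d₁ : G → ℂ) g) = ∑ χ ∈ Xp F, (χ : G → ℂ) g)
    (h2 : ∀ g, (F.ν d₁ : G → ℂ) g * conj ((F.ν d₂ : G → ℂ) g) = (F.ν d₂ : G → ℂ) g + ∑ χ ∈ Xm F, (χ : G → ℂ) g)
    {g : G} (hg : ¬ p ∣ orderOf g) (hlt : ‖(F.ν d₁ : G → ℂ) g‖ < f) : ‖(F.ν d₁ : G → ℂ) g‖ ^ 2 ≤ 1 := by
  classical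
  have hfR : (2 : ℝ) ≤ f := by exact_mod_cast h.hf2
  have hf0 : (f : ℂ) ≠ 0 := by
    have := h.hf2
    exact Nat.cast_ne_zero.mpr (by omega)
  have hf1 : (2 * (f : ℂ) + 2) ≠ 0 := by
    have h3 : ((2 * f + 2 : ℕ) : ℂ) ≠ 0 := Nat.cast_ne_zero.mpr (by omega)
    push_cast at h3
    exact h3
  have hf2 : (2 * (f : ℂ) + 1) ≠ 0 := by
    have h3 : ((2 * f + 1 : ℕ) : ℂ) ≠ 0 := Nat.cast_ne_zero.mpr (by omega)
    push_cast at h3
    exact h3
  obtain ⟨x, hx, hx1⟩ := h.exists_Psharp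
  obtain ⟨x', hx', hx'1, hs1, hs2⟩ := h.exists_swap hd hx hx1
  obtain ⟨-, -, h3, h4⟩ := h.rel_B hd hB hx hx1
  set c := (F.ν d₁ : G → ℂ) g with hc
  set r := eta P d₁.1 x with hr
  set r' := eta P d₂.1 x with hr'
  have hc2 : (F.ν d₂ : G → ℂ) g = c := h.nu_reg trv_ker F d₂ d₁ hg
  have hSp : ∑ χ ∈ Xp F, (χ : G → ℂ) g = c * conj c := (h1 g).symm
  have hSm : ∑ χ ∈ Xm F, (χ : G → ℂ) g = c * conj c - c := by
    have h5 := h2 g
    rw [hc2] at h5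
    linear_combination -h5
  have hone : ∀ e : DD P p, (F.ν e : G → ℂ) 1 = f := by
    intro e
    rw [← charDegree_natCast (isCharacter_of_isIrrCharacter (F.ν e).2), h.nu_deg trv_ker F e d₁, hD]
  have hsumX := h.sum_X_prin trv_ker F htrv hXp hXm g
  rw [hSp, hSm] at hsumX
  obtain ⟨R₁, hR₁0, hR₁, -⟩ := h.AV_bound (u := (x : G)) (v := (x : G)) (g := g)
  obtain ⟨R₂, hR₂0, hR₂, -⟩ := h.AV_bound (u := (x : G)) (v := (x' : G)) (g := g)
  have e₁ := h.AV_eq trv_ker F hd hx hx1 hx hx1 g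
  have e₂ := h.AV_eq trv_ker F hd hx hx1 hx' hx'1 g
  rw [hR₁, hsumX, hone, hone, hc2, ← hc, ← hr, ← hr'] at e₁
  rw [hR₂, hsumX, hone, hone, hc2, ← hc, hs1, hs2, ← hr, ← hr'] at e₂
  simp only [map_sub, map_mul, map_one, Complex.conj_conj] at e₁ e₂
  have hrr : r * r + r' * r' = - (f : ℂ) := by linear_combination (r + r' - 1) * h3 - h4
  have p₁ : r * r * conj c / f + r' * r' * conj c / f = - conj c := by
    rw [show r * r * conj c / f + r' * r' * conj c / f = (r * r + r' * r') * conj c / f by ring, hrr]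
    field_simp
  have p₂ : r * r' * conj c / f + r' * r * conj c / f = ((f : ℂ) + 1) / f * conj c := by
    rw [show r * r' * conj c / f + r' * r * conj c / f = (2 * (r * r')) / f * conj c by ring, h4]
  rw [add_assoc, p₁] at e₁
  rw [add_assoc, p₂] at e₂
  have hf2' : ((f : ℂ) * 2 + 1) ≠ 0 := by
    rw [mul_comm]
    exact hf2
  have e₃ : (R₂ : ℂ) - R₁ = (2 * (f : ℂ) + 1) / f * conj c := by
    rw [e₁, e₂]
    field_simp
    ring
  let c₀ : ℝ := f / (2 * f + 1) * (R₂ - R₁)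
  have hconj : conj c = (c₀ : ℂ) := by
    simp only [c₀]
    push_cast
    rw [e₃]
    field_simp
  have hc₀ : c = (c₀ : ℂ) := by
    have h5 := congrArg conj hconj
    rwa [Complex.conj_conj, Complex.conj_ofReal] at h5
  have hnorm : ‖c‖ = |c₀| := by
    rw [hc₀, Complex.norm_real, Real.norm_eq_abs]
  have hT : ‖c‖ ^ 2 = c₀ ^ 2 := by rw [hnorm, sq_abs]
  rw [hconj, hc₀] at e₁ e₂
  have hR1 : R₁ = 1 + (c₀ * c₀ - 1) / (2 * f + 2) + (c₀ * c₀ - c₀) / (2 * f) + - c₀ := by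
    exact_mod_cast e₁
  have hR2 : R₂ = 1 + (c₀ * c₀ - 1) / (2 * f + 2) + (c₀ * c₀ - c₀) / (2 * f) + (f + 1) / f * c₀ := by
    apply Complex.ofReal_injective
    push_cast
    exact e₂
  have hfpos : (0 : ℝ) < f := by linarith
  have hk : (0 : ℝ) < 2 * f + 1 := by linarith
  have hP1 : 0 ≤ (f : ℝ) + c₀ ^ 2 - (f + 1) * c₀ := by
    have h5 : (2 * (f : ℝ) + 1) * ((f : ℝ) + c₀ ^ 2 - (f + 1) * c₀) = R₁ * (2 * f * (f + 1)) := by
      rw [hR1]
      field_simp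
      ring
    have h6 : 0 ≤ (2 * (f : ℝ) + 1) * ((f : ℝ) + c₀ ^ 2 - (f + 1) * c₀) := by
      rw [h5]
      positivity
    exact (mul_nonneg_iff_of_pos_left hk).mp h6
  have hP2 : 0 ≤ (f : ℝ) + c₀ ^ 2 + (f + 1) * c₀ := by
    have h5 : (2 * (f : ℝ) + 1) * ((f : ℝ) + c₀ ^ 2 + (f + 1) * c₀) = R₂ * (2 * f * (f + 1)) := by
      rw [hR2]
      field_simp
      ring
    have h6 : 0 ≤ (2 * (f : ℝ) + 1) * ((f : ℝ) + c₀ ^ 2 + (f + 1) * c₀) := by
      rw [h5]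
      positivity
    exact (mul_nonneg_iff_of_pos_left hk).mp h6
  rw [hT]
  refine real_B (by linarith) hP2 hP1 ?_
  rw [← hnorm]
  exact hlt

/-- The bound on the values, case `A`. -/
theorem HD.bound_A {θ : IrrCharacter (Cn P)} (hθP : ∀ x : Cn P, (x : G) ∈ P → (θ : Cn P → ℂ) x = (θ : Cn P → ℂ) 1)
    (F : Fam M P p θ) (F₀ : Fam M P p (trv (Cn P))) {d₁ d₂ : DD P p} (hd : d₂ ∉ orbF d₁) (hA : dinv d₁ ∈ orbF d₁)
    (hD : charDegree (F.ν d₁ : G → ℂ) = f) (hD₀ : charDegree (F₀.ν d₁ : G → ℂ) = f + 1)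
    (htrv₀ : trv G ∈ F₀.X) (htrv : trv G ∉ F.X)
    (hXp₀ : ∀ χ ∈ Xp F₀, χ = trv G ∨ charDegree (χ : G → ℂ) = 2 * f + 2)
    (hXm₀ : ∀ χ ∈ Xm F₀, charDegree (χ : G → ℂ) = 2 * f)
    (hXp : ∀ χ ∈ Xp F, χ = trv G ∨ charDegree (χ : G → ℂ) = 2 * f + 2)
    (hXm : ∀ χ ∈ Xm F, charDegree (χ : G → ℂ) = 2 * f)
    (h1 : ∀ g, (F.ν d₁ : G → ℂ) g * conj ((F.ν d₁ : G → ℂ) g) = ∑ χ ∈ Xp F₀, (χ : G → ℂ) g + (F₀.ν d₁ : G → ℂ) g)
    (h2 : ∀ g, (F.ν d₂ : G → ℂ) g * conj ((F.ν d₁ : G → ℂ) g) = ∑ χ ∈ Xm F₀, (χ : G → ℂ) g)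
    (h3 : ∀ g, (F.ν d₁ : G → ℂ) g * (F₀.ν d₂ : G → ℂ) g = ∑ χ ∈ Xp F, (χ : G → ℂ) g)
    (h4 : ∀ g, (F.ν d₁ : G → ℂ) g * (F₀.ν d₁ : G → ℂ) g = ∑ χ ∈ Xm F, (χ : G → ℂ) g + (F.ν d₁ : G → ℂ) g)
    {g : G} (hg : ¬ p ∣ orderOf g) (hlt : ‖(F.ν d₁ : G → ℂ) g‖ < f) : ‖(F.ν d₁ : G → ℂ) g‖ ^ 2 ≤ 1 := by
  classical
  have hfR : (2 : ℝ) ≤ f := by exact_mod_cast h.hf2
  have hfpos : (0 : ℝ) < f := by linarith
  have hf0 : (f : ℂ) ≠ 0 := by
    have := h.hf2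
    exact Nat.cast_ne_zero.mpr (by omega)
  have hf1 : (2 * (f : ℂ) + 2) ≠ 0 := by
    have h5 : ((2 * f + 2 : ℕ) : ℂ) ≠ 0 := Nat.cast_ne_zero.mpr (by omega)
    push_cast at h5
    exact h5
  have hf1' : ((f : ℂ) + 1) ≠ 0 := by
    have h5 : ((f + 1 : ℕ) : ℂ) ≠ 0 := Nat.cast_ne_zero.mpr (by omega)
    push_cast at h5
    exact h5
  have hf2 : (2 * (f : ℂ) + 1) ≠ 0 := by
    have h5 : ((2 * f + 1 : ℕ) : ℂ) ≠ 0 := Nat.cast_ne_zero.mpr (by omega)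
    push_cast at h5
    exact h5
  have hf2' : ((f : ℂ) * 2 + 1) ≠ 0 := by
    rw [mul_comm]
    exact hf2
  obtain ⟨x, hx, hx1⟩ := h.exists_Psharp
  obtain ⟨x', hx', hx'1, hs1, hs2⟩ := h.exists_swap hd hx hx1
  obtain ⟨-, -, h5, h6⟩ := h.rel_A hd hA hx hx1
  set w := (F.ν d₁ : G → ℂ) g with hw
  set r := eta P d₁.1 x with hr
  set r' := eta P d₂.1 x with hr'
  set v := (F₀.ν d₁ : G → ℂ) g with hv
  have hw2 : (F.ν d₂ : G → ℂ) g = w := h.nu_reg hθP F d₂ d₁ hg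
  have hv2 : (F₀.ν d₂ : G → ℂ) g = v := h.nu_reg trv_ker F₀ d₂ d₁ hg
  set s : ℝ := ‖w‖ with hs
  have hs0 : 0 ≤ s := norm_nonneg w
  have hT : w * conj w = (s : ℂ) ^ 2 := by
    rw [Complex.mul_conj, Complex.normSq_eq_norm_sq]
    push_cast
    rfl
  have hTc : conj ((s : ℂ) ^ 2) = (s : ℂ) ^ 2 := by
    rw [map_pow, Complex.conj_ofReal]
  have hSp₀ : ∑ χ ∈ Xp F₀, (χ : G → ℂ) g = (s : ℂ) ^ 2 - v := by
    have h7 := h1 g
    rw [← hw, hT, ← hv] at h7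
    linear_combination -h7
  have hSm₀ : ∑ χ ∈ Xm F₀, (χ : G → ℂ) g = (s : ℂ) ^ 2 := by
    have h7 := h2 g
    rw [hw2, ← hw, hT] at h7
    exact h7.symm
  have hSp : ∑ χ ∈ Xp F, (χ : G → ℂ) g = w * v := by
    have h7 := h3 g
    rw [hv2, ← hw] at h7
    exact h7.symm
  have hSm : ∑ χ ∈ Xm F, (χ : G → ℂ) g = w * v - w := by
    have h7 := h4 g
    rw [← hw, ← hv] at h7
    linear_combination -h7
  have hone : ∀ e : DD P p, (F.ν e : G → ℂ) 1 = f := by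
    intro e
    rw [← charDegree_natCast (isCharacter_of_isIrrCharacter (F.ν e).2), h.nu_deg hθP F e d₁, hD]
  have hone₀ : ∀ e : DD P p, (F₀.ν e : G → ℂ) 1 = (f : ℂ) + 1 := by
    intro e
    rw [← charDegree_natCast (isCharacter_of_isIrrCharacter (F₀.ν e).2), h.nu_deg trv_ker F₀ e d₁, hD₀]
    push_cast
    rfl
  have hsumX₀ := h.sum_X_prin trv_ker F₀ htrv₀ hXp₀ hXm₀ g
  have hsumX := h.sum_X_other hθP F htrv hXp hXm g
  rw [hSp₀, hSm₀] at hsumX₀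
  rw [hSp, hSm] at hsumX
  obtain ⟨R₁, hR₁0, hR₁, hq₁⟩ := h.AV_bound (u := (x : G)) (v := (x : G)) (g := g)
  obtain ⟨R₂, hR₂0, hR₂, hq₂⟩ := h.AV_bound (u := (x : G)) (v := (x' : G)) (g := g)
  have hq₁' := hq₁ _ θ.2
  have hq₂' := hq₂ _ θ.2
  have e₁ := h.AV_eq trv_ker F₀ hd hx hx1 hx hx1 g
  have e₂ := h.AV_eq trv_ker F₀ hd hx hx1 hx' hx'1 g
  have e₃ := h.AV_eq hθP F hd hx hx1 hx hx1 g
  have e₄ := h.AV_eq hθP F hd hx hx1 hx' hx'1 g
  rw [hR₁, hsumX₀, hone₀, hone₀, hv2, ← hv, ← hr, ← hr'] at e₁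
  rw [hR₂, hsumX₀, hone₀, hone₀, hv2, ← hv, hs1, hs2, ← hr, ← hr'] at e₂
  rw [hsumX, hone, hone, hw2, ← hw, ← hr, ← hr'] at e₃
  rw [hsumX, hone, hone, hw2, ← hw, hs1, hs2, ← hr, ← hr'] at e₄
  simp only [map_sub, map_mul, map_one, hTc] at e₁ e₂ e₃ e₄
  have hrr : r * r + r' * r' = (f : ℂ) + 1 := by linear_combination (r + r' - 1) * h5 - h6
  have p₁ : r * r * conj v / ((f : ℂ) + 1) + r' * r' * conj v / ((f : ℂ) + 1) = conj v := by
    rw [show r * r * conj v / ((f : ℂ) + 1) + r' * r' * conj v / ((f : ℂ) + 1) =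
      (r * r + r' * r') * conj v / ((f : ℂ) + 1) by ring, hrr]
    field_simp
  have p₂ : r * r' * conj v / ((f : ℂ) + 1) + r' * r * conj v / ((f : ℂ) + 1) = - ((f : ℂ) / ((f : ℂ) + 1) * conj v) := by
    rw [show r * r' * conj v / ((f : ℂ) + 1) + r' * r * conj v / ((f : ℂ) + 1) =
      (2 * (r * r')) / ((f : ℂ) + 1) * conj v by ring, h6]
    ring
  have p₃ : r * r * conj w / f + r' * r' * conj w / f = ((f : ℂ) + 1) / f * conj w := by
    rw [show r * r * conj w / f + r' * r' * conj w / f = (r * r + r' * r') / f * conj w by ring, hrr]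
  have p₄ : r * r' * conj w / f + r' * r * conj w / f = - conj w := by
    rw [show r * r' * conj w / f + r' * r * conj w / f = (2 * (r * r')) * conj w / f by ring, h6]
    field_simp
  rw [add_assoc, p₁] at e₁
  rw [add_assoc, p₂] at e₂
  rw [add_assoc, p₃] at e₃
  rw [add_assoc, p₄] at e₄
  have e₅ : (R₁ : ℂ) - R₂ = (2 * (f : ℂ) + 1) / ((f : ℂ) + 1) * conj v := by
    rw [e₁, e₂]
    field_simp
    ring
  let v₀ : ℝ := (f + 1) / (2 * f + 1) * (R₁ - R₂)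
  have hconj : conj v = (v₀ : ℂ) := by
    simp only [v₀]
    push_cast
    rw [e₅]
    field_simp
  rw [hconj] at e₁ e₂ e₃ e₄
  have hR1 : R₁ = 1 + (s ^ 2 - v₀ - 1) / (2 * f + 2) + s ^ 2 / (2 * f) + v₀ := by
    apply Complex.ofReal_injective
    push_cast
    exact e₁
  have hR2 : R₂ = 1 + (s ^ 2 - v₀ - 1) / (2 * f + 2) + s ^ 2 / (2 * f) + - ((f : ℝ) / (f + 1) * v₀) := by
    apply Complex.ofReal_injective
    push_cast
    exact e₂
  let b₁ : ℝ := v₀ / (2 * f + 2) + (v₀ - 1) / (2 * f) + (f + 1) / f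
  let b₂ : ℝ := v₀ / (2 * f + 2) + (v₀ - 1) / (2 * f) - 1
  have hq3 : AV P (θ : Cn P → ℂ) x x g = conj w * (b₁ : ℂ) := by
    rw [e₃]
    simp only [b₁]
    push_cast
    ring
  have hq4 : AV P (θ : Cn P → ℂ) x x' g = conj w * (b₂ : ℂ) := by
    rw [e₄]
    simp only [b₂]
    push_cast
    ring
  have hnc : ‖conj w‖ = s := RCLike.norm_conj w
  rw [hq3, norm_mul, hnc, Complex.norm_real, Real.norm_eq_abs] at hq₁'
  rw [hq4, norm_mul, hnc, Complex.norm_real, Real.norm_eq_abs] at hq₂'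
  have hq5 : s * b₁ ≤ R₁ := (mul_le_mul_of_nonneg_left (le_abs_self b₁) hs0).trans hq₁'
  have hq6 : s * (- b₂) ≤ R₂ := (mul_le_mul_of_nonneg_left (neg_le_abs b₂) hs0).trans hq₂'
  have hk : (0 : ℝ) < 2 * f + 1 := by linarith
  have hK : (0 : ℝ) < (2 * f + 1) / (2 * f * (f + 1)) := by positivity
  have hb₁ : b₁ = (2 * f + 1) / (2 * f * (f + 1)) * (v₀ + f + 1) := by
    simp only [b₁]
    field_simp
    ring
  have hb₂ : - b₂ = (2 * f + 1) / (2 * f * (f + 1)) * (f + 1 - v₀) := by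
    simp only [b₂]
    field_simp
    ring
  have hR1' : R₁ = (2 * f + 1) / (2 * f * (f + 1)) * (s ^ 2 + f + f * v₀) := by
    rw [hR1]
    field_simp
    ring
  have hR2' : R₂ = (2 * f + 1) / (2 * f * (f + 1)) * (s ^ 2 + f - f * v₀) := by
    rw [hR2]
    field_simp
    ring
  rw [hb₁, hR1'] at hq5
  rw [hb₂, hR2'] at hq6
  have hq7 : s * (v₀ + f + 1) ≤ s ^ 2 + f + f * v₀ := by
    have h7 : (2 * (f : ℝ) + 1) / (2 * f * (f + 1)) * (s * (v₀ + f + 1)) ≤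
        (2 * f + 1) / (2 * f * (f + 1)) * (s ^ 2 + f + f * v₀) := by
      calc _ = s * ((2 * (f : ℝ) + 1) / (2 * f * (f + 1)) * (v₀ + f + 1)) := by ring
        _ ≤ _ := hq5
    exact le_of_mul_le_mul_left h7 hK
  have hq8 : s * (f + 1 - v₀) ≤ s ^ 2 + f - f * v₀ := by
    have h7 : (2 * (f : ℝ) + 1) / (2 * f * (f + 1)) * (s * (f + 1 - v₀)) ≤
        (2 * f + 1) / (2 * f * (f + 1)) * (s ^ 2 + f - f * v₀) := by
      calc _ = s * ((2 * (f : ℝ) + 1) / (2 * f * (f + 1)) * (f + 1 - v₀)) := by ring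
        _ ≤ _ := hq6
    exact le_of_mul_le_mul_left h7 hK
  exact real_A hlt hq7 hq8 hs0

end Bounds

end Cfsg.Agent.Lib.CharDeep.Half
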