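import Cfsg.Agent.Lib.ExcP.Gram

/-!
# Sylow subgroups of prime order: `p + 1` of them

Let the Sylow `p`-subgroups of `G` have order `p`, with exactly `p + 1` of them. Then every element of the centralizer
of a Sylow subgroup `P` is, up to an element of `P`, in the centralizer of all elements of order `p`.
-/

set_option autoImplicit false
set_option linter.style.haveILetI false
set_option linter.unusedSectionVars false
set_option linter.unusedVariables false

namespace Cfsg.Agent.Lib.CharDeep.Half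

open Cfsg.Agent.Lib.ExcP.Gram
open scoped Pointwise

universe u

variable {G : Type u} [Group G] [Finite G] {p : ℕ} [hp : Fact p.Prime]

/-- Sylow subgroups are of order `p`. -/
theorem card_sylow_of_sq (hdiv : p ∣ Nat.card G) (hp2 : ¬ p ^ 2 ∣ Nat.card G) (S : Sylow p G) :
    Nat.card (S : Subgroup G) = p := by
  have hpp := hp.out
  have h2 : 1 ≤ (Nat.card G).factorization p := (hpp.dvd_iff_one_le_factorization Nat.card_pos.ne').mp hdiv
  have h3 : ¬ 2 ≤ (Nat.card G).factorization p := fun h4 =>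
    hp2 ((hpp.pow_dvd_iff_le_factorization Nat.card_pos.ne').mpr h4)
  have h4 : (Nat.card G).factorization p = 1 := by omega
  have h5 := S.card_eq_multiplicity
  rwa [h4, pow_one] at h5

/-- Distinct Sylow subgroups of order `p` meet trivially. -/
theorem eq_one_of_mem_two {R R' : Sylow p G} (hR : Nat.card (R : Subgroup G) = p)
    (hR' : Nat.card (R' : Subgroup G) = p) (hne : R ≠ R') {a : G}
    (ha : a ∈ (R : Subgroup G)) (ha' : a ∈ (R' : Subgroup G)) : a = 1 := by
  by_contra h1
  apply hne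
  apply Sylow.ext
  rw [eq_zpowers_of_mem hR ha h1, eq_zpowers_of_mem hR' ha' h1]

/-- An element of a Sylow subgroup normalizing another one is trivial. -/
theorem eq_one_of_smul_eq {R R' : Sylow p G} (hR : Nat.card (R : Subgroup G) = p)
    (hR' : Nat.card (R' : Subgroup G) = p) (hne : R ≠ R') {a : G}
    (ha : a ∈ (R : Subgroup G)) (hs : a • R' = R') : a = 1 := by
  have h1 := (SetLike.ext_iff.mp (R.isPGroup'.inf_normalizer_sylow R') a).mp
    (Subgroup.mem_inf.mpr ⟨ha, Sylow.smul_eq_iff_mem_normalizer.mp hs⟩)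
  exact eq_one_of_mem_two hR hR' hne h1.1 h1.2

/-- **Transitivity** of a Sylow subgroup on the remaining ones. -/
theorem exists_smul_of_card (hdiv : p ∣ Nat.card G) (hp2 : ¬ p ^ 2 ∣ Nat.card G) (hs : Nat.card (Sylow p G) = p + 1)
    {P Q R : Sylow p G} (hQ : Q ≠ P) (hR : R ≠ P) : ∃ a ∈ (P : Subgroup G), a • Q = R := by
  classical
  have hc := card_sylow_of_sq hdiv hp2
  let O := {R : Sylow p G // R ≠ P}
  have hnorm : ∀ a ∈ (P : Subgroup G), a • P = P := by
    intro a ha
    exact Sylow.smul_eq_iff_mem_normalizer.mpr (Subgroup.le_normalizer ha)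
  have hstay : ∀ (a : (P : Subgroup G)) (R : Sylow p G), R ≠ P → (a : G) • R ≠ P := by
    intro a R hR he
    apply hR
    calc R = (a : G)⁻¹ • ((a : G) • R) := (inv_smul_smul _ _).symm
      _ = (a : G)⁻¹ • P := by rw [he]
      _ = P := hnorm _ ((P : Subgroup G).inv_mem a.2)
  let φ : ↥(P : Subgroup G) → O := fun a => ⟨(a : G) • Q, hstay a Q hQ⟩
  have hinj : Function.Injective φ := by
    intro a b hab
    have h1 : (a : G) • Q = (b : G) • Q := congrArg Subtype.val hab
    have h2 : ((b : G)⁻¹ * a) • Q = Q := by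
      rw [mul_smul, h1, inv_smul_smul]
    have h3 := eq_one_of_smul_eq (hc P) (hc Q) hQ.symm ((P : Subgroup G).mul_mem ((P : Subgroup G).inv_mem b.2) a.2) h2
    apply Subtype.ext
    rw [inv_mul_eq_one] at h3
    exact h3.symm
  have hcardO : Nat.card O = p := by
    letI := Fintype.ofFinite (Sylow p G)
    rw [Nat.card_eq_fintype_card, Fintype.card_subtype_compl, Fintype.card_subtype_eq, ← Nat.card_eq_fintype_card, hs]
    simp
  have hbij : Function.Bijective φ := by
    rw [Nat.bijective_iff_injective_and_card]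
    exact ⟨hinj, (hc P).trans hcardO.symm⟩
  obtain ⟨a, ha⟩ := hbij.2 ⟨R, hR⟩
  exact ⟨a, a.2, congrArg Subtype.val ha⟩

/-- **The kernel** of the action on the Sylow subgroups centralizes the elements of order `p`. -/
theorem comm_of_fix (hdiv : p ∣ Nat.card G) (hp2 : ¬ p ^ 2 ∣ Nat.card G) (hs : 1 < Nat.card (Sylow p G)) {t : G}
    (ht : ∀ R : Sylow p G, t • R = R) {u : G} (hu : u ^ p = 1) : t * u = u * t := by
  classical
  have hc := card_sylow_of_sq hdiv hp2
  by_cases hu1 : u = 1
  · rw [hu1, mul_one, one_mul]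
  have hord : orderOf u = p := orderOf_eq_prime hu hu1
  have hpg : IsPGroup p (Subgroup.zpowers u) := by
    apply IsPGroup.of_card (n := 1)
    rw [Nat.card_zpowers, hord, pow_one]
  obtain ⟨R, hR⟩ := hpg.exists_le_sylow
  have huR : u ∈ (R : Subgroup G) := hR (Subgroup.mem_zpowers u)
  -- the kernel
  let T : Subgroup G := (MulAction.toPermHom G (Sylow p G)).ker
  have hT : ∀ g, g ∈ T ↔ ∀ R : Sylow p G, g • R = R := by
    intro g
    simp only [T, MonoidHom.mem_ker]
    constructor
    · intro h1 R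
      have h2 := congrArg (fun e : Equiv.Perm (Sylow p G) => e R) h1
      exact h2
    · intro h1
      apply Equiv.ext
      intro R
      exact h1 R
  have htT : t ∈ T := (hT t).mpr ht
  have hTn : T.Normal := MonoidHom.normal_ker _
  let c : G := t * u * t⁻¹ * u⁻¹
  have hcT : c ∈ T := by
    have h1 : c = t * (u * t⁻¹ * u⁻¹) := by simp only [c]; group
    rw [h1]
    exact T.mul_mem htT (hTn.conj_mem _ (T.inv_mem htT) u)
  have hcR : c ∈ (R : Subgroup G) := by
    have h1 : t ∈ Subgroup.normalizer ((R : Subgroup G) : Set G) := Sylow.smul_eq_iff_mem_normalizer.mp (ht R)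
    have h2 : t * u * t⁻¹ ∈ (R : Subgroup G) := (Subgroup.mem_normalizer_iff.mp h1 u).mp huR
    exact (R : Subgroup G).mul_mem h2 ((R : Subgroup G).inv_mem huR)
  have hc1 : c = 1 := by
    by_contra hne
    have hRT : (R : Subgroup G) ≤ T := by
      rw [eq_zpowers_of_mem (hc R) hcR hne, Subgroup.zpowers_le]
      exact hcT
    apply hs.ne'
    rw [Nat.card_eq_one_iff_unique]
    refine ⟨⟨fun R₁ R₂ => ?_⟩, ⟨R⟩⟩
    have key : ∀ R' : Sylow p G, R' = R := by
      intro R'
      by_contra hne'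
      obtain ⟨x, hx, hx1⟩ : ∃ x ∈ (R : Subgroup G), x ≠ 1 := ⟨c, hcR, hne⟩
      exact hx1 (eq_one_of_smul_eq (hc R) (hc R') (Ne.symm hne') hx ((hT x).mp (hRT hx) R'))
    rw [key R₁, key R₂]
  have h1 : t * u * t⁻¹ * u⁻¹ = 1 := hc1
  have h2 : t * u * t⁻¹ = u := mul_inv_eq_one.mp h1
  exact mul_inv_eq_iff_eq_mul.mp h2

/-- **The main lemma**. -/
theorem exists_mul_comm_of_centralizer (hdiv : p ∣ Nat.card G) (hp2 : ¬ p ^ 2 ∣ Nat.card G)
    (hs : Nat.card (Sylow p G) = p + 1) (P : Sylow p G) {w : G} (hw : w ∈ Cn (P : Subgroup G)) :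
    ∃ a ∈ (P : Subgroup G), ∀ u : G, u ^ p = 1 → (a⁻¹ * w) * u = u * (a⁻¹ * w) := by
  classical
  have hc := card_sylow_of_sq hdiv hp2
  have h1s : 1 < Nat.card (Sylow p G) := by
    rw [hs]
    have := hp.out.pos
    omega
  have : Nontrivial (Sylow p G) := Finite.one_lt_card_iff_nontrivial.mp h1s
  obtain ⟨Q, hQ⟩ := exists_ne P
  have hnorm : ∀ a ∈ (P : Subgroup G), a • P = P := by
    intro a ha
    exact Sylow.smul_eq_iff_mem_normalizer.mpr (Subgroup.le_normalizer ha)
  have hwP : w • P = P := Sylow.smul_eq_iff_mem_normalizer.mpr (Subgroup.centralizer_le_normalizer _ hw)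
  have hwQ : w • Q ≠ P := by
    intro he
    apply hQ
    calc Q = w⁻¹ • (w • Q) := (inv_smul_smul _ _).symm
      _ = w⁻¹ • P := by rw [he]
      _ = w⁻¹ • (w • P) := by rw [hwP]
      _ = P := inv_smul_smul _ _
  obtain ⟨a, ha, haQ⟩ := exists_smul_of_card hdiv hp2 hs hQ hwQ
  refine ⟨a, ha, ?_⟩
  let t : G := a⁻¹ * w
  have htQ : t • Q = Q := by
    simp only [t]
    rw [mul_smul, ← haQ, inv_smul_smul]
  have hcomm : ∀ b ∈ (P : Subgroup G), t * b = b * t := by
    intro b hb
    have h1 : a * b = b * a := (Subgroup.mem_centralizer_iff.mp (le_centralizer (hc P) ha) b hb).symm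
    have h2 : b * w = w * b := Subgroup.mem_centralizer_iff.mp hw b hb
    have h3 : a⁻¹ * b = b * a⁻¹ := by
      rw [inv_mul_eq_iff_eq_mul, ← mul_assoc, h1, mul_assoc, mul_inv_cancel, mul_one]
    simp only [t]
    rw [mul_assoc, ← h2, ← mul_assoc, h3, mul_assoc]
  have ht : ∀ R : Sylow p G, t • R = R := by
    intro R
    by_cases hR : R = P
    · rw [hR]
      simp only [t]
      rw [mul_smul, hwP]
      exact hnorm _ ((P : Subgroup G).inv_mem ha)
    · obtain ⟨b, hb, rfl⟩ := exists_smul_of_card hdiv hp2 hs hQ hR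
      rw [← mul_smul, hcomm b hb, mul_smul, htQ]
  intro u hu
  exact comm_of_fix hdiv hp2 h1s ht hu

end Cfsg.Agent.Lib.CharDeep.Half
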