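import Cfsg.Agent.Lib.CharDeep.Half.Basic

/-!
# The case of degree `(p - 1) / 2`: Fourier expansion of class functions on `P`
-/

set_option autoImplicit false
set_option linter.style.haveILetI false
set_option linter.unusedSectionVars false
set_option linter.unusedVariables false

namespace Cfsg.Agent.Lib.CharDeep.Half

open Cfsg
open Cfsg.Agent.Lib.Blocks.Local Cfsg.Agent.Lib.Blocks.Central Cfsg.Agent.Lib.Blocks.General
open Cfsg.Agent.Lib.Blocks.Induced
open Cfsg.Agent.Lib.Char.Induced Cfsg.Agent.Lib.Char.Ortho Cfsg.Agent.Lib.Char.Linear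
open Cfsg.Agent.Lib.Char.Basic Cfsg.Agent.Lib.Char.GenLattice Cfsg.Agent.Lib.Char.Complete
open Cfsg.Agent.Lib.Char.Degree
open Cfsg.Agent.Lib.ExcP.Gram Cfsg.Agent.Lib.ExcP.Inst Cfsg.Agent.Lib.ExcP.Dual
open Cfsg.Agent.Lib.ModRep.Prime Cfsg.Agent.Lib.ModRep.ThGram Cfsg.Agent.Lib.ModRep.ThIdem
open Cfsg.Agent.Lib.ModRep.ThDeg Cfsg.Agent.Lib.ModRep.Numerics2 Cfsg.Agent.Lib.ModRep.BlockTh
open Cfsg.Agent.Lib.CharDeep.BrauerDeg
open scoped ComplexConjugate

universe u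

variable {G : Type u} [Group G] {p f : ℕ} [hp : Fact p.Prime] {P : Subgroup G}

/-- `Φ` lies over `θ`. -/
def Over (P : Subgroup G) (θ : Cn P → ℂ) (Φ : G → ℂ) : Prop :=
  ∀ (g : G) (z : Subgroup.center G), Φ (g * z) = θ (zC P z) * Φ g

theorem inner_irr [Fintype G] (a b : IrrCharacter G) :
    open scoped Classical in
    classInner (a : G → ℂ) (b : G → ℂ) = if a = b then 1 else 0 := by
  classical
  rw [classInner_irr a.2 b.2]
  by_cases hab : a = b
  · rw [if_pos hab, if_pos (congrArg _ hab)]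
  · rw [if_neg hab, if_neg (fun h => hab (Subtype.ext h))]

theorem HD.exists_Psharp [Finite G] (h : HD P p f) : ∃ x : Cn P, (x : G) ∈ P ∧ x ≠ 1 := by
  have : Nontrivial P := Finite.one_lt_card_iff_nontrivial.mp (by rw [h.hP]; exact hp.out.one_lt)
  obtain ⟨x, hx⟩ := exists_ne (1 : P)
  refine ⟨⟨x, le_centralizer h.hP x.2⟩, x.2, fun h0 => hx (Subtype.ext ?_)⟩
  have h1 : (x : G) = 1 := congrArg (Subtype.val : Cn P → G) h0
  exact h1

section Fourier

variable [Fintype G] [Fintype (Cn P)] [Fintype (Nn P)] [Fintype (DD P p)] [Fintype (Subgroup.center G)] [Fintype P]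
  (h : HD P p f)

include h

/-- The sum over `d` of values. -/
theorem HD.sum_W {x : Cn P} (hx : (x : G) ∈ P) (hx1 : x ≠ 1) (a : P) (z : Subgroup.center G) :
    open scoped Classical in
    ∑ d : DD P p, ((d.1 x : ℂˣ) : ℂ) * (conj ((d.1 (pC h.hP a * zC P z) : ℂˣ) : ℂ) - 1) =
      if x = pC h.hP a then (p : ℂ) else 0 := by
  classical
  have h1 : ∀ d : DD P p, ((d.1 x : ℂˣ) : ℂ) * (conj ((d.1 (pC h.hP a * zC P z) : ℂˣ) : ℂ) - 1) =
      ((d.1 x : ℂˣ) : ℂ) * conj ((d.1 (pC h.hP a) : ℂˣ) : ℂ) - ((d.1 x : ℂˣ) : ℂ) := by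
    intro d
    rw [map_mul, h.apply_zC d.2.1 z, mul_one]
    ring
  simp only [h1]
  rw [Finset.sum_sub_distrib, h.sum_DD_mul_conj hx a.2, sum_DD_apply h.hP h.hp2 hx hx1]
  split_ifs
  · rw [h.hpf]
    push_cast
    ring
  · ring

/-- **Fourier inversion**. -/
theorem HD.fourier_Z {θ : Cn P → ℂ} (hθ : IsIrrCharacter (Cn P) θ) (hθP : ∀ x : Cn P, (x : G) ∈ P → θ x = θ 1)
    (Φ : G → ℂ) {x : Cn P} (hx : (x : G) ∈ P) (hx1 : x ≠ 1) :
    (Nat.card (Subgroup.center G) : ℂ)⁻¹ * ∑ z : Subgroup.center G, conj (θ (zC P z)) * Φ ((x : G) * z) =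
      ∑ d : DD P p, ((d.1 x : ℂˣ) : ℂ) * (classInner (rs P Φ) (tw d.1 θ) - classInner (rs P Φ) θ) := by
  classical
  have hZ0 : (Nat.card (Subgroup.center G) : ℂ) ≠ 0 := Nat.cast_ne_zero.mpr Nat.card_pos.ne'
  have hp0 : (p : ℂ) ≠ 0 := Nat.cast_ne_zero.mpr hp.out.ne_zero
  have hCard : (Nat.card (Cn P) : ℂ) = p * Nat.card (Subgroup.center G) := by
    rw [h.card_Cn]
    push_cast
    rfl
  have h1 : ∀ d : DD P p, classInner (rs P Φ) (tw d.1 θ) - classInner (rs P Φ) θ =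
      (Nat.card (Cn P) : ℂ)⁻¹ * ∑ c : Cn P, Φ c * conj (θ c) * (conj ((d.1 c : ℂˣ) : ℂ) - 1) := by
    intro d
    rw [classInner_subgroup_eq, classInner_subgroup_eq, ← mul_sub, ← Finset.sum_sub_distrib]
    congr 1
    refine Finset.sum_congr rfl fun c _ => ?_
    simp only [rs, tw, map_mul]
    ring
  simp only [h1]
  conv_rhs => simp only [Finset.mul_sum]
  rw [Finset.sum_comm]
  have h2 : ∀ c : Cn P, ∑ d : DD P p, ((d.1 x : ℂˣ) : ℂ) * ((Nat.card (Cn P) : ℂ)⁻¹ *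
      (Φ c * conj (θ c) * (conj ((d.1 c : ℂˣ) : ℂ) - 1))) = (Nat.card (Cn P) : ℂ)⁻¹ * (Φ c * conj (θ c)) *
        ∑ d : DD P p, ((d.1 x : ℂˣ) : ℂ) * (conj ((d.1 c : ℂˣ) : ℂ) - 1) := by
    intro c
    rw [Finset.mul_sum]
    refine Finset.sum_congr rfl fun d _ => ?_
    ring
  simp only [h2]
  rw [h.sum_Cn]
  simp only [h.sum_W hx hx1]
  let a₀ : P := ⟨x, hx⟩
  have ha₀ : pC h.hP a₀ = x := rfl
  rw [Finset.sum_eq_single a₀]
  · simp only [ha₀, if_true]
    rw [Finset.mul_sum]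
    refine Finset.sum_congr rfl fun z _ => ?_
    have h3 : θ (x * zC P z) = θ (zC P z) := irr_mul_of_mem hθ hθP hx _
    have h4 : ((x * zC P z : Cn P) : G) = (x : G) * z := rfl
    rw [h3, h4, hCard]
    field_simp
  · intro a _ ha
    have hne : x ≠ pC h.hP a := by
      intro he
      apply ha
      apply Subtype.ext
      exact (congrArg Subtype.val he).symm
    simp [if_neg hne]
  · simp

end Fourier

section Expand

variable [Fintype G] [Fintype (Cn P)] [Fintype (Nn P)] [Fintype (DD P p)] [Fintype (IrrCharacter G)]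
  [Fintype (IrrCharacter (Cn P))] [Fintype (Subgroup.center G)] [Fintype P] {M : Ideal AlgInt} (h : HD P p f)
  {θ : IrrCharacter (Cn P)} (hθP : ∀ x : Cn P, (x : G) ∈ P → (θ : Cn P → ℂ) x = (θ : Cn P → ℂ) 1)
  (F : Fam M P p θ)

omit [Fintype (Subgroup.center G)] [Fintype P] in
/-- The difference of inner products, via the family. -/
theorem inner_diff {Φ : G → ℂ} (hΦ : IsClassFunction G Φ) (d : DD P p) :
    classInner (rs P Φ) (tw d.1 (θ : Cn P → ℂ)) - classInner (rs P Φ) (θ : Cn P → ℂ) =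
      - (∑ χ ∈ F.X, (F.εX χ : ℂ) * classInner Φ (χ : G → ℂ)) + (F.ε : ℂ) * classInner Φ (F.ν d : G → ℂ) := by
  have h1 := classInner_Ws_eq (θ : Cn P → ℂ) d.1 hΦ
  rw [inner_fam' F d Φ] at h1
  have h2 := congrArg conj h1
  simp only [map_add, map_neg, map_sum, map_mul, map_sub, classInner_conj, map_intCast] at h2
  exact h2.symm

include h hθP

/-- **The expansion**. -/
theorem HD.expand {Φ : G → ℂ} (hΦ : IsClassFunction G Φ) {d₁ d₂ : DD P p} (hd : d₂ ∉ orbF d₁) {x : Cn P}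
    (hx : (x : G) ∈ P) (hx1 : x ≠ 1) :
    (Nat.card (Subgroup.center G) : ℂ)⁻¹ * ∑ z : Subgroup.center G, conj ((θ : Cn P → ℂ) (zC P z)) * Φ ((x : G) * z) =
      ∑ χ ∈ F.X, (F.εX χ : ℂ) * classInner Φ (χ : G → ℂ) + (F.ε : ℂ) *
        (classInner Φ (F.ν d₁ : G → ℂ) * eta P d₁.1 x + classInner Φ (F.ν d₂ : G → ℂ) * eta P d₂.1 x) := by
  rw [h.fourier_Z θ.2 hθP Φ hx hx1]
  simp only [inner_diff F hΦ, mul_add]
  rw [Finset.sum_add_distrib]
  have h1 : ∑ d : DD P p, ((d.1 x : ℂˣ) : ℂ) * (- ∑ χ ∈ F.X, (F.εX χ : ℂ) * classInner Φ (χ : G → ℂ)) =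
      ∑ χ ∈ F.X, (F.εX χ : ℂ) * classInner Φ (χ : G → ℂ) := by
    rw [← Finset.sum_mul, sum_DD_apply h.hP h.hp2 hx hx1]
    ring
  rw [h1]
  congr 1
  rw [h.sum_orb hd]
  have h2 : ∀ d₀ : DD P p, ∑ d ∈ orbF d₀, ((d.1 x : ℂˣ) : ℂ) * ((F.ε : ℂ) * classInner Φ (F.ν d : G → ℂ)) =
      (F.ε : ℂ) * (classInner Φ (F.ν d₀ : G → ℂ) * eta P d₀.1 x) := by
    intro d₀
    rw [← sum_orbF_apply h.hP h.hp2 d₀, Finset.mul_sum, Finset.mul_sum]
    refine Finset.sum_congr rfl fun d hd' => ?_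
    rw [(h.nu_eq_iff hθP F d d₀).mpr hd']
    ring
  rw [h2, h2]

omit h hθP in
/-- The average of `θ̄ · θ` is one. -/
theorem over_avg (h : HD P p f) {θ : Cn P → ℂ} (hθ : IsIrrCharacter (Cn P) θ) {Φ : G → ℂ} (hΦ : Over P θ Φ) (x : G) :
    (Nat.card (Subgroup.center G) : ℂ)⁻¹ * ∑ z : Subgroup.center G, conj (θ (zC P z)) * Φ (x * z) = Φ x := by
  have hZ0 : (Nat.card (Subgroup.center G) : ℂ) ≠ 0 := Nat.cast_ne_zero.mpr Nat.card_pos.ne'
  have h1 : ∀ z : Subgroup.center G, conj (θ (zC P z)) * Φ (x * z) = Φ x := by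
    intro z
    rw [hΦ x z, ← mul_assoc, mul_comm (conj _), h.theta_conj hθ, one_mul]
  simp only [h1, Finset.sum_const, Finset.card_univ, nsmul_eq_mul]
  rw [← Nat.card_eq_fintype_card]
  field_simp

/-- The values of a class function over `θ` on `P`. -/
theorem HD.expand_over {Φ : G → ℂ} (hΦ : IsClassFunction G Φ) (hO : Over P (θ : Cn P → ℂ) Φ) {d₁ d₂ : DD P p}
    (hd : d₂ ∉ orbF d₁) {x : Cn P} (hx : (x : G) ∈ P) (hx1 : x ≠ 1) :
    Φ x = ∑ χ ∈ F.X, (F.εX χ : ℂ) * classInner Φ (χ : G → ℂ) + (F.ε : ℂ) *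
        (classInner Φ (F.ν d₁ : G → ℂ) * eta P d₁.1 x + classInner Φ (F.ν d₂ : G → ℂ) * eta P d₂.1 x) := by
  rw [← h.expand hθP F hΦ hd hx hx1, over_avg h θ.2 hO]

omit hθP in
/-- Dichotomy for irreducible characters. -/
theorem HD.over_or_zero {θ : Cn P → ℂ} (hθ : IsIrrCharacter (Cn P) θ) (χ : IrrCharacter G) :
    Over P θ (χ : G → ℂ) ∨ ∀ g : G, ∑ z : Subgroup.center G, conj (θ (zC P z)) * (χ : G → ℂ) (g * z) = 0 := by
  classical
  have h1χ : (χ : G → ℂ) 1 ≠ 0 := irr_one_ne_zero χ.2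
  have hcen : ∀ (z : Subgroup.center G) (g : G), (χ : G → ℂ) (g * z) = (χ : G → ℂ) z / (χ : G → ℂ) 1 * (χ : G → ℂ) g := by
    intro z g
    have hz := Subgroup.mem_center_iff.mp z.2
    rw [hz g]
    exact irr_mul_of_central χ.2 hz g
  let μ : Subgroup.center G → ℂ := fun z => conj (θ (zC P z)) * ((χ : G → ℂ) z / (χ : G → ℂ) 1)
  have hμ : ∀ a b, μ (a * b) = μ a * μ b := by
    intro a b
    have h2 : zC P (a * b) = zC P a * zC P b := rfl
    have h3 : (χ : G → ℂ) ((a * b : Subgroup.center G) : G) = (χ : G → ℂ) a / (χ : G → ℂ) 1 * (χ : G → ℂ) b := by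
      have h4 : ((a * b : Subgroup.center G) : G) = (a : G) * b := rfl
      rw [h4]
      exact irr_mul_of_central χ.2 (Subgroup.mem_center_iff.mp a.2) _
    simp only [μ, h2, h.theta_mul hθ, map_mul, h3]
    field_simp
  have hsum : ∀ g : G, ∑ z : Subgroup.center G, conj (θ (zC P z)) * (χ : G → ℂ) (g * z) =
      (∑ z, μ z) * (χ : G → ℂ) g := by
    intro g
    rw [Finset.sum_mul]
    refine Finset.sum_congr rfl fun z _ => ?_
    rw [hcen z g]
    simp only [μ]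
    ring
  by_cases hall : ∀ z, μ z = 1
  · left
    intro g z
    rw [hcen z g]
    congr 1
    have h2 := hall z
    have h3 := h.theta_conj hθ (zC P z)
    simp only [μ] at h2
    calc (χ : G → ℂ) z / (χ : G → ℂ) 1
        = (θ (zC P z) * conj (θ (zC P z))) * ((χ : G → ℂ) z / (χ : G → ℂ) 1) := by rw [h3, one_mul]
      _ = θ (zC P z) * (conj (θ (zC P z)) * ((χ : G → ℂ) z / (χ : G → ℂ) 1)) := by ring
      _ = θ (zC P z) := by rw [h2, mul_one]
  · right
    push Not at hall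
    obtain ⟨z₀, hz₀⟩ := hall
    intro g
    rw [hsum g]
    have h2 : ∑ z, μ z = μ z₀ * ∑ z, μ z := by
      rw [Finset.mul_sum]
      rw [← Fintype.sum_equiv (Equiv.mulLeft z₀) (fun z => μ (z₀ * z)) μ (fun z => rfl)]
      exact Finset.sum_congr rfl fun z _ => hμ z₀ z
    have h3 : (1 - μ z₀) * ∑ z, μ z = 0 := by linear_combination h2
    have h4 := (mul_eq_zero.mp h3).resolve_left (sub_ne_zero.mpr (Ne.symm hz₀))
    rw [h4, zero_mul]

omit hθP in
/-- The first period is not zero. -/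
theorem HD.eta_ne_zero {d₁ d₂ : DD P p} (hd : d₂ ∉ orbF d₁) {x : Cn P} (hx : (x : G) ∈ P) (hx1 : x ≠ 1) :
    eta P d₁.1 x ≠ 0 := by
  intro h0
  have h1 := h.eta_add hd hx hx1
  have h2 := h.eta_norm hd hx hx1
  rw [h0, zero_add] at h1
  rw [h0, h1] at h2
  simp only [zero_mul, zero_add, map_neg, map_one, mul_neg, mul_one, neg_neg] at h2
  have h3 : (f : ℂ) = 0 := by linear_combination -h2
  have h4 : f = 0 := by exact_mod_cast h3
  have := h.hf2
  omega

omit h hθP in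
/-- The elements of `X` are not exceptional. -/
theorem nu_not_mem_X (d : DD P p) : F.ν d ∉ F.X := fun h1 =>
  Finset.disjoint_left.mp F.hdisj h1 ((F.hY _).mpr ⟨d, rfl⟩)

/-- The values at `P` of the elements of `X`, and the central character. -/
theorem HD.over_of_mem_X {χ : IrrCharacter G} (hχ : χ ∈ F.X) : Over P (θ : Cn P → ℂ) (χ : G → ℂ) := by
  classical
  rcases h.over_or_zero θ.2 χ with h1 | h1
  · exact h1
  · exfalso
    obtain ⟨x, hx, hx1⟩ := h.exists_Psharp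
    obtain ⟨d₁⟩ : Nonempty (DD P p) := by
      rw [← Fintype.card_pos_iff, ← Nat.card_eq_fintype_card, card_DD h.hP h.hp2]
      have := hp.out.two_le
      omega
    obtain ⟨d₂, hd⟩ := h.exists_other d₁
    have h2 := h.expand hθP F (isClassFunction_of_isIrrCharacter χ.2) hd hx hx1
    rw [h1, mul_zero] at h2
    have hne : ∀ d, χ ≠ F.ν d := fun d he => nu_not_mem_X F d (he ▸ hχ)
    simp only [inner_irr, if_neg (hne d₁), if_neg (hne d₂), zero_mul, add_zero, mul_zero] at h2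
    rw [Finset.sum_eq_single χ] at h2
    · rw [if_pos rfl, mul_one] at h2
      rcases F.hεX χ hχ with h3 | h3 <;> rw [h3] at h2 <;> simp at h2
    · intro b _ hb
      rw [if_neg (fun he => hb he.symm), mul_zero]
    · exact fun h3 => absurd hχ h3

theorem HD.over_of_nu (d : DD P p) : Over P (θ : Cn P → ℂ) (F.ν d : G → ℂ) := by
  classical
  rcases h.over_or_zero θ.2 (F.ν d) with h1 | h1
  · exact h1
  · exfalso
    obtain ⟨x, hx, hx1⟩ := h.exists_Psharp
    obtain ⟨d₂, hd⟩ := h.exists_other d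
    have h2 := h.expand hθP F (isClassFunction_of_isIrrCharacter (F.ν d).2) hd hx hx1
    rw [h1, mul_zero] at h2
    have hne : F.ν d ≠ F.ν d₂ := fun he => hd ((h.nu_eq_iff hθP F d₂ d).mp he.symm)
    have hnotX : ∀ χ ∈ F.X, χ ≠ F.ν d := fun χ hχ he => nu_not_mem_X F d (he ▸ hχ)
    simp only [inner_irr, if_true, if_neg hne, zero_mul, add_zero, one_mul] at h2
    rw [Finset.sum_eq_zero (fun χ hχ => by rw [if_neg (Ne.symm (hnotX χ hχ)), mul_zero]), zero_add] at h2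
    have hε : (F.ε : ℂ) ≠ 0 := by
      rcases F.hε with h3 | h3 <;> simp [h3]
    exact (mul_ne_zero hε (h.eta_ne_zero hd hx hx1)) h2.symm

/-- The values of the elements of `X` on `P`. -/
theorem HD.val_X {χ : IrrCharacter G} (hχ : χ ∈ F.X) {x : Cn P} (hx : (x : G) ∈ P) (hx1 : x ≠ 1) :
    (χ : G → ℂ) x = (F.εX χ : ℂ) := by
  classical
  obtain ⟨d₁⟩ : Nonempty (DD P p) := by
    rw [← Fintype.card_pos_iff, ← Nat.card_eq_fintype_card, card_DD h.hP h.hp2]
    have := hp.out.two_le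
    omega
  obtain ⟨d₂, hd⟩ := h.exists_other d₁
  rw [h.expand_over hθP F (isClassFunction_of_isIrrCharacter χ.2) (h.over_of_mem_X hθP F hχ) hd hx hx1]
  have hne : ∀ d, χ ≠ F.ν d := fun d he => nu_not_mem_X F d (he ▸ hχ)
  simp only [inner_irr, if_neg (hne d₁), if_neg (hne d₂), zero_mul, add_zero, mul_zero]
  rw [Finset.sum_eq_single χ]
  · rw [if_pos rfl, mul_one]
  · intro b _ hb
    rw [if_neg (fun he => hb he.symm), mul_zero]
  · exact fun h3 => absurd hχ h3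

/-- The values of the exceptional characters on `P`. -/
theorem HD.val_nu (d : DD P p) {x : Cn P} (hx : (x : G) ∈ P) (hx1 : x ≠ 1) :
    (F.ν d : G → ℂ) x = (F.ε : ℂ) * eta P d.1 x := by
  classical
  obtain ⟨d₂, hd⟩ := h.exists_other d
  rw [h.expand_over hθP F (isClassFunction_of_isIrrCharacter (F.ν d).2) (h.over_of_nu hθP F d) hd hx hx1]
  have hne : F.ν d ≠ F.ν d₂ := fun he => hd ((h.nu_eq_iff hθP F d₂ d).mp he.symm)
  have hnotX : ∀ χ ∈ F.X, χ ≠ F.ν d := fun χ hχ he => nu_not_mem_X F d (he ▸ hχ)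
  simp only [inner_irr, if_true, if_neg hne, zero_mul, add_zero, one_mul]
  rw [Finset.sum_eq_zero (fun χ hχ => by rw [if_neg (Ne.symm (hnotX χ hχ)), mul_zero]), zero_add]

end Expand

end Cfsg.Agent.Lib.CharDeep.Half
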